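import Mathlib
import Cfsg.Prelude.Def_LieExceptional
import Cfsg.Agent.Lib.Helper12.CN

set_option autoImplicit false
set_option linter.style.haveILetI false

namespace Cfsg.Agent.Lib.Helper12

universe u v

/-- the CN property passes to quotients by nontrivial normal abelian `p`-subgroups -/
theorem cn_quot_p {G : Type u} [Group G] [Finite G] (hCN : Cfsg.IsCNGroup G) (p : ℕ)
    [Fact p.Prime]
    (N : Subgroup G) [N.Normal] (hNp : IsPGroup p N) (hN1 : N ≠ ⊥)
    (hNab : ∀ a ∈ N, ∀ b ∈ N, a * b = b * a) : Cfsg.IsCNGroup (G ⧸ N) := by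
  classical
  have hp : p.Prime := Fact.out
  obtain ⟨a, hcardN⟩ := hNp.exists_card_eq
  have hNsolv : Group.IsSolvable N := Group.isSolvable_of_comm (fun x y => Subtype.ext (hNab x x.2 y y.2))
  intro xb hxb
  have hord0 : orderOf xb ≠ 0 := (orderOf_pos xb).ne'
  have hord1 : orderOf xb ≠ 1 := by rwa [Ne, orderOf_eq_one_iff]
  obtain ⟨r, hr⟩ : ∃ r, r = (orderOf xb).minFac := ⟨_, rfl⟩
  have hrp : r.Prime := by rw [hr]; exact Nat.minFac_prime hord1
  obtain ⟨yb, hyb⟩ : ∃ yb, yb = xb ^ (orderOf xb / r) := ⟨_, rfl⟩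
  have hyord : orderOf yb = r := by
    rw [hyb]; exact orderOf_pow_orderOf_div hord0 (by rw [hr]; exact Nat.minFac_dvd _)
  have hyb1 : yb ≠ 1 := by
    intro h
    rw [h, orderOf_one] at hyord
    exact hrp.one_lt.ne hyord
  have hle : Subgroup.centralizer ({xb} : Set (G ⧸ N)) ≤
      Subgroup.centralizer ({yb} : Set (G ⧸ N)) := by
    intro c hc
    rw [Subgroup.mem_centralizer_singleton_iff] at hc ⊢
    rw [hyb]
    exact (Commute.pow_right (show Commute c xb from hc) _).eq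
  refine nilp_of_le hle ?_
  have hyr : yb ^ r = 1 := by rw [← hyord]; exact pow_orderOf_eq_one yb
  by_cases hrp' : r = p
  · have hyp : yb ^ p = 1 := hrp' ▸ hyr
    obtain ⟨x, hx⟩ := QuotientGroup.mk_surjective yb
    have hxN : x ∉ N := fun h => hyb1 (by rw [← hx]; exact (QuotientGroup.eq_one_iff x).mpr h)
    have hxpN : x ^ p ∈ N := by
      rw [← QuotientGroup.eq_one_iff, QuotientGroup.mk_pow, hx]; exact hyp
    have hxp : ∃ k : ℕ, x ^ p ^ k = 1 := by
      obtain ⟨k, hk⟩ := hNp ⟨x ^ p, hxpN⟩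
      refine ⟨k + 1, ?_⟩
      have := congrArg Subtype.val hk
      simp only [Subgroup.coe_pow, Subgroup.coe_one] at this
      rw [pow_succ', pow_mul]; exact this
    have hZne : ∃ z ∈ N, z ≠ 1 ∧ x * z = z * x :=
      exists_fixed_of_pgroup p N hNp hN1 x hxp
        (fun z hz => Subgroup.Normal.conj_mem inferInstance z hz x)
    have hpelt : ∀ z ∈ N, ∃ k : ℕ, z ^ p ^ k = 1 := by
      intro z hz
      obtain ⟨k, hk⟩ := hNp ⟨z, hz⟩
      exact ⟨k, by simpa only [Subgroup.coe_pow, Subgroup.coe_one] using congrArg Subtype.val hk⟩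
    -- lifts of `q`-elements, `q ≠ p`
    have hS : ∀ (q : ℕ), q.Prime → q ≠ p → ∀ (c : G ⧸ N), c * yb = yb * c →
        (∃ k : ℕ, c ^ q ^ k = 1) →
        ∃ c0 : G, (c0 : G ⧸ N) = c ∧ (∃ k : ℕ, c0 ^ q ^ k = 1) ∧
          ∀ z ∈ N, x * z = z * x → c0 * z = z * c0 := by
      intro q hq hqp c hc ⟨k, hk⟩
      have hcop : (q ^ k).Coprime (Nat.card N) := by
        rw [hcardN]; exact Nat.Coprime.pow _ _ ((Nat.coprime_primes hq hp).mpr hqp)
      obtain ⟨c0, hc0, hc0k⟩ := exists_lift_pow N (q ^ k) hcop c hk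
      refine ⟨c0, hc0, ⟨k, hc0k⟩, ?_⟩
      have hmem : x⁻¹ * c0 * x * c0⁻¹ ∈ N := by
        rw [← QuotientGroup.eq_one_iff]
        simp only [QuotientGroup.mk_mul, QuotientGroup.mk_inv]
        rw [hx, hc0, mul_assoc yb⁻¹, hc, ← mul_assoc, inv_mul_cancel, one_mul, mul_inv_cancel]
      have hoc : (orderOf c0).Coprime (Nat.card N) :=
        Nat.Coprime.coprime_dvd_left (orderOf_dvd_of_pow_eq_one hc0k) hcop
      obtain ⟨n1, hn1, hcomm⟩ := exists_comm_lift N hNsolv c0 x hoc hmem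
      have hx1' : x * n1 ≠ 1 := by
        intro h
        apply hxN
        have : x = n1⁻¹ := eq_inv_of_mul_eq_one_left h
        rw [this]; exact N.inv_mem hn1
      have hnil := hCN (x * n1) hx1'
      intro z hz hxz
      have hzc : z ∈ Subgroup.centralizer ({x * n1} : Set G) := by
        rw [Subgroup.mem_centralizer_singleton_iff]
        rw [← mul_assoc, ← hxz, mul_assoc, hNab z hz n1 hn1, mul_assoc]
      have hcc : c0 ∈ Subgroup.centralizer ({x * n1} : Set G) := by
        rw [Subgroup.mem_centralizer_singleton_iff]; exact hcomm.symm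
      exact nilp_comm_sub hnil hq hp hqp c0 z hcc hzc ⟨k, hc0k⟩ (hpelt z hz)
    -- lifts of arbitrary prime power order elements
    have hQ : ∀ (s : ℕ), s.Prime → ∀ (c : G ⧸ N), c * yb = yb * c → (∃ k : ℕ, c ^ s ^ k = 1) →
        ∃ c0 : G, (c0 : G ⧸ N) = c ∧ (∃ k : ℕ, c0 ^ s ^ k = 1) ∧
          ∃ z ∈ N, z ≠ 1 ∧ x * z = z * x ∧ c0 * z = z * c0 := by
      intro s hs c hc hck
      by_cases hsp : s = p
      · rw [hsp] at hck ⊢
        obtain ⟨c0, hc0⟩ := QuotientGroup.mk_surjective c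
        obtain ⟨k, hk⟩ := hck
        have hc0p : ∃ k : ℕ, c0 ^ p ^ k = 1 := by
          have h1 : c0 ^ p ^ k ∈ N := by
            rw [← QuotientGroup.eq_one_iff, QuotientGroup.mk_pow, hc0]; exact hk
          obtain ⟨j, hj⟩ := hNp ⟨c0 ^ p ^ k, h1⟩
          refine ⟨k + j, ?_⟩
          have := congrArg Subtype.val hj
          simp only [Subgroup.coe_pow, Subgroup.coe_one] at this
          rw [pow_add, pow_mul]; exact this
        obtain ⟨Z, hZ⟩ : ∃ Z : Subgroup G, Z = N ⊓ Subgroup.centralizer ({x} : Set G) := ⟨_, rfl⟩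
        have hZp : IsPGroup p Z := by rw [hZ]; exact hNp.to_le inf_le_left
        have hZ1 : Z ≠ ⊥ := by
          obtain ⟨z, hz, hz1, hxz⟩ := hZne
          intro h
          have : z ∈ Z := by
            rw [hZ]
            exact Subgroup.mem_inf.mpr ⟨hz, Subgroup.mem_centralizer_singleton_iff.mpr hxz.symm⟩
          rw [h] at this; exact hz1 (Subgroup.mem_bot.mp this)
        have hm : c0⁻¹ * x * c0 * x⁻¹ ∈ N := by
          rw [← QuotientGroup.eq_one_iff]
          simp only [QuotientGroup.mk_mul, QuotientGroup.mk_inv]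
          rw [hx, hc0, mul_assoc c⁻¹, ← hc, ← mul_assoc, inv_mul_cancel, one_mul, mul_inv_cancel]
        have hnorm : ∀ z ∈ Z, c0 * z * c0⁻¹ ∈ Z := by
          intro z hzZ
          rw [hZ] at hzZ ⊢
          obtain ⟨hzN, hzx⟩ := Subgroup.mem_inf.mp hzZ
          rw [Subgroup.mem_centralizer_singleton_iff] at hzx
          refine Subgroup.mem_inf.mpr ⟨Subgroup.Normal.conj_mem inferInstance z hzN c0, ?_⟩
          rw [Subgroup.mem_centralizer_singleton_iff]
          have e0 : c0⁻¹ * x * c0 = (c0⁻¹ * x * c0 * x⁻¹) * x := by group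
          have e1 : z * (c0⁻¹ * x * c0) = (c0⁻¹ * x * c0) * z := by
            rw [e0, ← mul_assoc, hNab z hzN _ hm, mul_assoc, hzx, ← mul_assoc]
          calc c0 * z * c0⁻¹ * x = c0 * (z * (c0⁻¹ * x * c0)) * c0⁻¹ := by group
            _ = c0 * ((c0⁻¹ * x * c0) * z) * c0⁻¹ := by rw [e1]
            _ = x * (c0 * z * c0⁻¹) := by group
        obtain ⟨z0, hz0, hz01, hcz⟩ := exists_fixed_of_pgroup p Z hZp hZ1 c0 hc0p hnorm
        rw [hZ] at hz0
        obtain ⟨hz0N, hz0x⟩ := Subgroup.mem_inf.mp hz0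
        exact ⟨c0, hc0, hc0p, z0, hz0N, hz01,
          (Subgroup.mem_centralizer_singleton_iff.mp hz0x).symm, hcz⟩
      · obtain ⟨c0, hc0, hc0k, hcz⟩ := hS s hs hsp c hc hck
        obtain ⟨z, hz, hz1, hxz⟩ := hZne
        exact ⟨c0, hc0, hc0k, z, hz, hz1, hxz, hcz z hz hxz⟩
    have hcomm2 : ∀ s t : ℕ, s.Prime → t.Prime → s ≠ t → t ≠ p → ∀ a b : G ⧸ N,
        a * yb = yb * a → b * yb = yb * b → (∃ k : ℕ, a ^ s ^ k = 1) → (∃ k : ℕ, b ^ t ^ k = 1) →
        a * b = b * a := by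
      intro s t hs ht hst htp a b ha hb hak hbk
      obtain ⟨a0, ha0, ha0k, z, hz, hz1, hxz, haz⟩ := hQ s hs a ha hak
      obtain ⟨b0, hb0, hb0k, hbz⟩ := hS t ht htp b hb hbk
      have hnil := hCN z hz1
      have h1 : a0 ∈ Subgroup.centralizer ({z} : Set G) :=
        Subgroup.mem_centralizer_singleton_iff.mpr haz
      have h2 : b0 ∈ Subgroup.centralizer ({z} : Set G) :=
        Subgroup.mem_centralizer_singleton_iff.mpr (hbz z hz hxz)
      have h3 := nilp_comm_sub hnil hs ht hst a0 b0 h1 h2 ha0k hb0k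
      rw [← ha0, ← hb0, ← QuotientGroup.mk_mul, ← QuotientGroup.mk_mul, h3]
    refine nilp_of_comm ?_
    rintro s t hs ht hst ⟨a, ha⟩ ⟨b, hb⟩ hak hbk
    rw [Subgroup.mem_centralizer_singleton_iff] at ha hb
    have hak' : ∃ k : ℕ, a ^ s ^ k = 1 := by
      obtain ⟨k, hk⟩ := hak
      exact ⟨k, by simpa only [Subgroup.coe_pow, Subgroup.coe_one] using congrArg Subtype.val hk⟩
    have hbk' : ∃ k : ℕ, b ^ t ^ k = 1 := by
      obtain ⟨k, hk⟩ := hbk
      exact ⟨k, by simpa only [Subgroup.coe_pow, Subgroup.coe_one] using congrArg Subtype.val hk⟩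
    apply Subtype.ext
    show a * b = b * a
    by_cases htp : t = p
    · have hsp : s ≠ p := fun h => hst (h.trans htp.symm)
      exact (hcomm2 t s ht hs (Ne.symm hst) hsp b a hb ha hbk' hak').symm
    · exact hcomm2 s t hs ht hst htp a b ha hb hak' hbk'
  · have hcop : r.Coprime (Nat.card N) := by
      rw [hcardN]; exact Nat.Coprime.pow_right _ ((Nat.coprime_primes hrp hp).mpr hrp')
    obtain ⟨y, hy, hyr'⟩ := exists_lift_pow N r hcop yb hyr
    have hy1 : y ≠ 1 := by
      rintro rfl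
      exact hyb1 hy.symm
    have hyo : orderOf y = r := by
      haveI := Fact.mk hrp
      exact orderOf_eq_prime hyr' hy1
    have hnil := hCN y hy1
    have hle2 : Subgroup.centralizer ({yb} : Set (G ⧸ N)) ≤
        (Subgroup.centralizer ({y} : Set G)).map (QuotientGroup.mk' N) := by
      intro c hc
      obtain ⟨g, rfl⟩ := QuotientGroup.mk_surjective c
      rw [Subgroup.mem_centralizer_singleton_iff] at hc
      have hmem : g⁻¹ * y * g * y⁻¹ ∈ N := by
        rw [← QuotientGroup.eq_one_iff]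
        simp only [QuotientGroup.mk_mul, QuotientGroup.mk_inv]
        rw [hy, mul_assoc (g : G ⧸ N)⁻¹, ← hc, ← mul_assoc, inv_mul_cancel, one_mul,
          mul_inv_cancel]
      obtain ⟨k, hk, hcomm⟩ := exists_comm_lift N hNsolv y g (by rw [hyo]; exact hcop) hmem
      refine ⟨g * k, Subgroup.mem_centralizer_singleton_iff.mpr hcomm, ?_⟩
      simp [QuotientGroup.mk_mul, (QuotientGroup.eq_one_iff k).mpr hk]
    refine nilp_of_le hle2 ?_
    haveI := hnil
    exact Group.nilpotent_of_surjective ((QuotientGroup.mk' N).subgroupMap _)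
      (MonoidHom.subgroupMap_surjective _ _)

end Cfsg.Agent.Lib.Helper12
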