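import Mathlib
import Cfsg.Prelude.Def_LieExceptional
import Cfsg.Agent.Lib.Helper12.CN2

set_option autoImplicit false
set_option linter.style.haveILetI false

namespace Cfsg.Agent.Lib.Helper12

universe u v

open scoped commutatorElement

/-- a nontrivial solvable normal subgroup contains a nontrivial abelian normal subgroup of the
whole group -/
theorem exists_normal_abelian_le {G : Type u} [Group G] [Finite G] :
    ∀ (n : ℕ) (K : Subgroup G), K.Normal → Group.IsSolvable K → K ≠ ⊥ → Nat.card K ≤ n →
      ∃ A : Subgroup G, A.Normal ∧ A ≤ K ∧ A ≠ ⊥ ∧ ∀ a ∈ A, ∀ b ∈ A, a * b = b * a := by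
  intro n
  induction n using Nat.strong_induction_on with
  | _ n ih =>
    intro K hKn hKs hK1 hcard
    by_cases hc : ⁅K, K⁆ = ⊥
    · refine ⟨K, hKn, le_rfl, hK1, ?_⟩
      intro a ha b hb
      have h1 : ⁅a, b⁆ ∈ ⁅K, K⁆ := Subgroup.commutator_mem_commutator ha hb
      rw [hc, Subgroup.mem_bot, commutatorElement_eq_one_iff_mul_comm] at h1
      exact h1
    · haveI := hKn
      have hle : ⁅K, K⁆ ≤ K := Subgroup.commutator_le_right K K
      have hne : ⁅K, K⁆ ≠ K := by
        intro h
        haveI : Nontrivial K := (Subgroup.nontrivial_iff_ne_bot K).mpr hK1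
        haveI := hKs
        have hlt := Group.IsSolvable.commutator_lt_top_of_nontrivial (G := K)
        apply hlt.ne
        apply Subgroup.map_injective K.subtype_injective
        rw [Subgroup.map_subtype_commutator, h, ← MonoidHom.range_eq_map, Subgroup.range_subtype]
      have hlt : Nat.card (⁅K, K⁆ : Subgroup G) < Nat.card K := by
        by_contra hge
        exact hne (Subgroup.eq_of_le_of_card_ge hle (not_lt.mp hge))
      have hsol : Group.IsSolvable (⁅K, K⁆ : Subgroup G) := by
        haveI := hKs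
        exact Group.isSolvable_of_isSolvable_injective (Subgroup.inclusion_injective hle)
      obtain ⟨A, hAn, hAle, hA1, hAab⟩ := ih (Nat.card (⁅K, K⁆ : Subgroup G)) (lt_of_lt_of_le hlt hcard) ⁅K, K⁆
        inferInstance hsol hc le_rfl
      exact ⟨A, hAn, hAle.trans hle, hA1, hAab⟩

/-- a nontrivial solvable normal subgroup contains a nontrivial abelian normal `p`-subgroup of
the whole group -/
theorem exists_normal_abelian_p {G : Type u} [Group G] [Finite G] (K : Subgroup G) [K.Normal]
    (hK : Group.IsSolvable K) (hK1 : K ≠ ⊥) :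
    ∃ p : ℕ, p.Prime ∧ ∃ N : Subgroup G, N.Normal ∧ N ≤ K ∧ IsPGroup p N ∧ N ≠ ⊥ ∧
      ∀ a ∈ N, ∀ b ∈ N, a * b = b * a := by
  obtain ⟨A, hAn, hAle, hA1, hAab⟩ := exists_normal_abelian_le (Nat.card K) K inferInstance hK hK1
    le_rfl
  have hcard : Nat.card A ≠ 1 := fun h => hA1 (Subgroup.card_eq_one.mp h)
  obtain ⟨p, hp, hpd⟩ := Nat.exists_prime_and_dvd hcard
  haveI := Fact.mk hp
  let N : Subgroup G :=
    { carrier := {a | a ∈ A ∧ a ^ p = 1}
      one_mem' := ⟨A.one_mem, one_pow _⟩
      mul_mem' := fun {a b} ha hb => ⟨A.mul_mem ha.1 hb.1, by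
        rw [(show Commute a b from hAab a ha.1 b hb.1).mul_pow, ha.2, hb.2, one_mul]⟩
      inv_mem' := fun {a} ha => ⟨A.inv_mem ha.1, by rw [inv_pow, ha.2, inv_one]⟩ }
  have hmemN : ∀ a : G, a ∈ N ↔ a ∈ A ∧ a ^ p = 1 := fun a => Iff.rfl
  refine ⟨p, hp, N, ?_, ?_, ?_, ?_, ?_⟩
  · constructor
    intro a ha g
    rw [hmemN] at ha ⊢
    refine ⟨hAn.conj_mem a ha.1 g, ?_⟩
    rw [conj_pow, ha.2, mul_one, mul_inv_cancel]
  · intro a ha
    exact hAle ((hmemN a).mp ha).1
  · intro g
    refine ⟨1, ?_⟩
    apply Subtype.ext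
    rw [pow_one]
    simpa only [Subgroup.coe_pow, Subgroup.coe_one] using ((hmemN g).mp g.2).2
  · obtain ⟨x, hx⟩ := exists_prime_orderOf_dvd_card' (G := A) p hpd
    intro h
    have hxN : (x : G) ∈ N := by
      rw [hmemN]
      refine ⟨x.2, ?_⟩
      have := pow_orderOf_eq_one x
      rw [hx] at this
      simpa only [Subgroup.coe_pow, Subgroup.coe_one] using congrArg Subtype.val this
    rw [h, Subgroup.mem_bot] at hxN
    have hx1 : x = 1 := Subtype.ext hxN
    rw [hx1, orderOf_one] at hx
    exact hp.one_lt.ne hx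
  · intro a ha b hb
    exact hAab a ((hmemN a).mp ha).1 b ((hmemN b).mp hb).1

/-- the CN property is invariant under isomorphism -/
theorem cn_of_equiv {A : Type u} {B : Type v} [Group A] [Group B] (e : A ≃* B)
    (h : Cfsg.IsCNGroup A) : Cfsg.IsCNGroup B := by
  intro b hb
  have hb' : e.symm b ≠ 1 := by
    intro h1
    apply hb
    have := congrArg e h1
    simpa using this
  have hnil := h (e.symm b) hb'
  have hle : Subgroup.centralizer ({b} : Set B) ≤
      (Subgroup.centralizer ({e.symm b} : Set A)).map e.toMonoidHom := by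
    intro c hc
    rw [Subgroup.mem_centralizer_singleton_iff] at hc
    refine ⟨e.symm c, Subgroup.mem_centralizer_singleton_iff.mpr ?_, by simp⟩
    rw [← map_mul, ← map_mul, hc]
  refine nilp_of_le hle ?_
  haveI := hnil
  exact Group.nilpotent_of_surjective (e.toMonoidHom.subgroupMap _)
    (MonoidHom.subgroupMap_surjective _ _)

/-- surjective images of CN-groups with solvable kernel are CN-groups -/
theorem cn_of_surj_aux : ∀ (n : ℕ) (G : Type u) [Group G] [Finite G] (Q : Type v) [Group Q]
    (f : G →* Q), Function.Surjective f → Cfsg.IsCNGroup G → Group.IsSolvable f.ker →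
    Nat.card G ≤ n → Cfsg.IsCNGroup Q := by
  intro n
  induction n using Nat.strong_induction_on with
  | _ n ih =>
    intro G _ _ Q _ f hf hCN hsol hcard
    by_cases hker : f.ker = ⊥
    · have hinj : Function.Injective f := (MonoidHom.ker_eq_bot_iff f).mp hker
      exact cn_of_equiv (MulEquiv.ofBijective f ⟨hinj, hf⟩) hCN
    · obtain ⟨p, hp, N, hNn, hNle, hNp, hN1, hNab⟩ := exists_normal_abelian_p f.ker hsol hker
      haveI := hNn
      haveI := Fact.mk hp
      have hCN' := cn_quot_p hCN p N hNp hN1 hNab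
      have hf' : Function.Surjective (QuotientGroup.lift N f hNle) := by
        intro q
        obtain ⟨g, rfl⟩ := hf q
        exact ⟨(g : G ⧸ N), rfl⟩
      have hker' : (QuotientGroup.lift N f hNle).ker = f.ker.map (QuotientGroup.mk' N) :=
        QuotientGroup.ker_lift N f hNle
      have hsol' : Group.IsSolvable (QuotientGroup.lift N f hNle).ker := by
        rw [hker']
        haveI := hsol
        exact Group.isSolvable_of_surjective (MonoidHom.subgroupMap_surjective (QuotientGroup.mk' N) f.ker)
      have hcard' : Nat.card (G ⧸ N) < Nat.card G := by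
        rw [Subgroup.card_eq_card_quotient_mul_card_subgroup N]
        have h2 : 1 < Nat.card N := by
          have h0 : Nat.card N ≠ 0 := Nat.card_pos.ne'
          have h1 : Nat.card N ≠ 1 := fun h => hN1 (Subgroup.card_eq_one.mp h)
          omega
        have h3 : 0 < Nat.card (G ⧸ N) := Nat.card_pos
        nlinarith
      exact ih (Nat.card (G ⧸ N)) (lt_of_lt_of_le hcard' hcard) (G ⧸ N) Q
        (QuotientGroup.lift N f hNle) hf' hCN' hsol' le_rfl

end Cfsg.Agent.Lib.Helper12
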