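import Mathlib
import Cfsg.Prelude.Def_LieExceptional
import Cfsg.Agent.Lib.Helper12.CNMax

set_option autoImplicit false
set_option linter.style.haveILetI false
set_option linter.unusedSectionVars false

namespace Cfsg.Agent.Lib.Helper12

universe u

variable {G : Type u} [Group G] [Finite G]

section CN

variable (hCN : Cfsg.IsCNGroup G) {H : Subgroup G} (hH : Group.IsNilpotent H)
  (hmax : ∀ L : Subgroup G, Group.IsNilpotent L → H ≤ L → L = H)

include hCN hH hmax

/-- if a maximal nilpotent subgroup of a CN-group is a TI-subgroup then it contains the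
centralisers of its nonidentity elements -/
theorem cn_max_cent
    (hTI : ∀ g : G, H.map (MulAut.conj g).toMonoidHom ≠ H →
      H ⊓ H.map (MulAut.conj g).toMonoidHom = ⊥) :
    ∀ x ∈ H, x ≠ 1 → Subgroup.centralizer ({x} : Set G) ≤ H := by
  have key : ∀ (p : ℕ), p.Prime → ∀ x ∈ H, x ≠ 1 → x ^ p = 1 →
      Subgroup.centralizer ({x} : Set G) ≤ H := by
    intro p hp x hxH hx1 hxp
    haveI := Fact.mk hp
    have hxP : x ∈ sylP H p := mem_sylP hH p hxH ⟨1, by rwa [pow_one]⟩
    have hP1 : sylP H p ≠ ⊥ := fun h => hx1 (by rw [h] at hxP; exact Subgroup.mem_bot.mp hxP)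
    have hnil := hCN x hx1
    have hA : ∀ c ∈ Subgroup.centralizer ({x} : Set G), ∀ h ∈ H, c * h * c⁻¹ ∈ H := by
      intro c hc h hh
      rw [Subgroup.mem_centralizer_singleton_iff] at hc
      by_cases hHc : H.map (MulAut.conj c).toMonoidHom = H
      · rw [← hHc]
        exact ⟨h, hh, by simp [MulAut.conj_apply]⟩
      · exfalso
        have h1 := hTI c hHc
        have h2 : x ∈ H ⊓ H.map (MulAut.conj c).toMonoidHom := by
          refine Subgroup.mem_inf.mpr ⟨hxH, ⟨x, hxH, ?_⟩⟩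
          have : c * x * c⁻¹ = x := by rw [hc, mul_inv_cancel_right]
          simpa [MulAut.conj_apply] using this
        rw [h1] at h2
        exact hx1 (Subgroup.mem_bot.mp h2)
    obtain ⟨z, hz, hz1, -, hzc⟩ := exists_central_fixed p (sylP H p) (sylP_isPGroup H p) hP1 1
      ⟨0, by simp⟩ (by intro w hw; simpa using hw)
    have hcent := cn_cent_eq hCN hH hmax p hz hz1 hzc
    have hzC : z ∈ Subgroup.centralizer ({x} : Set G) :=
      Subgroup.mem_centralizer_singleton_iff.mpr (hzc x hxP).symm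
    have htop : H.subgroupOf (Subgroup.centralizer ({x} : Set G)) = ⊤ := by
      apply eq_top_of_sylow_le
      intro q hq
      refine ⟨Classical.arbitrary _, ?_⟩
      intro b hb
      rw [Subgroup.mem_subgroupOf]
      have hbq : ∃ k : ℕ, (b : G) ^ q ^ k = 1 := by
        obtain ⟨k, hk⟩ :=
          (Classical.arbitrary (Sylow q (Subgroup.centralizer ({x} : Set G)))).isPGroup' ⟨b, hb⟩
        have h1 : b ^ q ^ k = 1 := by
          simpa only [Subgroup.coe_pow, Subgroup.coe_one] using congrArg Subtype.val hk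
        exact ⟨k, by
          simpa only [Subgroup.coe_pow, Subgroup.coe_one] using congrArg Subtype.val h1⟩
      by_cases hqp : q = p
      · rw [hqp] at hbq
        have hnormP := conj_sylP hH p (b : G) (hA b b.2)
        have hR : IsPGroup p (sylP H p ⊔ Subgroup.zpowers (b : G) : Subgroup G) :=
          IsPGroup.to_sup_of_normal_left' (sylP_isPGroup H p)
            (isPGroup_zpowers_of_pow hp _ hbq)
            (by rw [Subgroup.zpowers_le]; exact mem_normalizer_of_conj _ _ hnormP)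
        have := cn_lemK hCN hH hmax p hP1 _ hR le_sup_left
        exact sylP_le H p (this (Subgroup.mem_sup_right (Subgroup.mem_zpowers _)))
      · have := nilp_comm_sub hnil hq.out hp hqp (b : G) z b.2 hzC hbq (pelt_of_mem_sylP H p hz)
        rw [← hcent]
        exact Subgroup.mem_centralizer_singleton_iff.mpr this
    exact Subgroup.subgroupOf_eq_top.mp htop
  intro x hxH hx1
  have hord1 : orderOf x ≠ 1 := by rwa [Ne, orderOf_eq_one_iff]
  obtain ⟨p, hpdef⟩ : ∃ p, p = (orderOf x).minFac := ⟨_, rfl⟩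
  have hp : p.Prime := by rw [hpdef]; exact Nat.minFac_prime hord1
  obtain ⟨x', hx'def⟩ : ∃ x', x' = x ^ (orderOf x / p) := ⟨_, rfl⟩
  have hx'o : orderOf x' = p := by
    rw [hx'def]
    exact orderOf_pow_orderOf_div (orderOf_pos x).ne' (by rw [hpdef]; exact Nat.minFac_dvd _)
  have hx'1 : x' ≠ 1 := by
    intro h
    rw [h, orderOf_one] at hx'o
    exact hp.one_lt.ne hx'o
  have hx'p : x' ^ p = 1 := by
    have := pow_orderOf_eq_one x'
    rwa [hx'o] at this
  have hx'H : x' ∈ H := by rw [hx'def]; exact H.pow_mem hxH _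
  refine le_trans ?_ (key p hp x' hx'H hx'1 hx'p)
  intro c hc
  rw [Subgroup.mem_centralizer_singleton_iff] at hc ⊢
  rw [hx'def]
  exact (Commute.pow_right (show Commute c x from hc) _).eq

/-- a maximal nilpotent subgroup of a CN-group whose order is not a prime power is a
TI-subgroup -/
theorem cn_max_ti (hnpp : ¬ IsPrimePow (Nat.card H)) (hc1 : Nat.card H ≠ 1) :
    ∀ g : G, H.map (MulAut.conj g).toMonoidHom ≠ H →
      H ⊓ H.map (MulAut.conj g).toMonoidHom = ⊥ := by
  intro g hg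
  by_contra hne
  obtain ⟨x0, hx0, hx01⟩ : ∃ x ∈ H ⊓ H.map (MulAut.conj g).toMonoidHom, x ≠ 1 := by
    by_contra hcon
    exact hne ((Subgroup.eq_bot_iff_forall _).mpr
      (fun t ht => by_contra (fun h1 => hcon ⟨t, ht, h1⟩)))
  have hord1 : orderOf x0 ≠ 1 := by rwa [Ne, orderOf_eq_one_iff]
  obtain ⟨p, hpdef⟩ : ∃ p, p = (orderOf x0).minFac := ⟨_, rfl⟩
  have hp : p.Prime := by rw [hpdef]; exact Nat.minFac_prime hord1
  obtain ⟨x, hxdef⟩ : ∃ x, x = x0 ^ (orderOf x0 / p) := ⟨_, rfl⟩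
  have hxo : orderOf x = p := by
    rw [hxdef]
    exact orderOf_pow_orderOf_div (orderOf_pos x0).ne' (by rw [hpdef]; exact Nat.minFac_dvd _)
  have hx1 : x ≠ 1 := by
    intro h
    rw [h, orderOf_one] at hxo
    exact hp.one_lt.ne hxo
  have hxp : x ^ p = 1 := by
    have := pow_orderOf_eq_one x
    rwa [hxo] at this
  have hxmem : x ∈ H ⊓ H.map (MulAut.conj g).toMonoidHom := by
    rw [hxdef]; exact Subgroup.pow_mem _ hx0 _
  obtain ⟨hxH, x1, hx1H, hx1x⟩ := Subgroup.mem_inf.mp hxmem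
  have hx1x' : g * x1 * g⁻¹ = x := by simpa [MulAut.conj_apply] using hx1x
  have hx1p : x1 ^ p = 1 := by
    have h := hxp
    rw [← hx1x', conj_pow] at h
    exact conj_eq_one_iff.mp h
  obtain ⟨q, hq, hqH, hqp⟩ : ∃ q : ℕ, q.Prime ∧ q ∣ Nat.card H ∧ q ≠ p := by
    by_contra hcon
    apply hnpp
    have h0 : Nat.card H ≠ 0 := Nat.card_pos.ne'
    have hu : ∀ {d : ℕ}, d.Prime → d ∣ Nat.card H → d = p := by
      intro d hd hdd
      by_contra hdp
      exact hcon ⟨d, hd, hdd, hdp⟩
    have := Nat.eq_prime_pow_of_unique_prime_dvd h0 hu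
    rw [this]
    refine (isPrimePow_pow_iff ?_).mpr hp.isPrimePow
    intro hk
    rw [hk, pow_zero] at this
    exact hc1 this
  haveI := Fact.mk hp
  haveI := Fact.mk hq
  have hQ1 := sylP_ne_bot hH q hqH
  have hnil := hCN x hx1
  have hQC : ∀ w ∈ sylP H q, w ∈ Subgroup.centralizer ({x} : Set G) := by
    intro w hw
    rw [Subgroup.mem_centralizer_singleton_iff]
    exact nilp_comm_sub hH hq hp hqp w x (sylP_le H q hw) hxH (pelt_of_mem_sylP H q hw)
      ⟨1, by rwa [pow_one]⟩
  have hQgC : ∀ w ∈ sylP H q, g * w * g⁻¹ ∈ Subgroup.centralizer ({x} : Set G) := by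
    intro w hw
    rw [Subgroup.mem_centralizer_singleton_iff]
    have h1 : w * x1 = x1 * w := nilp_comm_sub hH hq hp hqp w x1 (sylP_le H q hw) hx1H
      (pelt_of_mem_sylP H q hw) ⟨1, by rwa [pow_one]⟩
    rw [← hx1x']
    calc g * w * g⁻¹ * (g * x1 * g⁻¹) = g * (w * x1) * g⁻¹ := by group
      _ = g * (x1 * w) * g⁻¹ := by rw [h1]
      _ = g * x1 * g⁻¹ * (g * w * g⁻¹) := by group
  have hQS : sylP H q ≤ sylP (Subgroup.centralizer ({x} : Set G)) q :=
    fun w hw => mem_sylP hnil q (hQC w hw) (pelt_of_mem_sylP H q hw)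
  have hSQ : sylP (Subgroup.centralizer ({x} : Set G)) q ≤ sylP H q :=
    cn_lemK hCN hH hmax q hQ1 _ (sylP_isPGroup _ q) hQS
  have hconj : ∀ w ∈ sylP H q, g * w * g⁻¹ ∈ sylP H q := by
    intro w hw
    apply hSQ
    obtain ⟨k, hk⟩ := pelt_of_mem_sylP H q hw
    exact mem_sylP hnil q (hQgC w hw) ⟨k, by rw [conj_pow, hk, mul_one, mul_inv_cancel]⟩
  have hgn : g ∈ Subgroup.normalizer (sylP H q : Set G) := mem_normalizer_of_conj _ _ hconj
  obtain ⟨z, hz, hz1, -, hzc⟩ := exists_central_fixed q (sylP H q) (sylP_isPGroup H q) hQ1 1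
    ⟨0, by simp⟩ (by intro w hw; simpa using hw)
  have hcent := cn_cent_eq hCN hH hmax q hz hz1 hzc
  have hz' : g * z * g⁻¹ ∈ sylP H q := hconj z hz
  have hz'1 : g * z * g⁻¹ ≠ 1 := fun h => hz1 (conj_eq_one_iff.mp h)
  have hz'c : ∀ w ∈ sylP H q, w * (g * z * g⁻¹) = (g * z * g⁻¹) * w := by
    intro w hw
    have hw1 : g⁻¹ * w * g ∈ sylP H q := by
      have := (Subgroup.mem_normalizer_iff.mp (Subgroup.inv_mem _ hgn) w).mp hw
      simpa using this
    have h1 := hzc _ hw1
    calc w * (g * z * g⁻¹) = g * ((g⁻¹ * w * g) * z) * g⁻¹ := by group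
      _ = g * (z * (g⁻¹ * w * g)) * g⁻¹ := by rw [h1]
      _ = g * z * g⁻¹ * w := by group
  have hcent' := cn_cent_eq hCN hH hmax q hz' hz'1 hz'c
  have hHg : ∀ h ∈ H, g * h * g⁻¹ ∈ H := by
    intro h hh
    have h1 : h * z = z * h := by
      have : h ∈ Subgroup.centralizer ({z} : Set G) := by rw [hcent]; exact hh
      exact Subgroup.mem_centralizer_singleton_iff.mp this
    have h2 : g * h * g⁻¹ ∈ Subgroup.centralizer ({g * z * g⁻¹} : Set G) := by
      rw [Subgroup.mem_centralizer_singleton_iff]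
      calc g * h * g⁻¹ * (g * z * g⁻¹) = g * (h * z) * g⁻¹ := by group
        _ = g * (z * h) * g⁻¹ := by rw [h1]
        _ = g * z * g⁻¹ * (g * h * g⁻¹) := by group
    rwa [hcent'] at h2
  apply hg
  have hgN := mem_normalizer_of_conj H g hHg
  ext y
  constructor
  · rintro ⟨h, hh, rfl⟩
    simpa [MulAut.conj_apply] using hHg h hh
  · intro hy
    refine ⟨g⁻¹ * y * g, ?_, by simp [MulAut.conj_apply, mul_assoc]⟩
    have := (Subgroup.mem_normalizer_iff.mp (Subgroup.inv_mem _ hgN) y).mp hy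
    simpa using this

end CN

end Cfsg.Agent.Lib.Helper12
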