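import Mathlib
import Cfsg.Prelude.Def_Characters
import Cfsg.Agent.Lib.Helper2.CharMore
import Cfsg.Agent.Lib.Helper2.CharIntegral
import Cfsg.Agent.Lib.Helper2.CharBridge
import Cfsg.Agent.Lib.Helper2.IndFun

set_option autoImplicit false
set_option linter.style.haveILetI false

namespace Cfsg.Agent.Lib.Helper12

open Cfsg.Agent.Lib.Helper2
open scoped ComplexConjugate

/-- the average of a character over a subgroup is a natural number -/
theorem exists_nat_avg {T : Type*} [Group T] (A : Subgroup T) [Fintype A] {ψ : T → ℂ}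
    (hψ : Cfsg.IsCharacter T ψ) :
    ∃ k : ℕ, Cfsg.classInner (fun x : A => ψ x) (fun _ => 1) = (k : ℂ) := by
  obtain ⟨n, ρ, rfl⟩ := hψ
  exact ⟨_, inner_one_eq_finrank_invariants ρ A⟩

/-- the ramification index is one when the index is coprime to the order of the normal
subgroup -/
theorem ramification_eq_one {T : Type*} [Group T] [Fintype T] (N : Subgroup T) [hN : N.Normal]
    (θ : N → ℂ) (hθ : Cfsg.IsIrrCharacter N θ) (e : ℕ) (C : Finset (T → ℂ))
    (hC : ∀ ψ ∈ C, Cfsg.IsIrrCharacter T ψ) (hcard : e ^ 2 * C.card = N.index)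
    (hind : Cfsg.indFun N θ = (e : ℂ) • ∑ ψ ∈ C, ψ)
    (hcop : Nat.Coprime (Nat.card N) N.index) : e = 1 := by
  classical
  obtain ⟨A, hA⟩ := Subgroup.exists_right_complement'_of_coprime hcop
  haveI := Fintype.ofFinite A
  haveI := Fintype.ofFinite N
  have hAcard : Nat.card A = N.index := (hA.symm.index_eq_card).symm
  have hdisj : N ⊓ A = ⊥ := hA.disjoint.eq_bot
  have hidx0 : (N.index : ℂ) ≠ 0 := by
    exact_mod_cast Subgroup.index_ne_zero_of_finite
  -- values of the induced function on A
  have hval : ∀ a : A, a ≠ 1 → Cfsg.indFun N θ (a : T) = 0 := by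
    intro a ha
    rw [indFun_apply]
    have : ∀ x : T, Cfsg.extendByZero N θ (x⁻¹ * (a : T) * x) = 0 := by
      intro x
      apply extendByZero_of_not_mem
      intro hmem
      have h1 : (a : T) ∈ N := by
        have := hN.conj_mem _ hmem x
        have e1 : x * (x⁻¹ * (a : T) * x) * x⁻¹ = (a : T) := by group
        rwa [e1] at this
      have h2 : (a : T) ∈ N ⊓ A := Subgroup.mem_inf.mpr ⟨h1, a.2⟩
      rw [hdisj, Subgroup.mem_bot] at h2
      exact ha (Subtype.ext h2)
    simp [this]
  have hsum : ∑ a : A, Cfsg.indFun N θ (a : T) = (N.index : ℂ) * θ 1 := by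
    rw [Finset.sum_eq_single (1 : A)]
    · simpa using indFun_apply_one N θ
    · intro a _ ha
      exact hval a ha
    · intro h
      exact absurd (Finset.mem_univ _) h
  have hI1 : Cfsg.classInner (fun x : A => Cfsg.indFun N θ (x : T)) (fun _ => 1) = θ 1 := by
    rw [classInner_def]
    simp only [map_one, mul_one]
    rw [hsum, hAcard]
    field_simp
  -- the right hand side
  have hI2 : ∃ K : ℕ, Cfsg.classInner (fun x : A => Cfsg.indFun N θ (x : T)) (fun _ => 1)
      = (e : ℂ) * (K : ℂ) := by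
    have hk : ∀ ψ ∈ C, ∃ k : ℕ,
        Cfsg.classInner (fun x : A => ψ (x : T)) (fun _ => 1) = (k : ℂ) := fun ψ hψ =>
      exists_nat_avg A (isCharacter_of_isIrrCharacter (hC ψ hψ))
    choose! k hk using hk
    refine ⟨∑ ψ ∈ C, k ψ, ?_⟩
    have h1 : (fun x : A => Cfsg.indFun N θ (x : T))
        = (e : ℂ) • ∑ ψ ∈ C, (fun x : A => ψ (x : T)) := by
      funext x
      rw [hind]
      simp [Finset.sum_apply]
    rw [h1, classInner_smul_left, classInner_sum_left]
    push_cast
    congr 1
    exact Finset.sum_congr rfl hk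
  obtain ⟨K, hK⟩ := hI2
  rw [hI1] at hK
  -- the degree of θ divides |N|
  obtain ⟨n, ρ, hρ, hρθ⟩ := hθ
  haveI := hρ
  have hdeg : θ 1 = (n : ℂ) := by
    rw [← hρθ, Representation.char_one]
    simp
  have hdvd : n ∣ Nat.card N := by
    have := irr_degree_dvd_card ρ
    simpa using this
  have hn : n = e * K := by
    rw [hdeg] at hK
    exact_mod_cast hK
  have he1 : e ∣ Nat.card N := dvd_trans ⟨K, hn⟩ hdvd
  have he2 : e ∣ N.index := by
    rw [← hcard]
    exact dvd_mul_of_dvd_left (dvd_pow_self e (by norm_num)) _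
  exact Nat.eq_one_of_dvd_coprimes hcop he1 he2

end Cfsg.Agent.Lib.Helper12
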