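import Mathlib
import Cfsg.Prelude.Def_OddOrderLocal
import Cfsg.Prelude.Def_OddOrderChar
import Cfsg.Agent.Lib.Helper12.CharAux
import Cfsg.Agent.Lib.Helper12.DualAux
import Cfsg.Agent.Lib.Helper2.CharBridge
import Cfsg.Agent.S1507

set_option autoImplicit false

namespace Cfsg.Agent.Lib.Helper12

open Cfsg.Agent.Lib.Helper2

/-- inner product of two signed irreducible characters -/
theorem signed_inner {G : Type*} [Group G] [Fintype G] (x y : G → ℂ)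
    (hx : Cfsg.IsIrrCharacter G x ∨ Cfsg.IsIrrCharacter G (-x))
    (hy : Cfsg.IsIrrCharacter G y ∨ Cfsg.IsIrrCharacter G (-y)) :
    Cfsg.classInner x y = 0 ∨ (Cfsg.classInner x y = 1 ∧ x = y) ∨
      (Cfsg.classInner x y = -1 ∧ x = -y) := by
  classical
  rcases hx with hx | hx <;> rcases hy with hy | hy
  · by_cases h : x = y
    · right; left; exact ⟨by rw [classInner_irr hx hy, if_pos h], h⟩
    · left; rw [classInner_irr hx hy, if_neg h]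
  · have e : Cfsg.classInner x y = - Cfsg.classInner x (-y) := by
      rw [classInner_neg_right]; ring
    by_cases h : x = -y
    · right; right; exact ⟨by rw [e, classInner_irr hx hy, if_pos h], h⟩
    · left; rw [e, classInner_irr hx hy, if_neg h]; simp
  · have e : Cfsg.classInner x y = - Cfsg.classInner (-x) y := by
      rw [classInner_neg_left]; ring
    by_cases h : -x = y
    · right; right; exact ⟨by rw [e, classInner_irr hx hy, if_pos h], by rw [← h]; simp⟩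
    · left; rw [e, classInner_irr hx hy, if_neg h]; simp
  · have e : Cfsg.classInner x y = Cfsg.classInner (-x) (-y) := by
      rw [classInner_neg_left, classInner_neg_right]; ring
    by_cases h : -x = -y
    · right; left; exact ⟨by rw [e, classInner_irr hx hy, if_pos h], neg_injective h⟩
    · left; rw [e, classInner_irr hx hy, if_neg h]

theorem tri_num1 {x y z : ℂ} (hx : x = 0 ∨ x = 1 ∨ x = -1) (hy : y = 0 ∨ y = 1)
    (hz : z = 0 ∨ z = 1) (h : x - y - z = 1) : x = 1 := by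
  rcases hx with rfl | rfl | rfl <;> rcases hy with rfl | rfl <;> rcases hz with rfl | rfl <;>
    first | rfl | (exfalso; norm_num at h)

theorem tri_num2 {x y : ℂ} (hx : x = 0 ∨ x = 1 ∨ x = -1) (hy : y = 0 ∨ y = -1)
    (h : x + y = 1) : x = 1 := by
  rcases hx with rfl | rfl | rfl <;> rcases hy with rfl | rfl <;>
    first | rfl | (exfalso; norm_num at h)

/-- two orthonormal signed triples with the same alternating sum coincide, once the three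
degenerate matchings are excluded -/
theorem triple_unique {G : Type*} [Group G] [Fintype G] (a₁ b₁ c₁ a₂ b₂ c₂ : G → ℂ)
    (ha₁ : Cfsg.IsIrrCharacter G a₁ ∨ Cfsg.IsIrrCharacter G (-a₁))
    (hb₁ : Cfsg.IsIrrCharacter G b₁ ∨ Cfsg.IsIrrCharacter G (-b₁))
    (hc₁ : Cfsg.IsIrrCharacter G c₁ ∨ Cfsg.IsIrrCharacter G (-c₁))
    (ha₂ : Cfsg.IsIrrCharacter G a₂ ∨ Cfsg.IsIrrCharacter G (-a₂))
    (hc₂ : Cfsg.IsIrrCharacter G c₂ ∨ Cfsg.IsIrrCharacter G (-c₂))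
    (hcc : Cfsg.classInner c₂ c₂ = 1) (hac : Cfsg.classInner a₂ c₂ = 0)
    (hbc : Cfsg.classInner b₂ c₂ = 0) (haa : Cfsg.classInner a₂ a₂ = 1)
    (hba : Cfsg.classInner b₂ a₂ = 0)
    (heq : c₁ - a₁ - b₁ = c₂ - a₂ - b₂)
    (hne1 : a₁ ≠ -c₂) (hne2 : b₁ ≠ -c₂) (hne3 : b₁ ≠ a₂) :
    a₂ = a₁ ∧ b₂ = b₁ ∧ c₂ = c₁ := by
  have h1 : Cfsg.classInner c₁ c₂ - Cfsg.classInner a₁ c₂ - Cfsg.classInner b₁ c₂ = 1 := by
    have := congrArg (fun f => Cfsg.classInner f c₂) heq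
    simp only [classInner_sub_left] at this
    rw [this, hcc, hac, hbc]; ring
  have hc : c₁ = c₂ := by
    have hx : Cfsg.classInner c₁ c₂ = 1 := by
      apply tri_num1 _ _ _ h1
      · rcases signed_inner c₁ c₂ hc₁ hc₂ with h | ⟨h, -⟩ | ⟨h, -⟩
        · exact Or.inl h
        · exact Or.inr (Or.inl h)
        · exact Or.inr (Or.inr h)
      · rcases signed_inner a₁ c₂ ha₁ hc₂ with h | ⟨h, -⟩ | ⟨-, e⟩
        · exact Or.inl h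
        · exact Or.inr h
        · exact absurd e hne1
      · rcases signed_inner b₁ c₂ hb₁ hc₂ with h | ⟨h, -⟩ | ⟨-, e⟩
        · exact Or.inl h
        · exact Or.inr h
        · exact absurd e hne2
    rcases signed_inner c₁ c₂ hc₁ hc₂ with h | ⟨-, e⟩ | ⟨h, -⟩
    · rw [h] at hx; exact absurd hx (by norm_num)
    · exact e
    · rw [h] at hx; exact absurd hx (by norm_num)
  have heq2 : a₁ + b₁ = a₂ + b₂ := by
    rw [hc] at heq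
    funext g
    have := congrFun heq g
    simp only [Pi.sub_apply] at this
    simp only [Pi.add_apply]
    linear_combination -this
  have h2 : Cfsg.classInner a₁ a₂ + Cfsg.classInner b₁ a₂ = 1 := by
    have := congrArg (fun f => Cfsg.classInner f a₂) heq2
    simp only [classInner_add_left] at this
    rw [this, haa, hba]; ring
  have ha : a₁ = a₂ := by
    have hx : Cfsg.classInner a₁ a₂ = 1 := by
      apply tri_num2 _ _ h2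
      · rcases signed_inner a₁ a₂ ha₁ ha₂ with h | ⟨h, -⟩ | ⟨h, -⟩
        · exact Or.inl h
        · exact Or.inr (Or.inl h)
        · exact Or.inr (Or.inr h)
      · rcases signed_inner b₁ a₂ hb₁ ha₂ with h | ⟨-, e⟩ | ⟨h, -⟩
        · exact Or.inl h
        · exact absurd e hne3
        · exact Or.inr h
    rcases signed_inner a₁ a₂ ha₁ ha₂ with h | ⟨-, e⟩ | ⟨h, -⟩
    · rw [h] at hx; exact absurd hx (by norm_num)
    · exact e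
    · rw [h] at hx; exact absurd hx (by norm_num)
  refine ⟨ha.symm, ?_, hc.symm⟩
  rw [ha] at heq2
  exact (add_left_cancel heq2).symm


section fam

variable {G : Type*} [Group G] (W₁ W₂ : Subgroup G)

/-- a linear character of a group of odd order never takes the value `-1` -/
theorem hom_ne_neg_one {A : Type*} [Group A] [Finite A] (hodd : Odd (Nat.card A))
    (ψ : A →* ℂˣ) (w : A) : ((ψ w : ℂˣ) : ℂ) ≠ -1 := by
  intro h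
  have h1 : ((ψ w : ℂˣ) : ℂ) ^ Nat.card A = 1 := by
    rw [← Units.val_pow_eq_pow_val, ← map_pow, pow_card_eq_one', map_one, Units.val_one]
  rw [h, hodd.neg_one_pow] at h1
  norm_num at h1

/-- in a group of odd order squares of nontrivial elements are nontrivial -/
theorem sq_ne_one_of_odd {A : Type*} [Group A] [Finite A] (hodd : Odd (Nat.card A))
    (w : A) (hw : w ≠ 1) : w * w ≠ 1 := by
  intro h
  have h2 : orderOf w ∣ 2 := orderOf_dvd_of_pow_eq_one (by rw [pow_two]; exact h)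
  have hN : orderOf w ∣ Nat.card A := orderOf_dvd_natCard w
  have hc : Nat.Coprime 2 (Nat.card A) := (Nat.coprime_two_left).2 hodd
  have h1 : orderOf w ∣ 1 := by
    have := Nat.dvd_gcd h2 hN
    rwa [hc] at this
  exact hw (orderOf_eq_one_iff.1 (Nat.dvd_one.1 h1))

theorem exists_mem_ne_one (W : Subgroup G) (hW : W ≠ ⊥) : ∃ a, a ∈ W ∧ a ≠ 1 := by
  obtain ⟨⟨a, ha⟩, ha1⟩ := (Subgroup.ne_bot_iff_exists_ne_one).1 hW
  exact ⟨a, ha, fun h => ha1 (Subtype.ext h)⟩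

theorem prod_not_mem_left (hdisj : W₁ ⊓ W₂ = ⊥) {a b : G} (ha : a ∈ W₁) (hb : b ∈ W₂)
    (hb1 : b ≠ 1) : a * b ∉ W₁ := by
  intro h
  have hbm : b ∈ W₁ := by
    have := W₁.mul_mem (W₁.inv_mem ha) h
    simpa using this
  have : b ∈ W₁ ⊓ W₂ := ⟨hbm, hb⟩
  rw [hdisj] at this
  exact hb1 (Subgroup.mem_bot.1 this)

theorem prod_not_mem_right (hdisj : W₁ ⊓ W₂ = ⊥) {a b : G} (ha : a ∈ W₁) (hb : b ∈ W₂)
    (ha1 : a ≠ 1) : a * b ∉ W₂ := by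
  intro h
  have ham : a ∈ W₂ := by
    have := W₂.mul_mem h (W₂.inv_mem hb)
    simpa using this
  have : a ∈ W₁ ⊓ W₂ := ⟨ha, ham⟩
  rw [hdisj] at this
  exact ha1 (Subgroup.mem_bot.1 this)

theorem hom_mul_left (φ : ↥(W₁ ⊔ W₂) →* ℂˣ)
    (hφ2 : ∀ w : ↥(W₁ ⊔ W₂), (w : G) ∈ W₂ → φ w = 1) {a b : G} (ha : a ∈ W₁) (hb : b ∈ W₂) :
    φ ⟨a * b, Subgroup.mul_mem_sup ha hb⟩ = φ ⟨a, (le_sup_left : W₁ ≤ W₁ ⊔ W₂) ha⟩ := by
  have e : (⟨a * b, Subgroup.mul_mem_sup ha hb⟩ : ↥(W₁ ⊔ W₂)) =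
      ⟨a, (le_sup_left : W₁ ≤ W₁ ⊔ W₂) ha⟩ * ⟨b, (le_sup_right : W₂ ≤ W₁ ⊔ W₂) hb⟩ := rfl
  rw [e, map_mul, hφ2 ⟨b, _⟩ hb, mul_one]

theorem hom_mul_right (ψ : ↥(W₁ ⊔ W₂) →* ℂˣ)
    (hψ1 : ∀ w : ↥(W₁ ⊔ W₂), (w : G) ∈ W₁ → ψ w = 1) {a b : G} (ha : a ∈ W₁) (hb : b ∈ W₂) :
    ψ ⟨a * b, Subgroup.mul_mem_sup ha hb⟩ = ψ ⟨b, (le_sup_right : W₂ ≤ W₁ ⊔ W₂) hb⟩ := by
  have e : (⟨a * b, Subgroup.mul_mem_sup ha hb⟩ : ↥(W₁ ⊔ W₂)) =
      ⟨a, (le_sup_left : W₁ ≤ W₁ ⊔ W₂) ha⟩ * ⟨b, (le_sup_right : W₂ ≤ W₁ ⊔ W₂) hb⟩ := rfl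
  rw [e, map_mul, hψ1 ⟨a, _⟩ ha, one_mul]

variable [Fintype G]

/-- uniqueness of a cyclic TI family on a pair `φ`, `ψ` of nontrivial characters of the two
factors -/
theorem family_unique_aux (hW : Cfsg.IsSelfNormalizingCyclic W₁ W₂)
    (hodd : Odd (Nat.card ↥(W₁ ⊔ W₂))) (χ χ' : (↥(W₁ ⊔ W₂) →* ℂˣ) → (G → ℂ))
    (hχ : Cfsg.IsCyclicTIFamily W₁ W₂ χ) (hχ' : Cfsg.IsCyclicTIFamily W₁ W₂ χ')
    (φ ψ : ↥(W₁ ⊔ W₂) →* ℂˣ) (hφ : φ ≠ 1) (hψ : ψ ≠ 1)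
    (hφ2 : ∀ w : ↥(W₁ ⊔ W₂), (w : G) ∈ W₂ → φ w = 1)
    (hψ1 : ∀ w : ↥(W₁ ⊔ W₂), (w : G) ∈ W₁ → ψ w = 1) :
    χ' φ = χ φ ∧ χ' ψ = χ ψ ∧ χ' (φ * ψ) = χ (φ * ψ) := by
  classical
  obtain ⟨hW₁, hW₂, hdisj, hcomm, hcyc, -⟩ := hW
  obtain ⟨a, ha, ha1⟩ := exists_mem_ne_one W₁ hW₁
  obtain ⟨b, hb, hb1⟩ := exists_mem_ne_one W₂ hW₂
  have hfin : Finite ↥(W₁ ⊔ W₂) := inferInstance
  -- the three characters are distinct
  have hne_φψ : φ ≠ ψ := by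
    intro h
    apply hφ
    apply hom_ext_sup
    · intro w hw; rw [h, hψ1 w hw]; rfl
    · intro w hw; rw [hφ2 w hw]; rfl
  have hne_φc : φ ≠ φ * ψ := by
    intro h
    apply hψ
    have : φ * 1 = φ * ψ := (mul_one φ).trans h
    exact (mul_left_cancel this).symm
  have hne_ψc : ψ ≠ φ * ψ := by
    intro h
    apply hφ
    have : 1 * ψ = φ * ψ := (one_mul ψ).trans h
    exact (mul_right_cancel this).symm
  have heq : χ (φ * ψ) - χ φ - χ ψ = χ' (φ * ψ) - χ' φ - χ' ψ := by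
    have h1 := hχ.induced_eq φ ψ hφ hψ hφ2 hψ1
    have h2 := hχ'.induced_eq φ ψ hφ hψ hφ2 hψ1
    have h3 := h1.symm.trans h2
    funext g
    have := congrFun h3 g
    simp only [Pi.sub_apply]
    linear_combination this
  -- the test element
  set v : ↥(W₁ ⊔ W₂) := ⟨a * b, Subgroup.mul_mem_sup ha hb⟩ with hv
  have hv1 : (v : G) ∉ W₁ := prod_not_mem_left W₁ W₂ hdisj ha hb hb1
  have hv2 : (v : G) ∉ W₂ := prod_not_mem_right W₁ W₂ hdisj ha hb ha1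
  have key := triple_unique (χ φ) (χ ψ) (χ (φ * ψ)) (χ' φ) (χ' ψ) (χ' (φ * ψ))
    (hχ.irr_or_neg φ) (hχ.irr_or_neg ψ) (hχ.irr_or_neg _) (hχ'.irr_or_neg φ)
    (hχ'.irr_or_neg _)
    (by rw [hχ'.orthonormal, if_pos rfl]) (by rw [hχ'.orthonormal, if_neg hne_φc])
    (by rw [hχ'.orthonormal, if_neg hne_ψc]) (by rw [hχ'.orthonormal, if_pos rfl])
    (by rw [hχ'.orthonormal, if_neg (Ne.symm hne_φψ)]) heq ?_ ?_ ?_
  · exact ⟨key.1, key.2.1, key.2.2⟩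
  · -- χ φ ≠ - χ' (φ ψ)
    intro h
    have := congrFun h v
    rw [Pi.neg_apply, hχ.eq_on φ v hv1 hv2, hχ'.eq_on (φ * ψ) v hv1 hv2] at this
    have h3 : ((ψ v : ℂˣ) : ℂ) = -1 := by
      have hne : ((φ v : ℂˣ) : ℂ) ≠ 0 := Units.ne_zero _
      rw [MonoidHom.mul_apply, Units.val_mul] at this
      have h4 : ((φ v : ℂˣ) : ℂ) * (((ψ v : ℂˣ) : ℂ) + 1) = 0 := by linear_combination this
      rcases mul_eq_zero.1 h4 with h5 | h5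
      · exact absurd h5 hne
      · linear_combination h5
    exact hom_ne_neg_one hodd ψ v h3
  · intro h
    have := congrFun h v
    rw [Pi.neg_apply, hχ.eq_on ψ v hv1 hv2, hχ'.eq_on (φ * ψ) v hv1 hv2] at this
    have h3 : ((φ v : ℂˣ) : ℂ) = -1 := by
      have hne : ((ψ v : ℂˣ) : ℂ) ≠ 0 := Units.ne_zero _
      rw [MonoidHom.mul_apply, Units.val_mul] at this
      have h4 : ((ψ v : ℂˣ) : ℂ) * (((φ v : ℂˣ) : ℂ) + 1) = 0 := by linear_combination this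
      rcases mul_eq_zero.1 h4 with h5 | h5
      · exact absurd h5 hne
      · linear_combination h5
    exact hom_ne_neg_one hodd φ v h3
  · -- χ ψ ≠ χ' φ
    intro h
    -- `ψ` and `φ` agree off the two factors
    have hag : ∀ (a' : G) (ha' : a' ∈ W₁), a' ≠ 1 →
        φ ⟨a', (le_sup_left : W₁ ≤ W₁ ⊔ W₂) ha'⟩ =
          ψ ⟨b, (le_sup_right : W₂ ≤ W₁ ⊔ W₂) hb⟩ := by
      intro a' ha' ha'1
      have h1 : ((⟨a' * b, Subgroup.mul_mem_sup ha' hb⟩ : ↥(W₁ ⊔ W₂)) : G) ∉ W₁ :=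
        prod_not_mem_left W₁ W₂ hdisj ha' hb hb1
      have h2 : ((⟨a' * b, Subgroup.mul_mem_sup ha' hb⟩ : ↥(W₁ ⊔ W₂)) : G) ∉ W₂ :=
        prod_not_mem_right W₁ W₂ hdisj ha' hb ha'1
      have := congrFun h (⟨a' * b, Subgroup.mul_mem_sup ha' hb⟩ : ↥(W₁ ⊔ W₂))
      rw [hχ.eq_on ψ _ h1 h2, hχ'.eq_on φ _ h1 h2, hom_mul_left W₁ W₂ φ hφ2 ha' hb,
        hom_mul_right W₁ W₂ ψ hψ1 ha' hb] at this
      exact (Units.ext this).symm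
    have htriv : ∀ (a' : G) (ha' : a' ∈ W₁),
        φ ⟨a', (le_sup_left : W₁ ≤ W₁ ⊔ W₂) ha'⟩ = 1 := by
      intro a' ha'
      by_cases ha'1 : a' = 1
      · subst ha'1
        exact map_one φ
      · have hsq : a' * a' ≠ 1 := by
          intro hh
          apply sq_ne_one_of_odd hodd (⟨a', (le_sup_left : W₁ ≤ W₁ ⊔ W₂) ha'⟩ : ↥(W₁ ⊔ W₂))
          · intro h0
            exact ha'1 (congrArg Subtype.val h0)
          · exact Subtype.ext hh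
        have e1 := hag a' ha' ha'1
        have e2 := hag (a' * a') (W₁.mul_mem ha' ha') hsq
        have e3 : (⟨a' * a', (le_sup_left : W₁ ≤ W₁ ⊔ W₂) (W₁.mul_mem ha' ha')⟩ : ↥(W₁ ⊔ W₂)) =
            ⟨a', (le_sup_left : W₁ ≤ W₁ ⊔ W₂) ha'⟩ * ⟨a', (le_sup_left : W₁ ≤ W₁ ⊔ W₂) ha'⟩ :=
          rfl
        rw [e3, map_mul, ← e1] at e2
        exact mul_eq_left.1 e2 |> fun h => h
    apply hφ
    apply hom_ext_sup
    · intro w hw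
      have := htriv (w : G) hw
      rw [show (1 : ↥(W₁ ⊔ W₂) →* ℂˣ) w = 1 from rfl]
      exact this
    · intro w hw; rw [hφ2 w hw]; rfl


omit [Fintype G] in
/-- a nontrivial linear character of `W₁ ⊔ W₂` trivial on `W₂` -/
theorem exists_hom_left [Finite G] (hW : Cfsg.IsSelfNormalizingCyclic W₁ W₂) :
    ∃ φ : ↥(W₁ ⊔ W₂) →* ℂˣ, φ ≠ 1 ∧ ∀ w : ↥(W₁ ⊔ W₂), (w : G) ∈ W₂ → φ w = 1 := by
  obtain ⟨hW₁, hW₂, hdisj, hcomm, hcyc, -⟩ := hW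
  obtain ⟨a, ha, ha1⟩ := exists_mem_ne_one W₁ hW₁
  have hc : ∀ x y : ↥(W₁ ⊔ W₂), x * y = y * x :=
    (IsCyclic.commGroup (α := ↥(W₁ ⊔ W₂))).mul_comm
  have hy : (⟨a, (le_sup_left : W₁ ≤ W₁ ⊔ W₂) ha⟩ : ↥(W₁ ⊔ W₂)) ∉ W₂.subgroupOf (W₁ ⊔ W₂) := by
    intro h
    have h2 : a ∈ W₂ := Subgroup.mem_subgroupOf.1 h
    have : a ∈ W₁ ⊓ W₂ := ⟨ha, h2⟩
    rw [hdisj] at this
    exact ha1 (Subgroup.mem_bot.1 this)
  obtain ⟨φ, hφ1, hφ2⟩ := exists_hom_trivial_on hc (W₂.subgroupOf (W₁ ⊔ W₂)) hy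
  refine ⟨φ, ?_, fun w hw => hφ1 w (Subgroup.mem_subgroupOf.2 hw)⟩
  intro h
  apply hφ2
  rw [h]; rfl

omit [Fintype G] in
/-- a nontrivial linear character of `W₁ ⊔ W₂` trivial on `W₁` -/
theorem exists_hom_right [Finite G] (hW : Cfsg.IsSelfNormalizingCyclic W₁ W₂) :
    ∃ ψ : ↥(W₁ ⊔ W₂) →* ℂˣ, ψ ≠ 1 ∧ ∀ w : ↥(W₁ ⊔ W₂), (w : G) ∈ W₁ → ψ w = 1 := by
  obtain ⟨hW₁, hW₂, hdisj, hcomm, hcyc, -⟩ := hW
  obtain ⟨b, hb, hb1⟩ := exists_mem_ne_one W₂ hW₂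
  have hc : ∀ x y : ↥(W₁ ⊔ W₂), x * y = y * x :=
    (IsCyclic.commGroup (α := ↥(W₁ ⊔ W₂))).mul_comm
  have hy : (⟨b, (le_sup_right : W₂ ≤ W₁ ⊔ W₂) hb⟩ : ↥(W₁ ⊔ W₂)) ∉ W₁.subgroupOf (W₁ ⊔ W₂) := by
    intro h
    have h2 : b ∈ W₁ := Subgroup.mem_subgroupOf.1 h
    have : b ∈ W₁ ⊓ W₂ := ⟨h2, hb⟩
    rw [hdisj] at this
    exact hb1 (Subgroup.mem_bot.1 this)
  obtain ⟨φ, hφ1, hφ2⟩ := exists_hom_trivial_on hc (W₁.subgroupOf (W₁ ⊔ W₂)) hy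
  refine ⟨φ, ?_, fun w hw => hφ1 w (Subgroup.mem_subgroupOf.2 hw)⟩
  intro h
  apply hφ2
  rw [h]; rfl

omit [Fintype G] in
/-- every linear character of `W₁ ⊔ W₂` is a product of one trivial on `W₂` and one trivial on
`W₁` -/
theorem exists_hom_decomp (hdisj : W₁ ⊓ W₂ = ⊥) (hcomm : ∀ a ∈ W₁, ∀ b ∈ W₂, a * b = b * a)
    (ω : ↥(W₁ ⊔ W₂) →* ℂˣ) :
    ∃ φ ψ : ↥(W₁ ⊔ W₂) →* ℂˣ, (∀ w : ↥(W₁ ⊔ W₂), (w : G) ∈ W₂ → φ w = 1) ∧
      (∀ w : ↥(W₁ ⊔ W₂), (w : G) ∈ W₁ → ψ w = 1) ∧ ω = φ * ψ := by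
  let φ := Cfsg.Agent.S1507.mk W₁ W₂ hcomm hdisj
    (ω.comp (Subgroup.inclusion (le_sup_left : W₁ ≤ W₁ ⊔ W₂))) 1
  let ψ := Cfsg.Agent.S1507.mk W₁ W₂ hcomm hdisj 1
    (ω.comp (Subgroup.inclusion (le_sup_right : W₂ ≤ W₁ ⊔ W₂)))
  have e1 : ∀ (w : ↥(W₁ ⊔ W₂)) (hw : (w : G) ∈ W₁),
      w = Cfsg.Agent.S1507.prodHom W₁ W₂ hcomm (⟨w, hw⟩, 1) := by
    intro w hw
    apply Subtype.ext
    simp [Cfsg.Agent.S1507.prodHom]
  have e2 : ∀ (w : ↥(W₁ ⊔ W₂)) (hw : (w : G) ∈ W₂),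
      w = Cfsg.Agent.S1507.prodHom W₁ W₂ hcomm (1, ⟨w, hw⟩) := by
    intro w hw
    apply Subtype.ext
    simp [Cfsg.Agent.S1507.prodHom]
  have hφ2 : ∀ w : ↥(W₁ ⊔ W₂), (w : G) ∈ W₂ → φ w = 1 := by
    intro w hw
    show Cfsg.Agent.S1507.mk W₁ W₂ hcomm hdisj _ _ w = 1
    rw [e2 w hw, Cfsg.Agent.S1507.mk_apply]
    simp
  have hψ1 : ∀ w : ↥(W₁ ⊔ W₂), (w : G) ∈ W₁ → ψ w = 1 := by
    intro w hw
    show Cfsg.Agent.S1507.mk W₁ W₂ hcomm hdisj _ _ w = 1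
    rw [e1 w hw, Cfsg.Agent.S1507.mk_apply]
    simp
  have hφ1 : ∀ w : ↥(W₁ ⊔ W₂), (w : G) ∈ W₁ → φ w = ω w := by
    intro w hw
    show Cfsg.Agent.S1507.mk W₁ W₂ hcomm hdisj _ _ w = ω w
    conv_lhs => rw [e1 w hw, Cfsg.Agent.S1507.mk_apply]
    simp
    rfl
  have hψ2 : ∀ w : ↥(W₁ ⊔ W₂), (w : G) ∈ W₂ → ψ w = ω w := by
    intro w hw
    show Cfsg.Agent.S1507.mk W₁ W₂ hcomm hdisj _ _ w = ω w
    conv_lhs => rw [e2 w hw, Cfsg.Agent.S1507.mk_apply]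
    simp
    rfl
  refine ⟨φ, ψ, hφ2, hψ1, ?_⟩
  apply hom_ext_sup
  · intro w hw
    rw [MonoidHom.mul_apply, hφ1 w hw, hψ1 w hw, mul_one]
  · intro w hw
    rw [MonoidHom.mul_apply, hφ2 w hw, hψ2 w hw, one_mul]

/-- a cyclic TI family is unique -/
theorem family_unique (hW : Cfsg.IsSelfNormalizingCyclic W₁ W₂)
    (hodd : Odd (Nat.card ↥(W₁ ⊔ W₂))) (χ χ' : (↥(W₁ ⊔ W₂) →* ℂˣ) → (G → ℂ))
    (hχ : Cfsg.IsCyclicTIFamily W₁ W₂ χ) (hχ' : Cfsg.IsCyclicTIFamily W₁ W₂ χ')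
    (ω : ↥(W₁ ⊔ W₂) →* ℂˣ) : χ' ω = χ ω := by
  obtain ⟨φ, ψ, hφ2, hψ1, rfl⟩ := exists_hom_decomp W₁ W₂ hW.2.2.1 hW.2.2.2.1 ω
  obtain ⟨φ₀, hφ₀, hφ₀2⟩ := exists_hom_left W₁ W₂ hW
  obtain ⟨ψ₀, hψ₀, hψ₀1⟩ := exists_hom_right W₁ W₂ hW
  by_cases hφ : φ = 1
  · by_cases hψ : ψ = 1
    · subst hφ; subst hψ
      rw [show (1 : ↥(W₁ ⊔ W₂) →* ℂˣ) * 1 = 1 from mul_one (1 : ↥(W₁ ⊔ W₂) →* ℂˣ), hχ.map_one,
        hχ'.map_one]
    · subst hφ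
      rw [show (1 : ↥(W₁ ⊔ W₂) →* ℂˣ) * ψ = ψ from one_mul ψ]
      exact (family_unique_aux W₁ W₂ hW hodd χ χ' hχ hχ' φ₀ ψ hφ₀ hψ hφ₀2 hψ1).2.1
  · by_cases hψ : ψ = 1
    · subst hψ
      rw [show φ * (1 : ↥(W₁ ⊔ W₂) →* ℂˣ) = φ from mul_one φ]
      exact (family_unique_aux W₁ W₂ hW hodd χ χ' hχ hχ' φ ψ₀ hφ hψ₀ hφ2 hψ₀1).1
    · exact (family_unique_aux W₁ W₂ hW hodd χ χ' hχ hχ' φ ψ hφ hψ hφ2 hψ1).2.2

end fam

end Cfsg.Agent.Lib.Helper12
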