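import Mathlib
import Cfsg.Agent.Lib.Helper12.CycTIUniq
import Cfsg.Agent.Lib.Helper12.GaloisTwist
import Cfsg.Agent.Lib.Helper2.IndFun

set_option autoImplicit false

namespace Cfsg.Agent.Lib.Helper12

open Cfsg.Agent.Lib.Helper2

/-- `x ^ (m * m') = x` when `x ^ N = 1` and `m * m' ≡ 1 [MOD N]` -/
theorem pow_mul_inv_mod {A : Type*} [Group A] (x : A) {N m m' : ℕ} (hx : x ^ N = 1)
    (h : m * m' ≡ 1 [MOD N]) : x ^ (m * m') = x := by
  have hd : orderOf x ∣ N := orderOf_dvd_of_pow_eq_one hx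
  have := (pow_eq_pow_iff_modEq (x := x)).2 (h.of_dvd hd)
  rwa [pow_one] at this

/-- the induced function at a power with exponent invertible modulo the group order -/
theorem indFun_pow {G : Type*} [Group G] [Fintype G] (H : Subgroup G) (f : H → ℂ) (k k' : ℕ)
    (hk : ∀ y : G, (y ^ k) ^ k' = y) (g : G) :
    Cfsg.indFun H f (g ^ k) = Cfsg.indFun H (fun w => f (w ^ k)) g := by
  rw [indFun_apply, indFun_apply]
  congr 1
  apply Finset.sum_congr rfl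
  intro x _
  have e : x⁻¹ * g ^ k * x = (x⁻¹ * g * x) ^ k := by
    have := conj_pow (a := x⁻¹) (b := g) (i := k)
    rw [inv_inv] at this
    exact this.symm
  rw [e]
  by_cases hy : x⁻¹ * g * x ∈ H
  · rw [extendByZero_of_mem H _ (H.pow_mem hy k), extendByZero_of_mem H _ hy]
    rfl
  · have hy' : (x⁻¹ * g * x) ^ k ∉ H := by
      intro h
      apply hy
      have := H.pow_mem h k'
      rwa [hk] at this
    rw [extendByZero_of_not_mem H _ hy', extendByZero_of_not_mem H _ hy]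

/-- the Galois twist of a cyclic TI family is a cyclic TI family -/
theorem twist_family {G : Type*} [Group G] [Fintype G] (W₁ W₂ : Subgroup G)
    (χ : (↥(W₁ ⊔ W₂) →* ℂˣ) → (G → ℂ)) (hχ : Cfsg.IsCyclicTIFamily W₁ W₂ χ) (m m' : ℕ)
    (hm' : m'.Coprime (Nat.card G))
    (hmm : m * m' ≡ 1 [MOD Nat.card G]) :
    Cfsg.IsCyclicTIFamily W₁ W₂ (fun ω g => χ (ω ^ m) (g ^ m')) := by
  have hGpow : ∀ y : G, y ^ (m * m') = y := fun y => pow_mul_inv_mod y pow_card_eq_one' hmm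
  have hWpow : ∀ w : ↥(W₁ ⊔ W₂), w ^ (m * m') = w := fun w =>
    pow_mul_inv_mod w (by apply Subtype.ext; simp) hmm
  have hωpow : ∀ ω : ↥(W₁ ⊔ W₂) →* ℂˣ, ω ^ (m * m') = ω := fun ω =>
    pow_mul_inv_mod ω (by
      ext w
      rw [MonoidHom.pow_apply, ← map_pow]
      have : w ^ Nat.card G = 1 := by apply Subtype.ext; simp
      rw [this]; simp) hmm
  have hξ : ∀ (ξ : ↥(W₁ ⊔ W₂) →* ℂˣ) (w : ↥(W₁ ⊔ W₂)), (ξ ^ m) (w ^ m') = ξ w := by
    intro ξ w
    rw [MonoidHom.pow_apply, ← map_pow, ← pow_mul, mul_comm, hWpow]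
  have hne : ∀ ξ : ↥(W₁ ⊔ W₂) →* ℂˣ, ξ ≠ 1 → ξ ^ m ≠ 1 := by
    intro ξ h1 h2
    apply h1
    have e : ξ ^ (m * m') = (ξ ^ m) ^ m' := pow_mul ξ m m'
    have e1 : (1 : ↥(W₁ ⊔ W₂) →* ℂˣ) ^ m' = 1 := one_pow (M := ↥(W₁ ⊔ W₂) →* ℂˣ) m'
    have := hωpow ξ
    rw [e, h2, e1] at this
    exact this.symm
  refine ⟨?_, ?_, ?_, ?_, ?_⟩
  · intro ω
    rcases hχ.irr_or_neg (ω ^ m) with h | h
    · exact Or.inl (isIrrCharacter_pow_coprime m' hm' h)
    · exact Or.inr (isIrrCharacter_pow_coprime m' hm' h)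
  · intro ω ω'
    have h1 : Cfsg.classInner (fun g => χ (ω ^ m) (g ^ m')) (fun g => χ (ω' ^ m) (g ^ m')) =
        Cfsg.classInner (χ (ω ^ m)) (χ (ω' ^ m)) := by
      rw [classInner_def, classInner_def]
      congr 1
      exact Fintype.sum_bijective _ (powCoprime hm'.symm).bijective _ _ (fun g => rfl)
    rw [h1, hχ.orthonormal]
    have : (ω ^ m = ω' ^ m) ↔ ω = ω' := by
      constructor
      · intro h
        have h3 : (ω ^ m) ^ m' = (ω' ^ m) ^ m' := by rw [h]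
        have e : ∀ ξ : ↥(W₁ ⊔ W₂) →* ℂˣ, (ξ ^ m) ^ m' = ξ :=
          fun ξ => (pow_mul ξ m m').symm.trans (hωpow ξ)
        rwa [e, e] at h3
      · intro h; rw [h]
    by_cases hω : ω = ω'
    · subst hω
      rw [if_pos rfl, if_pos rfl]
    · rw [if_neg hω, if_neg (fun h => hω (this.1 h))]
  · funext g
    have e1 : (1 : ↥(W₁ ⊔ W₂) →* ℂˣ) ^ m = 1 := one_pow (M := ↥(W₁ ⊔ W₂) →* ℂˣ) m
    show χ (1 ^ m) (g ^ m') = 1
    rw [e1, hχ.map_one]
  · intro ω w hw1 hw2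
    show χ (ω ^ m) ((w : G) ^ m') = ω w
    have h1 : ((w ^ m' : ↥(W₁ ⊔ W₂)) : G) ∉ W₁ := by
      intro h
      apply hw1
      have := W₁.pow_mem h m
      have e : (((w ^ m' : ↥(W₁ ⊔ W₂)) : G)) ^ m = (w : G) := by
        rw [SubmonoidClass.coe_pow, ← pow_mul, mul_comm, hGpow]
      rwa [e] at this
    have h2 : ((w ^ m' : ↥(W₁ ⊔ W₂)) : G) ∉ W₂ := by
      intro h
      apply hw2
      have := W₂.pow_mem h m
      have e : (((w ^ m' : ↥(W₁ ⊔ W₂)) : G)) ^ m = (w : G) := by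
        rw [SubmonoidClass.coe_pow, ← pow_mul, mul_comm, hGpow]
      rwa [e] at this
    have e : (w : G) ^ m' = ((w ^ m' : ↥(W₁ ⊔ W₂)) : G) := rfl
    rw [e, hχ.eq_on (ω ^ m) (w ^ m') h1 h2, hξ]
  · intro φ ψ hφ hψ hφ2 hψ1
    have h := hχ.induced_eq (φ ^ m) (ψ ^ m) (hne φ hφ) (hne ψ hψ)
      (fun w hw => by rw [MonoidHom.pow_apply, hφ2 w hw, one_pow])
      (fun w hw => by rw [MonoidHom.pow_apply, hψ1 w hw, one_pow])
    funext g
    have hg := congrFun h (g ^ m')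
    rw [indFun_pow _ _ m' m (fun y => by rw [← pow_mul, mul_comm, hGpow])] at hg
    have e2 : (φ * ψ) ^ m = φ ^ m * ψ ^ m := mul_pow φ ψ m
    rw [e2, ← hg]
    congr 1
    funext w
    rw [hξ φ, hξ ψ]

end Cfsg.Agent.Lib.Helper12
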