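import Mathlib
import Cfsg.Agent.Lib.Helper12.CycTITwist
import Cfsg.Agent.Lib.Helper2.CharRational
import Cfsg.Agent.Lib.Helper2.CharBasic

set_option autoImplicit false

namespace Cfsg.Agent.Lib.Helper12

open Cfsg.Agent.Lib.Helper2

/-- Galois equivariance of a cyclic TI family -/
theorem family_pow {G : Type*} [Group G] [Fintype G] (W₁ W₂ : Subgroup G)
    (hW : Cfsg.IsSelfNormalizingCyclic W₁ W₂) (hodd : Odd (Nat.card ↥(W₁ ⊔ W₂)))
    (χ : (↥(W₁ ⊔ W₂) →* ℂˣ) → (G → ℂ)) (hχ : Cfsg.IsCyclicTIFamily W₁ W₂ χ) (m : ℕ)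
    (hm : m.Coprime (Nat.card G)) (ω : ↥(W₁ ⊔ W₂) →* ℂˣ) (g : G) :
    χ ω (g ^ m) = χ (ω ^ m) g := by
  have hN : 0 < Nat.card G := Nat.card_pos
  have hφ : 0 < Nat.totient (Nat.card G) := Nat.totient_pos.2 hN
  have hm' : (m ^ (Nat.totient (Nat.card G) - 1)).Coprime (Nat.card G) := Nat.Coprime.pow_left _ hm
  have hmm : m * m ^ (Nat.totient (Nat.card G) - 1) ≡ 1 [MOD Nat.card G] := by
    have : m * m ^ (Nat.totient (Nat.card G) - 1) = m ^ Nat.totient (Nat.card G) := by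
      rw [← pow_succ']; congr 1; omega
    rw [this]; exact Nat.ModEq.pow_totient hm
  have hfam := twist_family W₁ W₂ χ hχ m (m ^ (Nat.totient (Nat.card G) - 1)) hm' hmm
  have h1 := family_unique W₁ W₂ hW hodd χ _ hχ hfam ω
  have h2 := congrFun h1 (g ^ m)
  have e : (g ^ m) ^ (m ^ (Nat.totient (Nat.card G) - 1)) = g := by
    rw [← pow_mul]; exact pow_mul_inv_mod g pow_card_eq_one' hmm
  have h3 : χ (ω ^ m) ((g ^ m) ^ (m ^ (Nat.totient (Nat.card G) - 1))) = χ ω (g ^ m) := h2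
  rw [e] at h3
  exact h3.symm

/-- a unit modulo `N` with prescribed residues modulo two coprime divisors of `N` -/
theorem exists_coprime_crt (N a b m₀ : ℕ) (hN : 0 < N) (ha : a ∣ N) (hb : b ∣ N)
    (hab : a.Coprime b) (hm₀ : m₀.Coprime N) :
    ∃ m : ℕ, m.Coprime N ∧ m ≡ m₀ [MOD a] ∧ m ≡ 1 [MOD b] := by
  have hdvd : a * b ∣ N := hab.mul_dvd_of_dvd_of_dvd ha hb
  obtain ⟨x, hx1, hx2⟩ := Nat.chineseRemainder hab m₀ 1
  have hxa : x.Coprime a := by
    have h1 : Nat.gcd x a = Nat.gcd m₀ a := hx1.gcd_eq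
    have h2 : m₀.Coprime a := Nat.Coprime.coprime_dvd_right ha hm₀
    rw [Nat.Coprime, h1]; exact h2
  have hxb : x.Coprime b := by
    have h1 : Nat.gcd x b = Nat.gcd 1 b := hx2.gcd_eq
    rw [Nat.Coprime, h1]; exact Nat.gcd_one_left b
  have hxab : x.Coprime (a * b) := Nat.Coprime.mul_right hxa hxb
  haveI : NeZero N := ⟨hN.ne'⟩
  obtain ⟨u, hu⟩ := ZMod.unitsMap_surjective hdvd (ZMod.unitOfCoprime x hxab)
  have hval : ((u : ZMod N).val : ZMod (a * b)) = (x : ZMod (a * b)) := by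
    have h1 := congrArg (fun t : (ZMod (a * b))ˣ => (t : ZMod (a * b))) hu
    simp only [ZMod.unitsMap_val, ZMod.coe_unitOfCoprime] at h1
    rw [ZMod.natCast_val]
    exact h1
  have hmod : (u : ZMod N).val ≡ x [MOD a * b] := (ZMod.natCast_eq_natCast_iff _ _ _).1 hval
  refine ⟨(u : ZMod N).val, ZMod.val_coe_unit_coprime u, ?_, ?_⟩
  · exact (hmod.of_dvd (dvd_mul_right a b)).trans hx1
  · exact (hmod.of_dvd (dvd_mul_left b a)).trans hx2

theorem char_rational_of_pow {G : Type*} [Group G] [Finite G] {V : Type*} [AddCommGroup V]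
    [Module ℂ V] [FiniteDimensional ℂ V] (ρ : Representation ℂ G V) (g : G)
    (h : ∀ m : ℕ, m.Coprime (Nat.card G) → ρ.character (g ^ m) = ρ.character g) :
    ∃ q : ℚ, ρ.character g = (q : ℂ) := by
  have hnz : NeZero (Nat.card G) := ⟨Nat.card_pos.ne'⟩
  obtain ⟨x, hx1, hx⟩ := char_lift_self (Nat.card G) ρ g (orderOf_dvd_natCard g)
  have hfix : ∀ σ : CycK (Nat.card G) ≃ₐ[ℚ] CycK (Nat.card G), σ x = x := by
    intro σ
    obtain ⟨m, hm, hσ⟩ := aut_zeta (Nat.card G) σ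
    apply cycEmb_injective (Nat.card G)
    rw [hx σ m hσ, hx1]
    exact h m hm
  obtain ⟨q, hq⟩ := (IsGalois.mem_range_algebraMap_iff_fixed x).mpr hfix
  refine ⟨q, ?_⟩
  rw [← hx1, ← hq, AlgHom.commutes]
  simp

/-- a rational character value is an integer -/
theorem char_int_of_pow {G : Type*} [Group G] [Finite G] {V : Type*} [AddCommGroup V]
    [Module ℂ V] [FiniteDimensional ℂ V] (ρ : Representation ℂ G V) (g : G)
    (h : ∀ m : ℕ, m.Coprime (Nat.card G) → ρ.character (g ^ m) = ρ.character g) :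
    ∃ n : ℤ, ρ.character g = (n : ℂ) := by
  obtain ⟨q, hq⟩ := char_rational_of_pow ρ g h
  have hint : IsIntegral ℤ (ρ.character g) := char_isIntegral ρ g
  have h1 : ρ.character g = algebraMap ℚ ℂ q := by rw [hq]; simp
  rw [h1, isIntegral_algebraMap_iff (algebraMap ℚ ℂ).injective] at hint
  obtain ⟨t, ht⟩ := IsIntegrallyClosed.isIntegral_iff.mp hint
  refine ⟨t, ?_⟩
  rw [hq, ← ht]
  simp

end Cfsg.Agent.Lib.Helper12
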