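import Mathlib
import Cfsg.Prelude.Def_OddOrderLocal
import Cfsg.Agent.Lib.Helper12.CharAux
import Cfsg.Agent.Lib.Helper12.DualAux

set_option autoImplicit false

namespace Cfsg.Agent.Lib.Helper12

open Cfsg.Agent.Lib.Helper2

/-- the linear characters trivial on a given subset, as a subgroup of the dual group -/
def trivOn {A : Type*} [Group A] (S : Set A) : Subgroup (A →* ℂˣ) where
  carrier := {φ | ∀ a ∈ S, φ a = 1}
  mul_mem' := by
    intro φ ψ hφ hψ a ha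
    have h1 := hφ a ha
    have h2 := hψ a ha
    rw [MonoidHom.mul_apply, h1, h2, one_mul]
  one_mem' := by
    intro a _
    rfl
  inv_mem' := by
    intro φ hφ a ha
    have h1 := hφ a ha
    rw [MonoidHom.inv_apply, h1, inv_one]

theorem mem_trivOn {A : Type*} [Group A] (S : Set A) (φ : A →* ℂˣ) :
    φ ∈ trivOn S ↔ ∀ a ∈ S, φ a = 1 := Iff.rfl

/-- In a self-normalising cyclic configuration, the elements of `W` outside `W₁ ∪ W₂` form a
trivial-intersection set: an element conjugating one of them to another lies in `W`. -/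
theorem ti_of_selfNormalizingCyclic {G : Type*} [Group G] (W₁ W₂ : Subgroup G)
    (hW : Cfsg.IsSelfNormalizingCyclic W₁ W₂) (w x : G) (hw : w ∈ W₁ ⊔ W₂) (hw1 : w ∉ W₁)
    (hw2 : w ∉ W₂) (hx : x⁻¹ * w * x ∈ W₁ ⊔ W₂) (hx1 : x⁻¹ * w * x ∉ W₁)
    (hx2 : x⁻¹ * w * x ∉ W₂) : x ∈ W₁ ⊔ W₂ := by
  obtain ⟨-, -, -, -, hcyc, hnorm⟩ := hW
  have cent : ∀ v : G, v ∈ W₁ ⊔ W₂ → v ∉ W₁ → v ∉ W₂ →
      ∀ g : G, (g ∈ W₁ ⊔ W₂ ↔ g * v * g⁻¹ = v) := by
    intro v hv hv1 hv2 g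
    have h := hnorm {v} (by
      intro y hy
      rw [Set.mem_singleton_iff] at hy
      subst hy
      exact ⟨hv, fun h => h.elim hv1 hv2⟩) (Set.singleton_nonempty v)
    rw [← h, Subgroup.mem_set_normalizer_iff]
    constructor
    · intro hg
      exact (hg v).1 rfl
    · intro hg y
      constructor
      · intro hy
        rw [Set.mem_singleton_iff] at hy
        subst hy
        exact hg
      · intro hy
        rw [Set.mem_singleton_iff] at hy ⊢
        have e1 : y = g⁻¹ * v * g := by rw [← hy]; group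
        rw [e1]
        calc g⁻¹ * v * g = g⁻¹ * (g * v * g⁻¹) * g := by rw [hg]
          _ = v := by group
  have conj1 : ∀ g ∈ W₁ ⊔ W₂, x * g * x⁻¹ ∈ W₁ ⊔ W₂ := by
    intro g hg
    rw [cent w hw hw1 hw2]
    have h1 := (cent (x⁻¹ * w * x) hx hx1 hx2 g).1 hg
    calc x * g * x⁻¹ * w * (x * g * x⁻¹)⁻¹ = x * (g * (x⁻¹ * w * x) * g⁻¹) * x⁻¹ := by group
      _ = x * (x⁻¹ * w * x) * x⁻¹ := by rw [h1]
      _ = w := by group
  have conj2 : ∀ g ∈ W₁ ⊔ W₂, x⁻¹ * g * x ∈ W₁ ⊔ W₂ := by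
    intro g hg
    rw [cent (x⁻¹ * w * x) hx hx1 hx2]
    have h1 := (cent w hw hw1 hw2 g).1 hg
    calc x⁻¹ * g * x * (x⁻¹ * w * x) * (x⁻¹ * g * x)⁻¹ = x⁻¹ * (g * w * g⁻¹) * x := by group
      _ = x⁻¹ * w * x := by rw [h1]
  let σ : ↥(W₁ ⊔ W₂) →* ↥(W₁ ⊔ W₂) :=
    { toFun := fun g => ⟨x * g * x⁻¹, conj1 g g.2⟩
      map_one' := by ext; simp
      map_mul' := by intro a b; ext; simp only [Subgroup.coe_mul]; group }
  let σ' : ↥(W₁ ⊔ W₂) →* ↥(W₁ ⊔ W₂) :=
    { toFun := fun g => ⟨x⁻¹ * g * x, conj2 g g.2⟩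
      map_one' := by ext; simp
      map_mul' := by intro a b; ext; simp only [Subgroup.coe_mul]; group }
  obtain ⟨m, hm⟩ := MonoidHom.map_cyclic σ
  obtain ⟨m', hm'⟩ := MonoidHom.map_cyclic σ'
  have pres : ∀ (U : Subgroup G) (g : G), g ∈ W₁ ⊔ W₂ → g ∈ U → x * g * x⁻¹ ∈ U := by
    intro U g hg hgU
    have h1 := congrArg Subtype.val (hm ⟨g, hg⟩)
    have h2 : x * g * x⁻¹ = g ^ m := by
      simpa [σ] using h1
    rw [h2]
    exact U.zpow_mem hgU m
  have pres' : ∀ (U : Subgroup G) (g : G), g ∈ W₁ ⊔ W₂ → g ∈ U → x⁻¹ * g * x ∈ U := by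
    intro U g hg hgU
    have h1 := congrArg Subtype.val (hm' ⟨g, hg⟩)
    have h2 : x⁻¹ * g * x = g ^ m' := by
      simpa [σ'] using h1
    rw [h2]
    exact U.zpow_mem hgU m'
  have hV := hnorm ((↑(W₁ ⊔ W₂) : Set G) \ (↑W₁ ∪ ↑W₂)) (subset_refl _)
    ⟨w, hw, fun h => h.elim hw1 hw2⟩
  rw [← hV, Subgroup.mem_set_normalizer_iff]
  intro h
  have back : x⁻¹ * (x * h * x⁻¹) * x = h := by group
  constructor
  · rintro ⟨hh, hh'⟩
    refine ⟨conj1 h hh, ?_⟩
    rintro (h1 | h2)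
    · apply hh'
      left
      have := pres' W₁ (x * h * x⁻¹) (conj1 h hh) h1
      rw [back] at this
      exact this
    · apply hh'
      right
      have := pres' W₂ (x * h * x⁻¹) (conj1 h hh) h2
      rw [back] at this
      exact this
  · rintro ⟨hh, hh'⟩
    have hmem : h ∈ W₁ ⊔ W₂ := by
      have := conj2 _ hh
      rw [back] at this
      exact this
    refine ⟨hmem, ?_⟩
    rintro (h1 | h2)
    · exact hh' (Or.inl (pres W₁ h hmem h1))
    · exact hh' (Or.inr (pres W₂ h hmem h2))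

/-- For a function `α` on `W` vanishing on `W₁ ∪ W₂`, the induced function agrees with `α` at
the elements of `W` outside `W₁ ∪ W₂`. -/
theorem indFun_eq_of_selfNormalizingCyclic {G : Type*} [Group G] [Fintype G] (W₁ W₂ : Subgroup G)
    (hW : Cfsg.IsSelfNormalizingCyclic W₁ W₂) (α : ↥(W₁ ⊔ W₂) → ℂ)
    (hα : ∀ v : ↥(W₁ ⊔ W₂), ((v : G) ∈ W₁ ∨ (v : G) ∈ W₂) → α v = 0)
    (w : ↥(W₁ ⊔ W₂)) (hw1 : (w : G) ∉ W₁) (hw2 : (w : G) ∉ W₂) :
    Cfsg.indFun (W₁ ⊔ W₂) α w = α w := by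
  classical
  have hcomm : ∀ a b : ↥(W₁ ⊔ W₂), a * b = b * a := by
    obtain ⟨-, -, -, -, hcyc, -⟩ := hW
    intro a b
    exact (IsCyclic.commGroup (α := ↥(W₁ ⊔ W₂))).mul_comm a b
  rw [indFun_apply]
  have hterm : ∀ x : G, Cfsg.extendByZero (W₁ ⊔ W₂) α (x⁻¹ * (w : G) * x)
      = if x ∈ W₁ ⊔ W₂ then α w else 0 := by
    intro x
    by_cases hx : x ∈ W₁ ⊔ W₂
    · rw [if_pos hx]
      have e : x⁻¹ * (w : G) * x = (w : G) := by
        have := congrArg Subtype.val (hcomm w ⟨x, hx⟩)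
        simp only [Subgroup.coe_mul] at this
        rw [mul_assoc, this]
        group
      rw [e, extendByZero_coe]
    · rw [if_neg hx]
      by_cases hm : x⁻¹ * (w : G) * x ∈ W₁ ⊔ W₂
      · rw [extendByZero_of_mem _ _ hm]
        apply hα
        by_contra hcon
        push Not at hcon
        exact hx (ti_of_selfNormalizingCyclic W₁ W₂ hW w x w.2 hw1 hw2 hm hcon.1 hcon.2)
      · rw [extendByZero_of_not_mem _ _ hm]
  simp only [hterm]
  rw [Finset.sum_ite, Finset.sum_const_zero, add_zero, Finset.sum_const, nsmul_eq_mul]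
  have hc : (Finset.univ.filter (fun x : G => x ∈ W₁ ⊔ W₂)).card = Nat.card ↥(W₁ ⊔ W₂) := by
    rw [Nat.card_eq_fintype_card, Fintype.card_subtype]
  rw [hc, ← mul_assoc, inv_mul_cancel₀ (card_ne_zero_complex _), one_mul]

end Cfsg.Agent.Lib.Helper12
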