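import Mathlib
import Cfsg.Prelude.Def_Sporadic_a
import Cfsg.Agent.Lib.Helper4.GolayM21
import Cfsg.Agent.Lib.Helper28.M24Six
import Cfsg.Agent.S0352
import Cfsg.Agent.S0363

set_option autoImplicit false

namespace Cfsg.Agent.Lib.Helper12

open Cfsg Pointwise
open Cfsg.Agent.Lib.Helper4 Cfsg.Agent.Lib.Helper4.Golay

/-- an injection defined on at most five points is induced by an element of the group -/
theorem exists_ext_inj (S : Finset GolayPt) (hS : S.card ≤ 5) (f : GolayPt → GolayPt)
    (hf : Set.InjOn f (S : Set GolayPt)) : ∃ g ∈ M24, ∀ p ∈ S, g p = f p := by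
  classical
  let e := S.equivFin
  let x : Fin S.card ↪ GolayPt :=
    ⟨fun i => (e.symm i : GolayPt), fun i j h => e.symm.injective (Subtype.ext h)⟩
  let y : Fin S.card ↪ GolayPt :=
    ⟨fun i => f (e.symm i : GolayPt), fun i j h => e.symm.injective (Subtype.ext
      (hf (Finset.mem_coe.2 (e.symm i).2) (Finset.mem_coe.2 (e.symm j).2) h))⟩
  obtain ⟨g, hg, hgxy⟩ := exists_mapN hS x y
  refine ⟨g, hg, fun p hp => ?_⟩
  have h1 := hgxy (e ⟨p, hp⟩)
  have h2 : x (e ⟨p, hp⟩) = p := by
    show ((e.symm (e ⟨p, hp⟩) : ↥S) : GolayPt) = p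
    rw [Equiv.symm_apply_apply]
  have h3 : y (e ⟨p, hp⟩) = f p := by
    show f ((e.symm (e ⟨p, hp⟩) : ↥S) : GolayPt) = f p
    rw [Equiv.symm_apply_apply]
  rw [h2, h3] at h1
  exact h1

/-- transitivity on pairs of sets spanning at most five points -/
theorem pairs_trans (A B A' B' : Finset GolayPt) (h5 : (A ∪ B).card ≤ 5)
    (hA : A.card = A'.card) (hB : B.card = B'.card) (hAB : (A ∩ B).card = (A' ∩ B').card) :
    ∃ g ∈ M24, g • A = A' ∧ g • B = B' := by
  classical
  have c1 : (A \ B).card = (A' \ B').card := by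
    have h1 := Finset.card_sdiff_add_card_inter A B
    have h2 := Finset.card_sdiff_add_card_inter A' B'
    omega
  have c3 : (B \ A).card = (B' \ A').card := by
    have h1 := Finset.card_sdiff_add_card_inter B A
    have h2 := Finset.card_sdiff_add_card_inter B' A'
    rw [Finset.inter_comm] at h1 h2
    omega
  let e1 := Finset.equivOfCardEq c1
  let e2 := Finset.equivOfCardEq hAB
  let e3 := Finset.equivOfCardEq c3
  let f : GolayPt → GolayPt := fun p =>
    if h : p ∈ A ∩ B then (e2 ⟨p, h⟩ : GolayPt) else if h : p ∈ A \ B then (e1 ⟨p, h⟩ : GolayPt)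
    else if h : p ∈ B \ A then (e3 ⟨p, h⟩ : GolayPt) else p
  have f2 : ∀ p (h : p ∈ A ∩ B), f p = e2 ⟨p, h⟩ := fun p h => by
    show (if h : p ∈ A ∩ B then (e2 ⟨p, h⟩ : GolayPt) else if h : p ∈ A \ B then
      (e1 ⟨p, h⟩ : GolayPt) else if h : p ∈ B \ A then (e3 ⟨p, h⟩ : GolayPt) else p) = _
    rw [dif_pos h]
  have f1 : ∀ p (h : p ∈ A \ B), f p = e1 ⟨p, h⟩ := fun p h => by
    have hn : p ∉ A ∩ B := by
      rw [Finset.mem_sdiff] at h
      rw [Finset.mem_inter]
      exact fun h' => h.2 h'.2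
    show (if h : p ∈ A ∩ B then (e2 ⟨p, h⟩ : GolayPt) else if h : p ∈ A \ B then
      (e1 ⟨p, h⟩ : GolayPt) else if h : p ∈ B \ A then (e3 ⟨p, h⟩ : GolayPt) else p) = _
    rw [dif_neg hn, dif_pos h]
  have f3 : ∀ p (h : p ∈ B \ A), f p = e3 ⟨p, h⟩ := fun p h => by
    have hn : p ∉ A ∩ B := by
      rw [Finset.mem_sdiff] at h
      rw [Finset.mem_inter]
      exact fun h' => h.2 h'.1
    have hn' : p ∉ A \ B := by
      rw [Finset.mem_sdiff] at h ⊢
      exact fun h' => h.2 h'.1
    show (if h : p ∈ A ∩ B then (e2 ⟨p, h⟩ : GolayPt) else if h : p ∈ A \ B then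
      (e1 ⟨p, h⟩ : GolayPt) else if h : p ∈ B \ A then (e3 ⟨p, h⟩ : GolayPt) else p) = _
    rw [dif_neg hn, dif_neg hn', dif_pos h]
  have m2 : ∀ p ∈ A ∩ B, f p ∈ A' ∩ B' := fun p h => by rw [f2 p h]; exact (e2 ⟨p, h⟩).2
  have m1 : ∀ p ∈ A \ B, f p ∈ A' \ B' := fun p h => by rw [f1 p h]; exact (e1 ⟨p, h⟩).2
  have m3 : ∀ p ∈ B \ A, f p ∈ B' \ A' := fun p h => by rw [f3 p h]; exact (e3 ⟨p, h⟩).2
  have cls : ∀ p ∈ A ∪ B, p ∈ A ∩ B ∨ p ∈ A \ B ∨ p ∈ B \ A := by
    intro p hp
    rw [Finset.mem_union] at hp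
    rw [Finset.mem_inter, Finset.mem_sdiff, Finset.mem_sdiff]
    tauto
  have hinj : Set.InjOn f ((A ∪ B : Finset GolayPt) : Set GolayPt) := by
    intro p hp q hq hpq
    rcases cls p (Finset.mem_coe.1 hp) with h | h | h <;>
      rcases cls q (Finset.mem_coe.1 hq) with h' | h' | h'
    · rw [f2 p h, f2 q h'] at hpq
      have := e2.injective (Subtype.ext hpq)
      exact congrArg Subtype.val this
    · have a1 := m2 p h
      have a2 := m1 q h'
      rw [hpq] at a1
      rw [Finset.mem_inter] at a1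
      rw [Finset.mem_sdiff] at a2
      exact absurd a1.2 a2.2
    · have a1 := m2 p h
      have a2 := m3 q h'
      rw [hpq] at a1
      rw [Finset.mem_inter] at a1
      rw [Finset.mem_sdiff] at a2
      exact absurd a1.1 a2.2
    · have a1 := m1 p h
      have a2 := m2 q h'
      rw [hpq] at a1
      rw [Finset.mem_inter] at a2
      rw [Finset.mem_sdiff] at a1
      exact absurd a2.2 a1.2
    · rw [f1 p h, f1 q h'] at hpq
      have := e1.injective (Subtype.ext hpq)
      exact congrArg Subtype.val this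
    · have a1 := m1 p h
      have a2 := m3 q h'
      rw [hpq] at a1
      rw [Finset.mem_sdiff] at a1 a2
      exact absurd a1.1 a2.2
    · have a1 := m3 p h
      have a2 := m2 q h'
      rw [hpq] at a1
      rw [Finset.mem_inter] at a2
      rw [Finset.mem_sdiff] at a1
      exact absurd a2.1 a1.2
    · have a1 := m3 p h
      have a2 := m1 q h'
      rw [hpq] at a1
      rw [Finset.mem_sdiff] at a1 a2
      exact absurd a2.1 a1.2
    · rw [f3 p h, f3 q h'] at hpq
      have := e3.injective (Subtype.ext hpq)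
      exact congrArg Subtype.val this
  obtain ⟨g, hg, hgf⟩ := exists_ext_inj (A ∪ B) h5 f hinj
  refine ⟨g, hg, ?_, ?_⟩
  · apply Finset.eq_of_subset_of_card_le
    · intro q hq
      obtain ⟨p, hp, rfl⟩ := Finset.mem_smul_finset.1 hq
      show g p ∈ A'
      rw [hgf p (Finset.mem_union_left _ hp)]
      by_cases hpB : p ∈ B
      · exact (Finset.mem_inter.1 (m2 p (Finset.mem_inter.2 ⟨hp, hpB⟩))).1
      · exact (Finset.mem_sdiff.1 (m1 p (Finset.mem_sdiff.2 ⟨hp, hpB⟩))).1
    · rw [Finset.card_smul_finset, hA]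
  · apply Finset.eq_of_subset_of_card_le
    · intro q hq
      obtain ⟨p, hp, rfl⟩ := Finset.mem_smul_finset.1 hq
      show g p ∈ B'
      rw [hgf p (Finset.mem_union_right _ hp)]
      by_cases hpA : p ∈ A
      · exact (Finset.mem_inter.1 (m2 p (Finset.mem_inter.2 ⟨hpA, hp⟩))).2
      · exact (Finset.mem_sdiff.1 (m3 p (Finset.mem_sdiff.2 ⟨hp, hpA⟩))).1
    · rw [Finset.card_smul_finset, hB]

/-- the Johnson graph is connected -/
theorem johnson_conn {α : Type*} [DecidableEq α] (n : ℕ) (s β : Finset α) (hs : s.card = n)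
    (hβ : β.card = n) :
    Relation.ReflTransGen
      (fun a c : Finset α => a.card = n ∧ c.card = n ∧ (a ∩ c).card = n - 1) s β := by
  induction hk : (s \ β).card using Nat.strong_induction_on generalizing s with
  | _ k ih =>
    by_cases h0 : s \ β = ∅
    · have hsub : s ⊆ β := Finset.sdiff_eq_empty_iff_subset.1 h0
      have : s = β := Finset.eq_of_subset_of_card_le hsub (by omega)
      rw [this]
    · obtain ⟨x, hx⟩ := Finset.nonempty_iff_ne_empty.2 h0
      have hcard : (β \ s).card = (s \ β).card := by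
        have h1 := Finset.card_sdiff_add_card_inter s β
        have h2 := Finset.card_sdiff_add_card_inter β s
        rw [Finset.inter_comm] at h2
        omega
      have hne : (β \ s).Nonempty := by
        rw [← Finset.card_pos, hcard, Finset.card_pos]
        exact ⟨x, hx⟩
      obtain ⟨y, hy⟩ := hne
      rw [Finset.mem_sdiff] at hx hy
      have hyx : y ≠ x := fun h => hx.2 (h ▸ hy.1)
      have hy' : y ∉ s.erase x := fun h => hy.2 (Finset.mem_of_mem_erase h)
      have hs' : (insert y (s.erase x)).card = n := by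
        rw [Finset.card_insert_of_notMem hy', Finset.card_erase_of_mem hx.1]
        have : 0 < s.card := Finset.card_pos.2 ⟨x, hx.1⟩
        omega
      have hint : s ∩ insert y (s.erase x) = s.erase x := by
        ext z
        simp only [Finset.mem_inter, Finset.mem_insert, Finset.mem_erase]
        constructor
        · rintro ⟨hz, rfl | h⟩
          · exact absurd hz hy.2
          · exact h
        · intro h
          exact ⟨h.2, Or.inr h⟩
      have hsd : insert y (s.erase x) \ β = (s \ β).erase x := by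
        ext z
        simp only [Finset.mem_sdiff, Finset.mem_insert, Finset.mem_erase]
        constructor
        · rintro ⟨rfl | h, hz⟩
          · exact absurd hy.1 hz
          · exact ⟨h.1, h.2, hz⟩
        · rintro ⟨h1, h2, h3⟩
          exact ⟨Or.inr ⟨h1, h2⟩, h3⟩
      have hlt : (insert y (s.erase x) \ β).card < k := by
        rw [hsd, Finset.card_erase_of_mem (Finset.mem_sdiff.2 hx), hk]
        have : 0 < (s \ β).card := Finset.card_pos.2 ⟨x, Finset.mem_sdiff.2 hx⟩
        omega
      refine Relation.ReflTransGen.head ?_ (ih _ hlt _ hs' rfl)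
      refine ⟨hs, hs', ?_⟩
      rw [hint, Finset.card_erase_of_mem hx.1, hs]

/-- room for a set of prescribed size off a given set -/
theorem exists_disjoint_card (X : Finset GolayPt) (m : ℕ) (h : X.card + m ≤ 24) :
    ∃ γ : Finset GolayPt, γ.card = m ∧ Disjoint X γ := by
  have hc : m ≤ Xᶜ.card := by
    rw [Finset.card_compl, card_pts]
    omega
  obtain ⟨γ, hγ, hγc⟩ := Finset.exists_subset_card_eq hc
  refine ⟨γ, hγc, ?_⟩
  rw [Finset.disjoint_left]
  intro a ha ha'
  exact (Finset.mem_compl.1 (hγ ha')) ha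

theorem octad_eq_of_five {o o' : Finset GolayPt} (ho : o ∈ octads) (ho' : o' ∈ octads)
    (h : 5 ≤ (o ∩ o').card) : o = o' := by
  by_contra hne
  have := Cfsg.Agent.S0352.result card_pts Cfsg.Agent.S0363.result ho ho' hne
  omega

theorem exists_octad_superset (X : Finset GolayPt) (hX : X.card ≤ 5) :
    ∃ o ∈ octads, X ⊆ o := by
  obtain ⟨t, hXt, ht⟩ := Finset.exists_superset_card_eq hX (by rw [card_pts]; norm_num)
  obtain ⟨b, ⟨hb, hsub⟩, -⟩ := Cfsg.Agent.S0363.result.2 t ht
  exact ⟨b, hb, hXt.trans hsub⟩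

end Cfsg.Agent.Lib.Helper12
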