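import Mathlib
import Cfsg.Prelude.Def_Sporadic_a
import Cfsg.Agent.Lib.Helper12.M24Trans

set_option autoImplicit false

namespace Cfsg.Agent.Lib.Helper12

open Cfsg Pointwise
open Cfsg.Agent.Lib.Helper4 Cfsg.Agent.Lib.Helper4.Golay

/-- six-point transitivity, for tuples -/
theorem six_trans_fn (a a' : Fin 6 → GolayPt) (ha : Function.Injective a)
    (ha' : Function.Injective a')
    (hiff : (∃ o ∈ octads, ∀ i, a i ∈ o) ↔ (∃ o ∈ octads, ∀ i, a' i ∈ o)) :
    ∃ g ∈ M24, ∀ i, g (a i) = a' i := by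
  by_cases hoct : ∃ o ∈ octads, ∀ i, a i ∈ o
  · obtain ⟨h, hh, e⟩ := Cfsg.Agent.Lib.Helper28.six_std a ha 7 (Or.inl ⟨rfl, hoct⟩)
    obtain ⟨h', hh', e'⟩ := Cfsg.Agent.Lib.Helper28.six_std a' ha' 7 (Or.inl ⟨rfl, hiff.1 hoct⟩)
    refine ⟨h'⁻¹ * h, Subgroup.mul_mem _ (Subgroup.inv_mem _ hh') hh, fun i => ?_⟩
    rw [Equiv.Perm.mul_apply, e i, ← e' i]
    simp
  · have hoct' : ¬ ∃ o ∈ octads, ∀ i, a' i ∈ o := fun h => hoct (hiff.2 h)
    obtain ⟨h, hh, e⟩ := Cfsg.Agent.Lib.Helper28.six_std a ha 5 (Or.inr ⟨rfl, hoct⟩)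
    obtain ⟨h', hh', e'⟩ := Cfsg.Agent.Lib.Helper28.six_std a' ha' 5 (Or.inr ⟨rfl, hoct'⟩)
    refine ⟨h'⁻¹ * h, Subgroup.mul_mem _ (Subgroup.inv_mem _ hh') hh, fun i => ?_⟩
    rw [Equiv.Perm.mul_apply, e i, ← e' i]
    simp

theorem smul_triple (g : Equiv.Perm GolayPt) (x y z : GolayPt) :
    g • ({x, y, z} : Finset GolayPt) = {g x, g y, g z} := by
  ext q
  rw [Finset.mem_smul_finset]
  simp only [Finset.mem_insert, Finset.mem_singleton]
  constructor
  · rintro ⟨p, rfl | rfl | rfl, rfl⟩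
    · exact Or.inl rfl
    · exact Or.inr (Or.inl rfl)
    · exact Or.inr (Or.inr rfl)
  · rintro (rfl | rfl | rfl)
    · exact ⟨x, Or.inl rfl, rfl⟩
    · exact ⟨y, Or.inr (Or.inl rfl), rfl⟩
    · exact ⟨z, Or.inr (Or.inr rfl), rfl⟩

/-- six-point transitivity, for pairs of disjoint triads -/
theorem six_trans (T U T' U' : Finset GolayPt) (hT : T.card = 3) (hU : U.card = 3)
    (hT' : T'.card = 3) (hU' : U'.card = 3) (hd : Disjoint T U) (hd' : Disjoint T' U')
    (hiff : (∃ o ∈ octads, T ∪ U ⊆ o) ↔ (∃ o ∈ octads, T' ∪ U' ⊆ o)) :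
    ∃ g ∈ M24, g • T = T' ∧ g • U = U' := by
  obtain ⟨t0, t1, t2, h01, h02, h12, rfl⟩ := Finset.card_eq_three.1 hT
  obtain ⟨u0, u1, u2, k01, k02, k12, rfl⟩ := Finset.card_eq_three.1 hU
  obtain ⟨t0', t1', t2', h01', h02', h12', rfl⟩ := Finset.card_eq_three.1 hT'
  obtain ⟨u0', u1', u2', k01', k02', k12', rfl⟩ := Finset.card_eq_three.1 hU'
  have hne : ∀ x ∈ ({t0, t1, t2} : Finset GolayPt), ∀ y ∈ ({u0, u1, u2} : Finset GolayPt),
      x ≠ y := fun x hx y hy => Finset.disjoint_left.1 hd hx ∘ (fun h => h ▸ hy)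
  have hne' : ∀ x ∈ ({t0', t1', t2'} : Finset GolayPt),
      ∀ y ∈ ({u0', u1', u2'} : Finset GolayPt), x ≠ y :=
    fun x hx y hy => Finset.disjoint_left.1 hd' hx ∘ (fun h => h ▸ hy)
  have ha : Function.Injective ![t0, t1, t2, u0, u1, u2] := by
    rw [← List.nodup_ofFn]
    simp [h01, h02, h12, k01, k02, k12,
      hne t0 (by simp) u0 (by simp), hne t0 (by simp) u1 (by simp), hne t0 (by simp) u2 (by simp),
      hne t1 (by simp) u0 (by simp), hne t1 (by simp) u1 (by simp), hne t1 (by simp) u2 (by simp),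
      hne t2 (by simp) u0 (by simp), hne t2 (by simp) u1 (by simp), hne t2 (by simp) u2 (by simp)]
  have ha' : Function.Injective ![t0', t1', t2', u0', u1', u2'] := by
    rw [← List.nodup_ofFn]
    simp [h01', h02', h12', k01', k02', k12',
      hne' t0' (by simp) u0' (by simp), hne' t0' (by simp) u1' (by simp),
      hne' t0' (by simp) u2' (by simp), hne' t1' (by simp) u0' (by simp),
      hne' t1' (by simp) u1' (by simp), hne' t1' (by simp) u2' (by simp),
      hne' t2' (by simp) u0' (by simp), hne' t2' (by simp) u1' (by simp),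
      hne' t2' (by simp) u2' (by simp)]
  have conv : ∀ (x0 x1 x2 y0 y1 y2 : GolayPt) (o : Finset GolayPt),
      (∀ i, ![x0, x1, x2, y0, y1, y2] i ∈ o) ↔
        ({x0, x1, x2} : Finset GolayPt) ∪ {y0, y1, y2} ⊆ o := by
    intro x0 x1 x2 y0 y1 y2 o
    simp [Fin.forall_fin_succ, Finset.insert_subset_iff]
    tauto
  have hiff' : (∃ o ∈ octads, ∀ i, ![t0, t1, t2, u0, u1, u2] i ∈ o) ↔
      (∃ o ∈ octads, ∀ i, ![t0', t1', t2', u0', u1', u2'] i ∈ o) := by
    constructor
    · rintro ⟨o, ho, h⟩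
      obtain ⟨o', ho', h'⟩ := hiff.1 ⟨o, ho, (conv _ _ _ _ _ _ o).1 h⟩
      exact ⟨o', ho', (conv _ _ _ _ _ _ o').2 h'⟩
    · rintro ⟨o, ho, h⟩
      obtain ⟨o', ho', h'⟩ := hiff.2 ⟨o, ho, (conv _ _ _ _ _ _ o).1 h⟩
      exact ⟨o', ho', (conv _ _ _ _ _ _ o').2 h'⟩
  obtain ⟨g, hg, e⟩ := six_trans_fn _ _ ha ha' hiff'
  refine ⟨g, hg, ?_, ?_⟩
  · rw [smul_triple]
    have e0 := e 0
    have e1 := e 1
    have e2 := e 2
    simp only [Matrix.cons_val_zero, Matrix.cons_val_one] at e0 e1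
    have e2' : g t2 = t2' := e2
    rw [e0, e1, e2']
  · rw [smul_triple]
    have e3 : g u0 = u0' := e 3
    have e4 : g u1 = u1' := e 4
    have e5 : g u2 = u2' := e 5
    rw [e3, e4, e5]

/-- the relation: disjoint triads inside a common octad -/
def triR1 (a c : Finset GolayPt) : Prop :=
  a.card = 3 ∧ c.card = 3 ∧ Disjoint a c ∧ ∃ o ∈ octads, a ∪ c ⊆ o

/-- the relation: disjoint triads not inside a common octad -/
def triR2 (a c : Finset GolayPt) : Prop :=
  a.card = 3 ∧ c.card = 3 ∧ Disjoint a c ∧ ¬ ∃ o ∈ octads, a ∪ c ⊆ o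

theorem triR1_in_octad {T β o : Finset GolayPt} (ho : o ∈ octads) (hT : T.card = 3)
    (hβ : β.card = 3) (hTo : T ⊆ o) (hβo : β ⊆ o) : Relation.ReflTransGen triR1 T β := by
  by_cases hd : Disjoint T β
  · exact Relation.ReflTransGen.single ⟨hT, hβ, hd, o, ho, Finset.union_subset hTo hβo⟩
  · have hu : (T ∪ β).card ≤ 5 := by
      have h1 := Finset.card_union_add_card_inter T β
      have h2 : 0 < (T ∩ β).card := by
        rw [Finset.card_pos]
        rw [Finset.not_disjoint_iff] at hd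
        obtain ⟨x, hx1, hx2⟩ := hd
        exact ⟨x, Finset.mem_inter.2 ⟨hx1, hx2⟩⟩
      omega
    have hsub : T ∪ β ⊆ o := Finset.union_subset hTo hβo
    have hc : 3 ≤ (o \ (T ∪ β)).card := by
      rw [Finset.card_sdiff_of_subset hsub, ho.2]
      omega
    obtain ⟨γ, hγ, hγc⟩ := Finset.exists_subset_card_eq hc
    have hγo : γ ⊆ o := hγ.trans Finset.sdiff_subset
    have hd1 : Disjoint T γ := by
      rw [Finset.disjoint_left]
      intro x hx hx'
      exact (Finset.mem_sdiff.1 (hγ hx')).2 (Finset.mem_union_left _ hx)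
    have hd2 : Disjoint γ β := by
      rw [Finset.disjoint_left]
      intro x hx hx'
      exact (Finset.mem_sdiff.1 (hγ hx)).2 (Finset.mem_union_right _ hx')
    exact Relation.ReflTransGen.head ⟨hT, hγc, hd1, o, ho, Finset.union_subset hTo hγo⟩
      (Relation.ReflTransGen.single ⟨hγc, hβ, hd2, o, ho, Finset.union_subset hγo hβo⟩)

theorem triR1_conn (T β : Finset GolayPt) (hT : T.card = 3) (hβ : β.card = 3) :
    Relation.ReflTransGen triR1 T β := by
  obtain ⟨t0, t1, t2, h01, h02, h12, rfl⟩ := Finset.card_eq_three.1 hT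
  -- a point of β off t0, t1
  have hex : ∃ b ∈ β, b ≠ t0 ∧ b ≠ t1 := by
    by_contra hcon
    push Not at hcon
    have hsub : β ⊆ {t0, t1} := by
      intro b hb
      by_cases hb0 : b = t0
      · simp [hb0]
      · simp [hcon b hb hb0]
    have := Finset.card_le_card hsub
    have h2 : ({t0, t1} : Finset GolayPt).card ≤ 2 := Finset.card_insert_le _ _
    omega
  obtain ⟨b, hb, hb0, hb1⟩ := hex
  have hγ : ({t0, t1, b} : Finset GolayPt).card = 3 :=
    Finset.card_eq_three.2 ⟨t0, t1, b, h01, fun h => hb0 h.symm, fun h => hb1 h.symm, rfl⟩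
  have hX1 : (insert b ({t0, t1, t2} : Finset GolayPt)).card ≤ 5 := by
    have := Finset.card_insert_le b ({t0, t1, t2} : Finset GolayPt)
    omega
  obtain ⟨o1, ho1, hs1⟩ := exists_octad_superset _ hX1
  have hX2 : (insert t0 (insert t1 β)).card ≤ 5 := by
    have h1 := Finset.card_insert_le t0 (insert t1 β)
    have h2 := Finset.card_insert_le t1 β
    omega
  obtain ⟨o2, ho2, hs2⟩ := exists_octad_superset _ hX2
  have p1 : Relation.ReflTransGen triR1 {t0, t1, t2} {t0, t1, b} := by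
    apply triR1_in_octad ho1 hT hγ
    · exact (Finset.subset_insert _ _).trans hs1
    · intro x hx
      apply hs1
      simp only [Finset.mem_insert, Finset.mem_singleton] at hx ⊢
      rcases hx with rfl | rfl | rfl <;> simp
  have p2 : Relation.ReflTransGen triR1 {t0, t1, b} β := by
    apply triR1_in_octad ho2 hγ hβ
    · intro x hx
      apply hs2
      simp only [Finset.mem_insert, Finset.mem_singleton] at hx ⊢
      rcases hx with rfl | rfl | rfl
      · simp
      · simp
      · exact Or.inr (Or.inr hb)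
    · exact (Finset.subset_insert _ _).trans ((Finset.subset_insert _ _).trans hs2)
  exact p1.trans p2

theorem triR2_conn (T β : Finset GolayPt) (hT : T.card = 3) (hβ : β.card = 3) :
    Relation.ReflTransGen triR2 T β := by
  have hu : (T ∪ β).card ≤ 6 := by
    have := Finset.card_union_le T β
    omega
  obtain ⟨δ, hδ, hdis⟩ := exists_disjoint_card (T ∪ β) 2 (by omega)
  rw [Finset.disjoint_union_left] at hdis
  have hX1 : (T ∪ δ).card ≤ 5 := by
    have := Finset.card_union_le T δ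
    omega
  have hX2 : (β ∪ δ).card ≤ 5 := by
    have := Finset.card_union_le β δ
    omega
  obtain ⟨o1, ho1, hs1⟩ := exists_octad_superset _ hX1
  obtain ⟨o2, ho2, hs2⟩ := exists_octad_superset _ hX2
  have hX3 : (o1 ∪ o2).card + 1 ≤ 24 := by
    have := Finset.card_union_le o1 o2
    have h1 := ho1.2
    have h2 := ho2.2
    omega
  obtain ⟨ε, hε, hdis3⟩ := exists_disjoint_card (o1 ∪ o2) 1 hX3
  obtain ⟨u, rfl⟩ := Finset.card_eq_one.1 hε
  rw [Finset.disjoint_singleton_right, Finset.mem_union] at hdis3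
  push Not at hdis3
  have huδ : u ∉ δ := fun h => hdis3.1 (hs1 (Finset.mem_union_right _ h))
  have huT : u ∉ T := fun h => hdis3.1 (hs1 (Finset.mem_union_left _ h))
  have huβ : u ∉ β := fun h => hdis3.2 (hs2 (Finset.mem_union_left _ h))
  have hγc : (insert u δ).card = 3 := by
    rw [Finset.card_insert_of_notMem huδ, hδ]
  have hd1 : Disjoint T (insert u δ) := by
    rw [Finset.disjoint_insert_right]
    exact ⟨huT, hdis.1⟩
  have hd2 : Disjoint (insert u δ) β := by
    rw [Finset.disjoint_insert_left]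
    exact ⟨huβ, hdis.2.symm⟩
  have key : ∀ (S o1 : Finset GolayPt), S.card = 3 → Disjoint S δ → o1 ∈ octads → S ∪ δ ⊆ o1 →
      u ∉ o1 → ¬ ∃ o ∈ octads, S ∪ insert u δ ⊆ o := by
    intro S o1 hS hSδ ho1 hs1 hu1
    rintro ⟨o, ho, hsub⟩
    have h5 : 5 ≤ (o ∩ o1).card := by
      have hsub' : S ∪ δ ⊆ o ∩ o1 := by
        apply Finset.subset_inter _ hs1
        refine (Finset.union_subset_union_right ?_).trans hsub
        exact Finset.subset_insert _ _
      have := Finset.card_le_card hsub'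
      rw [Finset.card_union_of_disjoint hSδ, hS, hδ] at this
      exact this
    have heq := octad_eq_of_five ho ho1 h5
    apply hu1
    rw [← heq]
    exact hsub (Finset.mem_union_right _ (Finset.mem_insert_self _ _))
  refine Relation.ReflTransGen.head (b := insert u δ) ⟨hT, hγc, hd1, ?_⟩
    (Relation.ReflTransGen.single ⟨hγc, hβ, hd2, ?_⟩)
  · exact key T o1 hT hdis.1 ho1 hs1 hdis3.1
  · have := key β o2 hβ hdis.2 ho2 hs2 hdis3.2
    rw [Finset.union_comm]
    exact this

theorem inter_card_one {A γ : Finset GolayPt} {p : GolayPt} (hpA : p ∈ A) (hpγ : p ∈ γ)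
    (h : ∀ x ∈ γ, x ≠ p → x ∉ A) : (A ∩ γ).card = 1 := by
  rw [Finset.card_eq_one]
  refine ⟨p, ?_⟩
  ext x
  rw [Finset.mem_inter, Finset.mem_singleton]
  constructor
  · rintro ⟨hx1, hx2⟩
    by_contra hne
    exact h x hx2 hne hx1
  · rintro rfl
    exact ⟨hpA, hpγ⟩

theorem tri1_conn (T β : Finset GolayPt) (hT : T.card = 3) (hβ : β.card = 3) :
    Relation.ReflTransGen
      (fun a c : Finset GolayPt => a.card = 3 ∧ c.card = 3 ∧ (a ∩ c).card = 1) T β := by
  have hTne : T.Nonempty := by rw [← Finset.card_pos]; omega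
  obtain ⟨p, hp⟩ := hTne
  have hu : (T ∪ β).card ≤ 6 := by
    have := Finset.card_union_le T β
    omega
  by_cases hpβ : p ∈ β
  · obtain ⟨δ, hδ, hdis⟩ := exists_disjoint_card (T ∪ β) 2 (by omega)
    rw [Finset.disjoint_union_left] at hdis
    have hpδ : p ∉ δ := fun h => Finset.disjoint_left.1 hdis.1 hp h
    have hγ : (insert p δ).card = 3 := by rw [Finset.card_insert_of_notMem hpδ, hδ]
    refine Relation.ReflTransGen.head (b := insert p δ) ⟨hT, hγ, ?_⟩
      (Relation.ReflTransGen.single ⟨hγ, hβ, ?_⟩)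
    · apply inter_card_one hp (Finset.mem_insert_self _ _)
      intro x hx hne hxT
      rcases Finset.mem_insert.1 hx with h | h
      · exact hne h
      · exact Finset.disjoint_left.1 hdis.1 hxT h
    · rw [Finset.inter_comm]
      apply inter_card_one hpβ (Finset.mem_insert_self _ _)
      intro x hx hne hxβ
      rcases Finset.mem_insert.1 hx with h | h
      · exact hne h
      · exact Finset.disjoint_left.1 hdis.2 hxβ h
  · have hex : ∃ q ∈ β, q ∉ T := by
      by_contra hcon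
      push Not at hcon
      have hsub : β ⊆ T := hcon
      have : β = T := Finset.eq_of_subset_of_card_le hsub (by omega)
      exact hpβ (this ▸ hp)
    obtain ⟨q, hq, hqT⟩ := hex
    obtain ⟨ε, hε, hdis⟩ := exists_disjoint_card (T ∪ β) 1 (by omega)
    obtain ⟨u, rfl⟩ := Finset.card_eq_one.1 hε
    rw [Finset.disjoint_singleton_right, Finset.mem_union] at hdis
    push Not at hdis
    have hpq : p ≠ q := fun h => hqT (h ▸ hp)
    have hpu : p ≠ u := fun h => hdis.1 (h ▸ hp)
    have hqu : q ≠ u := fun h => hdis.2 (h ▸ hq)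
    have hγ : ({p, q, u} : Finset GolayPt).card = 3 :=
      Finset.card_eq_three.2 ⟨p, q, u, hpq, hpu, hqu, rfl⟩
    refine Relation.ReflTransGen.head (b := {p, q, u}) ⟨hT, hγ, ?_⟩
      (Relation.ReflTransGen.single ⟨hγ, hβ, ?_⟩)
    · apply inter_card_one hp (by simp)
      intro x hx hne hxT
      simp only [Finset.mem_insert, Finset.mem_singleton] at hx
      rcases hx with h | h | h
      · exact hne h
      · exact hqT (h ▸ hxT)
      · exact hdis.1 (h ▸ hxT)
    · rw [Finset.inter_comm]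
      apply inter_card_one hq (by simp)
      intro x hx hne hxβ
      simp only [Finset.mem_insert, Finset.mem_singleton] at hx
      rcases hx with h | h | h
      · exact hpβ (h ▸ hxβ)
      · exact hne h
      · exact hdis.2 (h ▸ hxβ)

end Cfsg.Agent.Lib.Helper12
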