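import Mathlib
import Cfsg.Prelude.Def_OddOrderLocal
import Cfsg.Agent.Lib.Helper12.MetaCop
import Cfsg.Agent.Lib.Helper12.CN
import Cfsg.Agent.Lib.Helper22.Metacyclic

/-!
Helper lemmas (helper12): a metacyclic `p`-subgroup `S` (`p` odd) with `S = [S, B]` for a
`p'`-subgroup `B` normalising it is abelian.
-/

set_option autoImplicit false

namespace Cfsg.Agent.Lib.Helper12.MetaCop

open scoped commutatorElement

/-- in `⟨a⟩⟨b⟩` with `⟨a⟩` normalised by `b`, all commutators are powers of `⁅b, a⁆` -/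
theorem comm_mem_zpowers {S : Type*} [Group S] [Finite S] (a b : S)
    (hab : b * a * b⁻¹ ∈ Subgroup.zpowers a)
    (hdec : ∀ s : S, ∃ i j : ℤ, s = a ^ i * b ^ j) (x y : S) :
    ⁅x, y⁆ ∈ Subgroup.zpowers ⁅b, a⁆ := by
  obtain ⟨r, hr⟩ := (Submonoid.mem_powers_iff _ _).mp (mem_powers_iff_mem_zpowers.mpr hab)
  have hnb : b ∈ Subgroup.normalizer (Subgroup.zpowers a : Set S) := by
    apply Cfsg.Agent.Lib.Helper12.mem_normalizer_of_conj
    intro z hz
    obtain ⟨u, rfl⟩ := Subgroup.mem_zpowers_iff.mp hz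
    rw [← conj_zpow, ← hr]
    exact Subgroup.zpow_mem _ (Subgroup.pow_mem _ (Subgroup.mem_zpowers a) r) u
  have hna : a ∈ Subgroup.normalizer (Subgroup.zpowers a : Set S) :=
    Subgroup.le_normalizer (Subgroup.mem_zpowers a)
  have hN : (Subgroup.zpowers a).Normal := by
    refine ⟨fun n hn g => ?_⟩
    obtain ⟨i, j, rfl⟩ := hdec g
    have hg : a ^ i * b ^ j ∈ Subgroup.normalizer (Subgroup.zpowers a : Set S) :=
      Subgroup.mul_mem _ (Subgroup.zpow_mem _ hna i) (Subgroup.zpow_mem _ hnb j)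
    exact (Subgroup.mem_normalizer_iff.mp hg n).mp hn
  have h : Cfsg.Agent.Lib.Helper22.MCData a b r := ⟨hr.symm, hN, hdec⟩
  have h1 := h.commutator_eq
  have h2 : ⁅x, y⁆ ∈ commutator S := by
    rw [commutator_def]
    exact Subgroup.commutator_mem_commutator (Subgroup.mem_top x) (Subgroup.mem_top y)
  rw [h1] at h2
  rwa [commutatorElement_def]

section Amb

variable {G : Type*} [Group G] [Finite G]

/-- `S = ⟨a⟩⟨b⟩` with `⟨a⟩` normalised by `b` -/
def IsMC (S : Subgroup G) : Prop :=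
  ∃ a ∈ S, ∃ b ∈ S, b * a * b⁻¹ ∈ Subgroup.zpowers a ∧ ∀ s ∈ S, ∃ i j : ℤ, s = a ^ i * b ^ j

/-- subgroups of a metacyclic subgroup -/
theorem isMC_of_le {R D : Subgroup G} (hRm : Cfsg.IsMetacyclic R) (hDR : D ≤ R) : IsMC D := by
  obtain ⟨a, b, r, h⟩ := Cfsg.Agent.Lib.Helper22.exists_mcdata hRm
  obtain ⟨m, k, t, _, _, _, ham, hbk, _, _, hgen⟩ := h.sub (D.subgroupOf R)
  refine ⟨((a ^ m : R) : G), Subgroup.mem_subgroupOf.mp ham, ((a ^ t * b ^ k : R) : G),
    Subgroup.mem_subgroupOf.mp hbk, ?_, ?_⟩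
  · have hn := h.zpowers_zpow_normal (m : ℤ)
    have h1 := hn.conj_mem (a ^ (m:ℤ)) (Subgroup.mem_zpowers _) (a ^ t * b ^ k)
    obtain ⟨e, he⟩ := Subgroup.mem_zpowers_iff.mp h1
    refine Subgroup.mem_zpowers_iff.mpr ⟨e, ?_⟩
    have := congrArg Subtype.val he
    rw [zpow_natCast] at this
    simpa using this
  · intro s hs
    obtain ⟨u, w, huw⟩ := hgen ⟨s, hDR hs⟩ (Subgroup.mem_subgroupOf.mpr hs)
    exact ⟨u, w, by simpa using congrArg Subtype.val huw⟩

/-- the normal case -/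
theorem key_normal (p : ℕ) [hpf : Fact p.Prime] (hp2 : p ≠ 2) (S B : Subgroup G) [hSn : S.Normal]
    (hS : IsPGroup p S) (hM : IsMC S) (hcop : (Nat.card B).Coprime p) (hSB : ⁅S, B⁆ = S) :
    ∀ x ∈ S, ∀ y ∈ S, x * y = y * x := by
  classical
  have hp : p.Prime := hpf.out
  obtain ⟨a, ha, b, hb, hab, hdec⟩ := hM
  obtain ⟨c, hc⟩ : ∃ c : G, c = ⁅b, a⁆ := ⟨_, rfl⟩
  have hi : ∀ x ∈ S, ∀ y ∈ S, ∃ e : ℤ, ⁅x, y⁆ = c ^ e := by
    intro x hx y hy
    have h1 := comm_mem_zpowers (S := ↥S) ⟨a, ha⟩ ⟨b, hb⟩ (by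
        obtain ⟨t, ht⟩ := Subgroup.mem_zpowers_iff.mp hab
        exact Subgroup.mem_zpowers_iff.mpr ⟨t, Subtype.ext (by simpa using ht)⟩)
      (by
        intro s
        obtain ⟨i, j, hij⟩ := hdec s s.2
        exact ⟨i, j, Subtype.ext (by simpa using hij)⟩) ⟨x, hx⟩ ⟨y, hy⟩
    obtain ⟨e, he⟩ := Subgroup.mem_zpowers_iff.mp h1
    refine ⟨e, ?_⟩
    have := congrArg Subtype.val he
    rw [hc]
    simpa [commutatorElement_def] using this.symm
  have hcS : c ∈ S := by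
    rw [hc, commutatorElement_def]
    exact S.mul_mem (S.mul_mem (S.mul_mem hb ha) (S.inv_mem hb)) (S.inv_mem ha)
  obtain ⟨l, hl⟩ : ∃ l : ℕ, orderOf c = p ^ l := by
    obtain ⟨l, hl⟩ := (IsPGroup.iff_orderOf.mp hS) ⟨c, hcS⟩
    exact ⟨l, by rw [← hl, Subgroup.orderOf_mk]⟩
  have hconj : ∀ g : G, ∃ e : ℤ, g * c * g⁻¹ = c ^ e := by
    intro g
    have h1 : g * c * g⁻¹ = ⁅g * b * g⁻¹, g * a * g⁻¹⁆ := by
      rw [hc]; simp only [commutatorElement_def]; group
    rw [h1]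
    exact hi _ (hSn.conj_mem b hb g) _ (hSn.conj_mem a ha g)
  let K : Subgroup G := Subgroup.zpowers (c ^ p)
  have hKn : K.Normal := by
    refine ⟨fun n hn g => ?_⟩
    obtain ⟨u, rfl⟩ := Subgroup.mem_zpowers_iff.mp hn
    obtain ⟨e, he⟩ := hconj g
    rw [← conj_zpow, ← conj_pow, he]
    refine Subgroup.mem_zpowers_iff.mpr ⟨e * u, ?_⟩
    have hpe : (c ^ e) ^ p = (c ^ p) ^ e := by
      rw [← zpow_natCast (c ^ e), ← zpow_mul, mul_comm, zpow_mul, zpow_natCast]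
    rw [hpe, ← zpow_mul]
  have hii : ∀ w ∈ S, ⁅c, w⁆ ∈ K := by
    intro w hw
    by_cases hc1 : c = 1
    · rw [hc1]; simp
    obtain ⟨t, ht⟩ := hconj w
    have hpow : ∀ n : ℕ, w ^ n * c * (w ^ n)⁻¹ = c ^ (t ^ n) := by
      intro n
      induction n with
      | zero => simp
      | succ n ih =>
        have : w ^ (n + 1) * c * (w ^ (n + 1))⁻¹ = w * (w ^ n * c * (w ^ n)⁻¹) * w⁻¹ := by
          rw [pow_succ']; group
        rw [this, ih, ← conj_zpow, ht, ← zpow_mul]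
        congr 1; ring
    obtain ⟨m, hm⟩ := hS ⟨w, hw⟩
    have hm' : w ^ (p ^ m) = 1 := by simpa using congrArg Subtype.val hm
    have h1 := hpow (p ^ m)
    rw [hm'] at h1
    simp only [one_mul, inv_one, mul_one] at h1
    have h2 : c ^ (t ^ (p ^ m) - 1) = 1 := by rw [zpow_sub_one, ← h1, mul_inv_cancel]
    rw [← orderOf_dvd_iff_zpow_eq_one] at h2
    have hl0 : l ≠ 0 := by
      intro h0; rw [h0, pow_zero, orderOf_eq_one_iff] at hl; exact hc1 hl
    have h3 : (p : ℤ) ∣ t ^ (p ^ m) - 1 := by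
      refine dvd_trans ?_ h2
      rw [hl]; exact_mod_cast dvd_pow_self p hl0
    have h4 : (p : ℤ) ∣ t - 1 := by
      rw [← ZMod.intCast_zmod_eq_zero_iff_dvd] at h3 ⊢
      push_cast at h3 ⊢
      rwa [ZMod.pow_card_pow] at h3
    obtain ⟨t', ht'⟩ := h4
    have h5 : ⁅c, w⁆ = c ^ (1 - t) := by
      have : ⁅c, w⁆ = c * (w * c * w⁻¹)⁻¹ := by simp only [commutatorElement_def]; group
      rw [this, ht, zpow_sub, zpow_one]
    rw [h5]
    refine Subgroup.mem_zpowers_iff.mpr ⟨-t', ?_⟩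
    rw [← zpow_natCast c p, ← zpow_mul]; congr 1; linarith
  let π : G →* G ⧸ K := QuotientGroup.mk' K
  have hπ : Function.Surjective π := QuotientGroup.mk'_surjective K
  have hπ1 : ∀ g : G, π g = 1 ↔ g ∈ K := fun g => QuotientGroup.eq_one_iff g
  let S' : Subgroup (G ⧸ K) := S.map π
  let B' : Subgroup (G ⧸ K) := B.map π
  have hS'n : S'.Normal := hSn.map π hπ
  have hS'p : IsPGroup p S' := hS.map π
  have hB'cop : (Nat.card B').Coprime p :=
    Nat.Coprime.coprime_dvd_left (Subgroup.card_map_dvd B π) hcop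
  let ψ : B' →* MulAut S' := (MulAut.conjNormal (H := S')).comp B'.subtype
  have hψ : ∀ (β : B') (u : S'), ((ψ β u : S') : G ⧸ K) = β * u * (β : G ⧸ K)⁻¹ :=
    fun β u => rfl
  have hgen : ∀ L : Subgroup S', (∀ (β : B') (u : S'), ψ β u * u⁻¹ ∈ L) → L = ⊤ := by
    intro L hL
    have h1 : ⁅S', B'⁆ ≤ L.map S'.subtype := by
      rw [Subgroup.commutator_le]
      intro u hu β hβ
      refine ⟨(ψ ⟨β, hβ⟩ ⟨u, hu⟩ * (⟨u, hu⟩ : S')⁻¹)⁻¹, L.inv_mem (hL _ _), ?_⟩
      simp only [Subgroup.coe_subtype, Subgroup.coe_inv, Subgroup.coe_mul, hψ,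
        commutatorElement_def]
      group
    have h2 : ⁅S', B'⁆ = S' := by
      rw [← Subgroup.map_commutator, hSB]
    rw [h2] at h1
    rw [eq_top_iff]
    intro x _
    obtain ⟨l, hl, hlx⟩ := h1 x.2
    have : l = x := Subtype.ext hlx
    rwa [← this]
  have hlift : ∀ x : S', ∃ x₀ ∈ S, π x₀ = (x : G ⧸ K) := fun x => x.2
  have hcom := key2 p hp2 hS'p ψ hB'cop hgen ⟨π a, Subgroup.mem_map_of_mem π ha⟩
    ⟨π b, Subgroup.mem_map_of_mem π hb⟩
    (by
      obtain ⟨t, ht⟩ := Subgroup.mem_zpowers_iff.mp hab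
      refine Subgroup.mem_zpowers_iff.mpr ⟨t, Subtype.ext ?_⟩
      simp only [Subgroup.coe_zpow, Subgroup.coe_mul, Subgroup.coe_inv]
      rw [← map_zpow, ht, map_mul, map_mul, map_inv])
    (by
      intro s
      obtain ⟨s₀, hs₀, hs⟩ := hlift s
      obtain ⟨i, j, hij⟩ := hdec s₀ hs₀
      refine ⟨i, j, Subtype.ext ?_⟩
      simp only [Subgroup.coe_zpow, Subgroup.coe_mul]
      rw [← hs, hij, map_mul, map_zpow, map_zpow])
    (by
      intro x y w
      obtain ⟨x₀, hx₀, hx⟩ := hlift x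
      obtain ⟨y₀, hy₀, hy⟩ := hlift y
      obtain ⟨w₀, hw₀, hw⟩ := hlift w
      obtain ⟨e, he⟩ := hi x₀ hx₀ y₀ hy₀
      apply Subtype.ext
      simp only [commutatorElement_def, Subgroup.coe_mul, Subgroup.coe_inv]
      rw [← hx, ← hy, ← hw, ← commutatorElement_def, ← map_commutatorElement, he, map_zpow]
      have h1 : π c * π w₀ = π w₀ * π c := by
        have h2 := (hπ1 _).mpr (hii w₀ hw₀)
        rw [map_commutatorElement] at h2
        exact commutatorElement_eq_one_iff_mul_comm.mp h2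
      exact ((Commute.zpow_left h1 e)).eq)
    (by
      intro x y
      obtain ⟨x₀, hx₀, hx⟩ := hlift x
      obtain ⟨y₀, hy₀, hy⟩ := hlift y
      obtain ⟨e, he⟩ := hi x₀ hx₀ y₀ hy₀
      apply Subtype.ext
      simp only [commutatorElement_def, Subgroup.coe_pow, Subgroup.coe_mul, Subgroup.coe_inv,
        Subgroup.coe_one]
      rw [← hx, ← hy, ← commutatorElement_def, ← map_commutatorElement, he, ← map_pow, hπ1]
      refine Subgroup.mem_zpowers_iff.mpr ⟨e, ?_⟩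
      rw [← zpow_natCast (c ^ e), ← zpow_mul, mul_comm, zpow_mul, zpow_natCast])
  have hc1 : c = 1 := by
    have h1 : π c = 1 := by
      have h2 := hcom ⟨π b, Subgroup.mem_map_of_mem π hb⟩ ⟨π a, Subgroup.mem_map_of_mem π ha⟩
      have h3 := congrArg Subtype.val h2
      simp only [Subgroup.coe_mul] at h3
      rw [hc, map_commutatorElement]
      exact commutatorElement_eq_one_iff_mul_comm.mpr h3
    rw [hπ1] at h1
    obtain ⟨u, hu⟩ := Subgroup.mem_zpowers_iff.mp h1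
    have h2 : c ^ ((p : ℤ) * u - 1) = 1 := by
      rw [zpow_sub_one, zpow_mul, zpow_natCast, hu, mul_inv_cancel]
    rw [← orderOf_dvd_iff_zpow_eq_one, hl] at h2
    by_contra hne
    have hl0 : l ≠ 0 := by
      intro h0; rw [h0, pow_zero, orderOf_eq_one_iff] at hl; exact hne hl
    have h3 : (p : ℤ) ∣ (p : ℤ) * u - 1 := by
      refine dvd_trans ?_ h2
      exact_mod_cast dvd_pow_self p hl0
    have h4 : (p : ℤ) ∣ 1 := by
      have := dvd_sub (dvd_mul_right (p : ℤ) u) h3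
      simpa using this
    have h5 : p ∣ 1 := by exact_mod_cast h4
    exact hp.one_lt.ne' (Nat.dvd_one.mp h5)
  intro x hx y hy
  obtain ⟨e, he⟩ := hi x hx y hy
  rw [hc1, one_zpow] at he
  exact commutatorElement_eq_one_iff_mul_comm.mp he

/-- the general case -/
theorem key_gen (p : ℕ) [hpf : Fact p.Prime] (hp2 : p ≠ 2) (S B : Subgroup G)
    (hS : IsPGroup p S) (hM : IsMC S) (hB : B ≤ Subgroup.normalizer (S : Set G))
    (hcop : (Nat.card B).Coprime p) (hSB : ⁅S, B⁆ = S) :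
    ∀ x ∈ S, ∀ y ∈ S, x * y = y * x := by
  obtain ⟨N, hN⟩ : ∃ N : Subgroup G, N = Subgroup.normalizer (S : Set G) := ⟨_, rfl⟩
  have hSN : S ≤ N := by rw [hN]; exact Subgroup.le_normalizer
  have hBN : B ≤ N := by rw [hN]; exact hB
  have hn : (S.subgroupOf N).Normal := by rw [hN]; exact Subgroup.normal_in_normalizer
  have hS₁ : IsPGroup p (S.subgroupOf N) := hS.comap_subtype
  have hM₁ : IsMC (S.subgroupOf N) := by
    obtain ⟨a, ha, b, hb, hab, hdec⟩ := hM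
    refine ⟨⟨a, hSN ha⟩, Subgroup.mem_subgroupOf.mpr ha, ⟨b, hSN hb⟩,
      Subgroup.mem_subgroupOf.mpr hb, ?_, ?_⟩
    · obtain ⟨t, ht⟩ := Subgroup.mem_zpowers_iff.mp hab
      exact Subgroup.mem_zpowers_iff.mpr ⟨t, Subtype.ext (by simpa using ht)⟩
    · intro s hs
      obtain ⟨i, j, hij⟩ := hdec s (Subgroup.mem_subgroupOf.mp hs)
      exact ⟨i, j, Subtype.ext (by simpa using hij)⟩
  have hcop₁ : (Nat.card (B.subgroupOf N)).Coprime p := by
    rw [Nat.card_congr (Subgroup.subgroupOfEquivOfLe hBN).toEquiv]; exact hcop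
  have hSB₁ : ⁅S.subgroupOf N, B.subgroupOf N⁆ = S.subgroupOf N := by
    apply Subgroup.map_injective N.subtype_injective
    rw [Subgroup.map_commutator, Subgroup.map_subgroupOf_eq_of_le hSN,
      Subgroup.map_subgroupOf_eq_of_le hBN, hSB]
  have key := key_normal p hp2 (S.subgroupOf N) (B.subgroupOf N) hS₁ hM₁ hcop₁ hSB₁
  intro x hx y hy
  have := key ⟨x, hSN hx⟩ (Subgroup.mem_subgroupOf.mpr hx) ⟨y, hSN hy⟩
    (Subgroup.mem_subgroupOf.mpr hy)
  simpa using congrArg Subtype.val this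

end Amb

end Cfsg.Agent.Lib.Helper12.MetaCop
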