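import Mathlib

set_option autoImplicit false

namespace Cfsg.Agent.Lib.Helper12.NormCubic

open Polynomial

section General

variable {k : Type*} [Field k]

/-- the norm of `c - root` in `AdjoinRoot f` is `f(c)` -/
theorem norm_sub_root (f : k[X]) (hf : f.Monic) [Fact (Irreducible f)] (c : k) :
    Algebra.norm k (algebraMap k (AdjoinRoot f) c - AdjoinRoot.root f) = f.eval c := by
  classical
  have hf0 : f ≠ 0 := hf.ne_zero
  obtain ⟨pb, hpb⟩ : ∃ pb : PowerBasis k (AdjoinRoot f), pb = AdjoinRoot.powerBasis hf0 :=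
    ⟨_, rfl⟩
  have hgen : pb.gen = AdjoinRoot.root f := by rw [hpb, AdjoinRoot.powerBasis_gen]
  have hmin : minpoly k pb.gen = f := by
    rw [hgen, AdjoinRoot.minpoly_root hf0, hf.leadingCoeff, inv_one, C_1, mul_one]
  have h1 : f.eval c = (Matrix.scalar _ c - Algebra.leftMulMatrix pb.basis pb.gen).det := by
    rw [← Matrix.eval_charpoly, charpoly_leftMulMatrix, hmin]
  rw [Algebra.norm_eq_matrix_det pb.basis, h1, ← hgen, map_sub, AlgHom.commutes]
  rfl

end General

section Main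

variable (p : ℕ) [Fact p.Prime]

theorem exists_param :
    ∃ s : ZMod p, ∀ x : ZMod p, x ^ 3 - s * x ^ 2 + (2 * s - 3) * x - 1 ≠ 0 := by
  classical
  obtain ⟨φ, hφ⟩ : ∃ φ : ZMod p → ZMod p,
      φ = fun x => (x ^ 3 - 3 * x - 1) * (x ^ 2 - 2 * x)⁻¹ := ⟨_, rfl⟩
  have hcard : ((Finset.univ.erase (0 : ZMod p)).image φ).card < Fintype.card (ZMod p) := by
    calc ((Finset.univ.erase (0 : ZMod p)).image φ).card
        ≤ (Finset.univ.erase (0 : ZMod p)).card := Finset.card_image_le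
      _ = Fintype.card (ZMod p) - 1 := by
        rw [Finset.card_erase_of_mem (Finset.mem_univ _), Finset.card_univ]
      _ < Fintype.card (ZMod p) := by
        have := Fintype.card_pos (α := ZMod p)
        omega
  obtain ⟨s, hs⟩ : ∃ s, s ∉ (Finset.univ.erase (0 : ZMod p)).image φ := by
    by_contra hcon
    push Not at hcon
    have h1 : (Finset.univ.erase (0 : ZMod p)).image φ = Finset.univ :=
      Finset.eq_univ_of_forall hcon
    rw [h1, Finset.card_univ] at hcard
    exact lt_irrefl _ hcard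
  refine ⟨s, fun x hx => ?_⟩
  by_cases h0 : x = 0
  · subst h0
    have h1 : (0 : ZMod p) ^ 3 - s * 0 ^ 2 + (2 * s - 3) * 0 - 1 = -1 := by ring
    rw [h1] at hx
    exact one_ne_zero (neg_eq_zero.mp hx)
  by_cases h2 : x = 2
  · subst h2
    have h1 : (2 : ZMod p) ^ 3 - s * 2 ^ 2 + (2 * s - 3) * 2 - 1 = 1 := by ring
    rw [h1] at hx
    exact one_ne_zero hx
  apply hs
  rw [Finset.mem_image]
  refine ⟨x, Finset.mem_erase.mpr ⟨h0, Finset.mem_univ _⟩, ?_⟩
  have hd : x ^ 2 - 2 * x ≠ 0 := by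
    have h1 : x ^ 2 - 2 * x = x * (x - 2) := by ring
    rw [h1]
    exact mul_ne_zero h0 (sub_ne_zero.mpr h2)
  rw [hφ]
  show (x ^ 3 - 3 * x - 1) * (x ^ 2 - 2 * x)⁻¹ = s
  rw [mul_inv_eq_iff_eq_mul₀ hd]
  linear_combination hx

theorem exists_elt : ∃ a : GaloisField p 3, a ≠ 1 ∧ Algebra.norm (ZMod p) a = 1 ∧
    Algebra.norm (ZMod p) (2 - a) = 1 := by
  obtain ⟨s, hs⟩ := exists_param p
  obtain ⟨f, hfdef⟩ : ∃ f : (ZMod p)[X],
      f = C 1 * X ^ 3 + C (-s) * X ^ 2 + C (2 * s - 3) * X + C (-1) := ⟨_, rfl⟩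
  have hdeg : f.natDegree = 3 := by
    rw [hfdef]
    exact natDegree_cubic one_ne_zero
  have hmon : f.Monic := by
    rw [Monic, hfdef, leadingCoeff_cubic one_ne_zero]
  have hev : ∀ x : ZMod p, f.eval x = x ^ 3 - s * x ^ 2 + (2 * s - 3) * x - 1 := by
    intro x
    rw [hfdef]
    simp
    ring
  have hirr : Irreducible f := by
    rw [hmon.irreducible_iff_roots_eq_zero_of_degree_le_three (by omega) (by omega)]
    rw [Multiset.eq_zero_iff_forall_notMem]
    intro x hx
    rw [mem_roots hmon.ne_zero, IsRoot.def, hev] at hx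
    exact hs x hx
  have : Fact (Irreducible f) := ⟨hirr⟩
  have hfin : Module.Finite (ZMod p) (AdjoinRoot f) :=
    (AdjoinRoot.powerBasis hmon.ne_zero).finite
  have hcard : Nat.card (AdjoinRoot f) = p ^ 3 := by
    rw [Module.natCard_eq_pow_finrank (K := ZMod p),
      (AdjoinRoot.powerBasis hmon.ne_zero).finrank, AdjoinRoot.powerBasis_dim, hdeg,
      Nat.card_zmod]
  obtain ⟨e⟩ : Nonempty (AdjoinRoot f ≃ₐ[ZMod p] GaloisField p 3) :=
    ⟨GaloisField.algEquivGaloisField p 3 hcard⟩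
  have hrk : Module.finrank (ZMod p) (AdjoinRoot f) = 3 := by
    rw [(AdjoinRoot.powerBasis hmon.ne_zero).finrank, AdjoinRoot.powerBasis_dim, hdeg]
  have hN2 : Algebra.norm (ZMod p) ((2 : AdjoinRoot f) - AdjoinRoot.root f) = 1 := by
    have h := norm_sub_root f hmon 2
    rw [hev] at h
    have h1 : (2 : ZMod p) ^ 3 - s * 2 ^ 2 + (2 * s - 3) * 2 - 1 = 1 := by ring
    rw [h1, map_ofNat] at h
    exact h
  have hN0 : Algebra.norm (ZMod p) (AdjoinRoot.root f) = 1 := by
    have h := norm_sub_root f hmon 0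
    rw [hev] at h
    have h1 : (0 : ZMod p) ^ 3 - s * 0 ^ 2 + (2 * s - 3) * 0 - 1 = -1 := by ring
    rw [h1, map_zero, zero_sub] at h
    have h2 : -(AdjoinRoot.root f) = algebraMap (ZMod p) (AdjoinRoot f) (-1) * AdjoinRoot.root f := by
      rw [map_neg, map_one]
      ring
    rw [h2, map_mul, Algebra.norm_algebraMap, hrk] at h
    have h3 : ((-1 : ZMod p)) ^ 3 = -1 := by ring
    rw [h3] at h
    have h4 : -1 * Algebra.norm (ZMod p) (AdjoinRoot.root f) = -Algebra.norm (ZMod p) (AdjoinRoot.root f) := by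
      ring
    rw [h4] at h
    exact neg_injective h
  have hne : AdjoinRoot.root f ≠ 1 := by
    intro h1
    have h := norm_sub_root f hmon 1
    rw [map_one, h1, sub_self, Algebra.norm_zero] at h
    exact hs 1 (by rw [← hev]; exact h.symm)
  refine ⟨e (AdjoinRoot.root f), ?_, ?_, ?_⟩
  · intro h1
    apply hne
    apply e.injective
    rw [h1, map_one]
  · rw [Algebra.norm_eq_of_algEquiv]
    exact hN0
  · have h1 : (2 : GaloisField p 3) - e (AdjoinRoot.root f) = e (2 - AdjoinRoot.root f) := by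
      rw [map_sub, map_ofNat]
    rw [h1, Algebra.norm_eq_of_algEquiv]
    exact hN2

end Main

end Cfsg.Agent.Lib.Helper12.NormCubic
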