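import Mathlib

set_option autoImplicit false

namespace Cfsg.Agent.Lib.Helper12.NormJac

open Finset

section Jac

variable {F : Type*} [Field F] [Fintype F]

/-- values of a complex character have norm at most one -/
theorem mulChar_norm_le_one (χ : MulChar F ℂ) (a : F) : ‖χ a‖ ≤ 1 := by
  by_cases ha : a = 0
  · subst ha
    rw [MulChar.map_zero]
    simp
  · have h : χ a ^ (Fintype.card F - 1) = 1 := by
      rw [← map_pow, FiniteField.pow_card_sub_one_eq_one a ha, map_one]
    have hn : Fintype.card F - 1 ≠ 0 := by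
      have := Fintype.one_lt_card (α := F)
      omega
    exact (Complex.norm_eq_one_of_pow_eq_one h hn).le

theorem jacobiSum_inv_inv (χ φ : MulChar F ℂ) :
    jacobiSum χ⁻¹ φ⁻¹ = star (jacobiSum χ φ) := by
  unfold jacobiSum
  rw [star_sum]
  refine Finset.sum_congr rfl fun x _ => ?_
  rw [star_mul', MulChar.star_apply', MulChar.star_apply']

theorem jacobiSum_norm_le (χ φ : MulChar F ℂ) (h : χ ≠ 1 ∨ φ ≠ 1) :
    ‖jacobiSum χ φ‖ ≤ Real.sqrt (Fintype.card F) := by
  have hcard : (1 : ℝ) ≤ Real.sqrt (Fintype.card F) := by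
    rw [Real.one_le_sqrt]
    exact_mod_cast Fintype.card_pos
  by_cases hχ : χ = 1
  · subst hχ
    have hφ : φ ≠ 1 := by tauto
    rw [jacobiSum_one_nontrivial hφ]
    simpa using hcard
  by_cases hφ : φ = 1
  · subst hφ
    rw [jacobiSum_comm, jacobiSum_one_nontrivial hχ]
    simpa using hcard
  by_cases hχφ : χ * φ = 1
  · have e : φ = χ⁻¹ := by
      rw [eq_inv_iff_mul_eq_one, mul_comm]
      exact hχφ
    subst e
    rw [jacobiSum_nontrivial_inv hχ, norm_neg]
    exact (mulChar_norm_le_one χ (-1)).trans hcard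
  · have hchar : ringChar ℂ ≠ ringChar F := by
      rw [ringChar.eq_zero]
      exact (CharP.ringChar_ne_zero_of_finite F).symm
    have h1 := jacobiSum_mul_jacobiSum_inv hchar hχ hφ hχφ
    rw [jacobiSum_inv_inv] at h1
    have h2 : ‖jacobiSum χ φ‖ ^ 2 = (Fintype.card F : ℝ) := by
      have h3 := Complex.mul_conj (jacobiSum χ φ)
      have h4 : ((Complex.normSq (jacobiSum χ φ) : ℝ) : ℂ) = ((Fintype.card F : ℝ) : ℂ) := by
        rw [← h3]
        simpa using h1
      have h5 := Complex.ofReal_injective h4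
      rw [← h5, Complex.normSq_eq_norm_sq]
    rw [← h2, Real.sqrt_sq (norm_nonneg _)]

theorem sum_twist (χ φ : MulChar F ℂ) (h2 : (2 : F) ≠ 0) :
    ∑ a : F, χ a * φ (2 - a) = χ 2 * φ 2 * jacobiSum χ φ := by
  unfold jacobiSum
  rw [Finset.mul_sum, ← Equiv.sum_comp (Equiv.mulLeft₀ (2 : F) h2) (fun a => χ a * φ (2 - a))]
  refine Finset.sum_congr rfl fun b _ => ?_
  have e : (2 : F) - 2 * b = 2 * (1 - b) := by ring
  simp only [Equiv.mulLeft₀_apply]
  rw [e, map_mul, map_mul]
  ring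

end Jac

section Lift

variable {F : Type*} [Field F] [Fintype F] (p : ℕ) [Fact p.Prime] [Algebra (ZMod p) F]

/-- a Dirichlet character mod `p` composed with the norm -/
noncomputable def lift (θ : DirichletCharacter ℂ p) : MulChar F ℂ :=
  MulChar.ofUnitHom (θ.toUnitHom.comp (Units.map (Algebra.norm (ZMod p) : F →* ZMod p)))

theorem lift_apply (θ : DirichletCharacter ℂ p) (a : F) :
    lift p θ a = θ (Algebra.norm (ZMod p) a) := by
  by_cases ha : IsUnit a
  · obtain ⟨u, rfl⟩ := ha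
    rw [lift, MulChar.ofUnitHom_coe]
    simp
  · have h0 : a = 0 := by
      by_contra hne
      exact ha (isUnit_iff_ne_zero.mpr hne)
    subst h0
    rw [MulChar.map_nonunit _ ha, Algebra.norm_zero, MulChar.map_nonunit _ not_isUnit_zero]

theorem lift_one : lift (F := F) p 1 = 1 := by
  ext a
  rw [lift_apply, MulChar.one_apply_coe]
  have h : IsUnit (Algebra.norm (ZMod p) (a : F)) := a.isUnit.map _
  rw [MulChar.one_apply h]

theorem lift_eq_one {θ : DirichletCharacter ℂ p} (h : lift (F := F) p θ = 1) : θ = 1 := by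
  ext c
  obtain ⟨a, ha⟩ := FiniteField.unitsMap_norm_surjective (ZMod p) F c
  have h1 := congrArg (fun χ : MulChar F ℂ => χ (a : F)) h
  simp only [lift_apply, MulChar.one_apply_coe] at h1
  rw [MulChar.one_apply_coe, ← h1, ← ha]
  rfl

/-- the set of norm-one pairs -/
noncomputable def pairSet : Finset F :=
  Finset.univ.filter (fun a : F => Algebra.norm (ZMod p) a = 1 ∧ Algebra.norm (ZMod p) (2 - a) = 1)

theorem count_eq (h2 : (2 : F) ≠ 0) :
    ((p - 1 : ℕ) : ℂ) ^ 2 * ((pairSet (F := F) p).card : ℂ)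
      = ∑ θ : DirichletCharacter ℂ p, ∑ θ' : DirichletCharacter ℂ p,
          lift p θ (2 : F) * lift p θ' (2 : F) * jacobiSum (lift (F := F) p θ) (lift p θ') := by
  classical
  have hp : p.Prime := Fact.out
  have key : ∀ c : ZMod p, (∑ θ : DirichletCharacter ℂ p, θ c)
      = if c = 1 then ((p - 1 : ℕ) : ℂ) else 0 := by
    intro c
    rw [DirichletCharacter.sum_characters_eq, Nat.totient_prime hp]
  calc ((p - 1 : ℕ) : ℂ) ^ 2 * ((pairSet (F := F) p).card : ℂ)
      = ∑ a : F, (∑ θ : DirichletCharacter ℂ p, θ (Algebra.norm (ZMod p) a))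
          * (∑ θ' : DirichletCharacter ℂ p, θ' (Algebra.norm (ZMod p) (2 - a))) := by
        simp_rw [key]
        rw [pairSet, Finset.card_filter, Nat.cast_sum, Finset.mul_sum]
        refine Finset.sum_congr rfl fun a _ => ?_
        by_cases h1 : Algebra.norm (ZMod p) a = 1 <;>
          by_cases h2' : Algebra.norm (ZMod p) (2 - a) = 1 <;> simp [h1, h2', sq]
    _ = ∑ θ : DirichletCharacter ℂ p, ∑ θ' : DirichletCharacter ℂ p,
          ∑ a : F, lift p θ a * lift p θ' (2 - a) := by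
        simp_rw [Finset.sum_mul_sum, lift_apply]
        rw [Finset.sum_comm]
        refine Finset.sum_congr rfl fun θ _ => ?_
        rw [Finset.sum_comm]
    _ = _ := by
        simp_rw [sum_twist _ _ h2]

theorem card_dirichlet : Fintype.card (DirichletCharacter ℂ p) = p - 1 := by
  rw [← Nat.card_eq_fintype_card, DirichletCharacter.card_eq_totient_of_hasEnoughRootsOfUnity,
    Nat.totient_prime Fact.out]

theorem count_bound (h2 : (2 : F) ≠ 0) :
    |((p - 1 : ℕ) : ℝ) ^ 2 * ((pairSet (F := F) p).card : ℝ) - ((Fintype.card F : ℝ) - 2)|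
      ≤ (((p - 1 : ℕ) : ℝ) ^ 2 - 1) * Real.sqrt (Fintype.card F) := by
  classical
  have hp : p.Prime := Fact.out
  obtain ⟨T, hT⟩ : ∃ T : DirichletCharacter ℂ p × DirichletCharacter ℂ p → ℂ,
      T = fun x => lift p x.1 (2 : F) * lift p x.2 (2 : F)
        * jacobiSum (lift (F := F) p x.1) (lift p x.2) := ⟨_, rfl⟩
  have hS : ((p - 1 : ℕ) : ℂ) ^ 2 * ((pairSet (F := F) p).card : ℂ)
      = ∑ x : DirichletCharacter ℂ p × DirichletCharacter ℂ p, T x := by
    rw [count_eq p h2, Fintype.sum_prod_type, hT]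
  have h11 : T (1, 1) = (Fintype.card F : ℂ) - 2 := by
    rw [hT]
    simp only [lift_one]
    rw [jacobiSum_one_one, MulChar.one_apply (isUnit_iff_ne_zero.mpr h2)]
    ring
  have hsplit : ∑ x : DirichletCharacter ℂ p × DirichletCharacter ℂ p, T x
      = T (1, 1) + ∑ x ∈ Finset.univ.erase (1, 1), T x := by
    rw [Finset.add_sum_erase _ _ (Finset.mem_univ _)]
  have hb : ∀ x ∈ Finset.univ.erase
      ((1 : DirichletCharacter ℂ p), (1 : DirichletCharacter ℂ p)),
      ‖T x‖ ≤ Real.sqrt (Fintype.card F) := by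
    intro x hx
    have hx' : x ≠ (1, 1) := Finset.ne_of_mem_erase hx
    have hne : lift (F := F) p x.1 ≠ 1 ∨ lift (F := F) p x.2 ≠ 1 := by
      by_contra hcon
      push Not at hcon
      exact hx' (Prod.ext (lift_eq_one p hcon.1) (lift_eq_one p hcon.2))
    rw [hT]
    simp only
    rw [norm_mul, norm_mul]
    have a1 := mulChar_norm_le_one (lift (F := F) p x.1) 2
    have a2 := mulChar_norm_le_one (lift (F := F) p x.2) 2
    have a3 := jacobiSum_norm_le _ _ hne
    calc ‖lift p x.1 (2 : F)‖ * ‖lift p x.2 (2 : F)‖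
          * ‖jacobiSum (lift (F := F) p x.1) (lift p x.2)‖
        ≤ 1 * 1 * Real.sqrt (Fintype.card F) := by gcongr
      _ = Real.sqrt (Fintype.card F) := by ring
  have hsum : ‖∑ x ∈ Finset.univ.erase
      ((1 : DirichletCharacter ℂ p), (1 : DirichletCharacter ℂ p)), T x‖
      ≤ (((p - 1 : ℕ) : ℝ) ^ 2 - 1) * Real.sqrt (Fintype.card F) := by
    refine (norm_sum_le _ _).trans ?_
    refine (Finset.sum_le_card_nsmul _ _ _ hb).trans ?_
    rw [Finset.card_erase_of_mem (Finset.mem_univ _), Finset.card_univ, Fintype.card_prod,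
      card_dirichlet, nsmul_eq_mul]
    have h1 : 1 ≤ (p - 1) * (p - 1) := by
      have := hp.two_le
      have h3 : 1 ≤ p - 1 := by omega
      exact Nat.mul_le_mul h3 h3
    rw [Nat.cast_sub h1]
    push_cast
    apply le_of_eq
    ring
  have hc : ((((p - 1 : ℕ) : ℝ) ^ 2 * ((pairSet (F := F) p).card : ℝ)
      - ((Fintype.card F : ℝ) - 2) : ℝ) : ℂ)
      = ∑ x ∈ Finset.univ.erase
        ((1 : DirichletCharacter ℂ p), (1 : DirichletCharacter ℂ p)), T x := by
    have h3 : ((((p - 1 : ℕ) : ℝ) ^ 2 * ((pairSet (F := F) p).card : ℝ)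
      - ((Fintype.card F : ℝ) - 2) : ℝ) : ℂ)
      = ((p - 1 : ℕ) : ℂ) ^ 2 * ((pairSet (F := F) p).card : ℂ) - ((Fintype.card F : ℂ) - 2) := by
      push_cast
      ring
    rw [h3, hS, hsplit, h11]
    ring
  rw [← Real.norm_eq_abs, ← Complex.norm_real, hc]
  exact hsum

theorem two_le_card (q : ℕ) (hq : 5 ≤ q) (hp2 : p ≠ 2) (hF : Fintype.card F = p ^ q) :
    2 ≤ (pairSet (F := F) p).card := by
  have hp : p.Prime := Fact.out
  have hp3 : 3 ≤ p := by
    have := hp.two_le
    omega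
  haveI : CharP F p := charP_of_injective_algebraMap (algebraMap (ZMod p) F).injective p
  have h2 : (2 : F) ≠ 0 := by
    intro h
    have h3 : ((2 : ℕ) : F) = 0 := by exact_mod_cast h
    rw [CharP.cast_eq_zero_iff F p] at h3
    have := Nat.le_of_dvd (by norm_num) h3
    omega
  by_contra hcon
  have hE : ((pairSet (F := F) p).card : ℝ) ≤ 1 := by
    have : (pairSet (F := F) p).card ≤ 1 := by omega
    exact_mod_cast this
  have hb := count_bound (F := F) p h2
  obtain ⟨c, hc⟩ : ∃ c : ℝ, c = ((p - 1 : ℕ) : ℝ) := ⟨_, rfl⟩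
  obtain ⟨r, hr⟩ : ∃ r : ℝ, r = Real.sqrt (Fintype.card F) := ⟨_, rfl⟩
  rw [← hc, ← hr] at hb
  have hcp : c = (p : ℝ) - 1 := by
    rw [hc, Nat.cast_sub (by omega)]
    simp
  have hc2 : 2 ≤ c := by
    rw [hcp]
    have : (3 : ℝ) ≤ p := by exact_mod_cast hp3
    linarith
  have hN : (Fintype.card F : ℝ) = r ^ 2 := by
    rw [hr, Real.sq_sqrt (by positivity)]
  have hnat : (p ^ 2 + 1) ^ 2 ≤ p ^ q := by
    have h5 : p ^ 5 ≤ p ^ q := Nat.pow_le_pow_right (by omega) hq
    have h6 : (p ^ 2 + 1) ^ 2 ≤ p ^ 5 := by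
      have h7 : p ^ 5 = p * p ^ 4 := by ring
      have h8 : 3 * p ^ 4 ≤ p * p ^ 4 := Nat.mul_le_mul_right _ hp3
      have h9 : p ^ 2 ≤ p ^ 4 := Nat.pow_le_pow_right (by omega) (by norm_num)
      have h10 : 1 ≤ p ^ 4 := Nat.one_le_pow _ _ (by omega)
      nlinarith
    exact h6.trans h5
  have hr1 : c ^ 2 + 2 * c + 2 ≤ r := by
    rw [hr]
    apply Real.le_sqrt_of_sq_le
    have h3 : ((p ^ 2 + 1) ^ 2 : ℝ) ≤ (Fintype.card F : ℝ) := by
      rw [hF]
      exact_mod_cast hnat
    have h4 : c ^ 2 + 2 * c + 2 = (p : ℝ) ^ 2 + 1 := by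
      rw [hcp]
      ring
    rw [h4]
    exact h3
  rw [hN] at hb
  have h1 := (abs_le.mp hb).1
  have hE' : c ^ 2 * ((pairSet (F := F) p).card : ℝ) ≤ c ^ 2 := by
    have : 0 ≤ c ^ 2 := by positivity
    nlinarith
  have h3 : r * (2 * c + 3) ≤ r * (r - c ^ 2 + 1) := by
    apply mul_le_mul_of_nonneg_left _ (by linarith [sq_nonneg c])
    linarith
  have h4 : (c ^ 2 + 2 * c + 2) * (2 * c + 3) ≤ r * (2 * c + 3) := by
    apply mul_le_mul_of_nonneg_right hr1 (by linarith)
  nlinarith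

end Lift

end Cfsg.Agent.Lib.Helper12.NormJac
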