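import Mathlib
import Cfsg.Prelude.Def_Sporadic_a
import Cfsg.Agent.Lib.Helper4.GolayOct
import Cfsg.Agent.Lib.Helper4.GolayDod2

set_option autoImplicit false

namespace Cfsg.Agent.Lib.Helper12

open Cfsg Pointwise
open Cfsg.Agent.Lib.Helper4 Cfsg.Agent.Lib.Helper4.Golay

theorem orbit_oct {o : Finset GolayPt} (ho : o ∈ octads) : MulAction.orbit M24 o = octads := by
  ext s
  constructor
  · rintro ⟨g, rfl⟩
    exact smul_mem_weight g.2 ho
  · intro hs
    obtain ⟨g, hg, e⟩ := octad_trans o s ho hs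
    exact ⟨⟨g, hg⟩, e⟩

theorem ncard_octads : octads.ncard = 759 := by
  rw [octads, ncard_weight 8]
  exact count8

theorem card_stab_oct {o : Finset GolayPt} (ho : o ∈ octads) :
    Nat.card (MulAction.stabilizer M24 o) = 322560 := by
  have h := card_orbit_mul_stab (G := M24) o
  rw [orbit_oct ho, ncard_octads, card_M24] at h
  omega

theorem mem_iff_of_smul {g : Equiv.Perm GolayPt} {o : Finset GolayPt} (h : g • o = o)
    (x : GolayPt) : g x ∈ o ↔ x ∈ o := by
  conv_lhs => rw [← h]
  exact Finset.smul_mem_smul_finset_iff g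

theorem smul_eq_of_mem_iff {g : Equiv.Perm GolayPt} {o : Finset GolayPt}
    (h : ∀ x, g x ∈ o ↔ x ∈ o) : g • o = o := by
  ext y
  rw [← Finset.inv_smul_mem_iff, ← h]
  simp

/-- the action of the stabiliser of a set on that set -/
noncomputable def resHom (o : Finset GolayPt) : MulAction.stabilizer M24 o →* Equiv.Perm ↥o :=
  MonoidHom.mk' (fun g => ((g : M24) : Equiv.Perm GolayPt).subtypePerm (mem_iff_of_smul g.2))
    (fun a b => by ext x; rfl)

theorem resHom_apply (o : Finset GolayPt) (g : MulAction.stabilizer M24 o) (x : ↥o) :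
    ((resHom o g x : ↥o) : GolayPt) = ((g : M24) : Equiv.Perm GolayPt) x := rfl

theorem mem_ker_resHom {o : Finset GolayPt} (g : MulAction.stabilizer M24 o) :
    g ∈ (resHom o).ker ↔ ∀ x ∈ o, ((g : M24) : Equiv.Perm GolayPt) x = x := by
  rw [MonoidHom.mem_ker]
  constructor
  · intro h x hx
    have h1 := congrArg (fun e : Equiv.Perm ↥o => (e ⟨x, hx⟩ : GolayPt)) h
    exact h1
  · intro h
    apply Equiv.ext
    rintro ⟨x, hx⟩
    apply Subtype.ext
    exact h x hx

theorem card_ker_resHom {o : Finset GolayPt} (ho : o ∈ octads) :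
    Nat.card (resHom o).ker = 16 := by
  rw [← (fix_octad ho).1]
  apply Nat.card_eq_of_bijective (fun g : ↥(resHom o).ker =>
    (⟨((g.1 : M24) : Equiv.Perm GolayPt), ⟨(g.1 : M24).2, by
      show ((g.1 : M24) : Equiv.Perm GolayPt) ∈
        fixingSubgroup (Equiv.Perm GolayPt) (o : Set GolayPt)
      rw [mem_fixingSubgroup_iff]
      intro y hy
      exact (mem_ker_resHom g.1).mp g.2 y (Finset.mem_coe.mp hy)⟩⟩ :
      ↥(M24 ⊓ fixingSubgroup (Equiv.Perm GolayPt) (o : Set GolayPt))))
  constructor
  · intro a b hab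
    have h1 : ((a.1 : M24) : Equiv.Perm GolayPt) = ((b.1 : M24) : Equiv.Perm GolayPt) :=
      congrArg (fun z : ↥(M24 ⊓ fixingSubgroup (Equiv.Perm GolayPt) (o : Set GolayPt)) =>
        (z : Equiv.Perm GolayPt)) hab
    exact Subtype.ext (Subtype.ext (Subtype.ext h1))
  · rintro ⟨k, hk⟩
    have hk1 : k ∈ M24 := hk.1
    have hk2 : k ∈ fixingSubgroup (Equiv.Perm GolayPt) (o : Set GolayPt) := hk.2
    rw [mem_fixingSubgroup_iff] at hk2
    have hfix : ∀ x ∈ o, k x = x := fun x hx => hk2 x (Finset.mem_coe.mpr hx)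
    have hstab : (⟨k, hk1⟩ : M24) • o = o := by
      apply smul_eq_of_mem_iff (g := k)
      intro x
      constructor
      · intro hx
        have h2 := hfix (k x) hx
        have h3 : k x = x := k.injective h2
        rw [← h3]; exact hx
      · intro hx
        rw [hfix x hx]; exact hx
    refine ⟨⟨⟨⟨k, hk1⟩, hstab⟩, ?_⟩, rfl⟩
    rw [mem_ker_resHom]
    exact hfix

theorem card_range_resHom {o : Finset GolayPt} (ho : o ∈ octads) :
    Nat.card (resHom o).range = 20160 := by
  have h1 := Subgroup.card_mul_index (resHom o).ker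
  rw [Subgroup.index_ker, card_ker_resHom ho, card_stab_oct ho] at h1
  omega

theorem range_resHom {o : Finset GolayPt} (ho : o ∈ octads) :
    (resHom o).range = alternatingGroup ↥o := by
  apply Equiv.Perm.eq_alternatingGroup_of_index_eq_two
  have h1 := Subgroup.card_mul_index (resHom o).range
  rw [card_range_resHom ho, Nat.card_eq_fintype_card, Fintype.card_perm, Fintype.card_coe,
    ho.2] at h1
  have h2 : Nat.factorial 8 = 40320 := by decide
  omega

end Cfsg.Agent.Lib.Helper12
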