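import Mathlib
import Cfsg.Prelude.Def_Sporadic_a
import Cfsg.Agent.Lib.Helper12.OctadStab

set_option autoImplicit false

namespace Cfsg.Agent.Lib.Helper12

open Cfsg Pointwise
open Cfsg.Agent.Lib.Helper4 Cfsg.Agent.Lib.Helper4.Golay

theorem fixO0_comm {g r : Equiv.Perm GolayPt}
    (hg : g ∈ M24 ⊓ fixingSubgroup (Equiv.Perm GolayPt) (O0s : Set GolayPt))
    (hr : r ∈ M24 ⊓ fixingSubgroup (Equiv.Perm GolayPt) (O0s : Set GolayPt)) :
    g * r = r * g := by
  have h1 := fixO0_sq hg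
  have h2 := fixO0_sq hr
  have h3 := fixO0_sq (Subgroup.mul_mem _ hg hr)
  have hg' : g⁻¹ = g := inv_eq_of_mul_eq_one_left h1
  have hr' : r⁻¹ = r := inv_eq_of_mul_eq_one_left h2
  have h' : (g * r)⁻¹ = g * r := inv_eq_of_mul_eq_one_left h3
  rw [mul_inv_rev, hg', hr'] at h'
  exact h'.symm

theorem outside_O0s {p : GolayPt} (hp : p ∉ O0s) :
    code p ∈ [5, 6, 8, 9, 11, 13, 14, 15, 16, 17, 18, 19, 20, 21, 22, 23] := by
  have h : ∀ j < 24, j ∉ [0, 1, 2, 3, 4, 7, 10, 12] →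
      j ∈ [5, 6, 8, 9, 11, 13, 14, 15, 16, 17, 18, 19, 20, 21, 22, 23] := by decide
  apply h _ (code_lt _)
  intro hmem
  exact hp (mem_O0s.2 hmem)

theorem exists_fixO0_map {p : GolayPt} (hp : p ∉ O0s) :
    ∃ r ∈ M24 ⊓ fixingSubgroup (Equiv.Perm GolayPt) (O0s : Set GolayPt), r (pt 5) = p := by
  obtain ⟨r, hr, hfix, hmove, -⟩ := octA _ (outside_O0s hp)
  refine ⟨r, Subgroup.mem_inf.2 ⟨hr, mem_fixO0.2 hfix⟩, ?_⟩
  rw [hmove, pt_code]

theorem fixO0_free {g : Equiv.Perm GolayPt}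
    (hg : g ∈ M24 ⊓ fixingSubgroup (Equiv.Perm GolayPt) (O0s : Set GolayPt))
    {p : GolayPt} (hp : p ∉ O0s) (h : g p = p) : g = 1 := by
  obtain ⟨r, hr, rfl⟩ := exists_fixO0_map hp
  have hc := fixO0_comm hg hr
  have h1 : (g * r) (pt 5) = r (pt 5) := h
  rw [hc] at h1
  have h2 : g (pt 5) = pt 5 := r.injective h1
  have hg' := hg
  rw [Subgroup.mem_inf, mem_fixO0] at hg'
  exact octB hg'.1 (Subgroup.one_mem _) hg'.2 (fun f _ => rfl) h2

theorem fixO0_trans {p q : GolayPt} (hp : p ∉ O0s) (hq : q ∉ O0s) :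
    ∃ g ∈ M24 ⊓ fixingSubgroup (Equiv.Perm GolayPt) (O0s : Set GolayPt), g p = q := by
  obtain ⟨r1, hr1, rfl⟩ := exists_fixO0_map hp
  obtain ⟨r2, hr2, rfl⟩ := exists_fixO0_map hq
  refine ⟨r2 * r1⁻¹, Subgroup.mul_mem _ hr2 (Subgroup.inv_mem _ hr1), ?_⟩
  simp

/-- the pointwise stabiliser of an octad acts freely outside the octad -/
theorem fix_free {o : Finset GolayPt} (ho : o ∈ octads) {g : Equiv.Perm GolayPt}
    (hg : g ∈ M24 ⊓ fixingSubgroup (Equiv.Perm GolayPt) (o : Set GolayPt))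
    {p : GolayPt} (hp : p ∉ o) (h : g p = p) : g = 1 := by
  obtain ⟨k, hk, e⟩ := octad_trans O0s o O0s_octad ho
  have hts : ∀ y ∈ (O0s : Set GolayPt), k y ∈ (o : Set GolayPt) := by
    intro y hy
    rw [Finset.mem_coe] at hy ⊢
    rw [← e]
    exact Finset.smul_mem_smul_finset hy
  have h1 := fixing_conj M24 (Subgroup.inv_mem _ hk) _ _
    (fun y hy => by rw [inv_inv]; exact hts y hy) hg
  rw [inv_inv] at h1
  have hp' : k⁻¹ p ∉ O0s := by
    intro hmem
    apply hp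
    have := hts _ (Finset.mem_coe.2 hmem)
    simpa using this
  have h2 : (k⁻¹ * g * k) (k⁻¹ p) = k⁻¹ p := by
    simp [h]
  have h3 := fixO0_free h1 hp' h2
  have h4 : g = k * (k⁻¹ * g * k) * k⁻¹ := by group
  rw [h4, h3]
  group

/-- the pointwise stabiliser of an octad is transitive outside the octad -/
theorem fix_trans {o : Finset GolayPt} (ho : o ∈ octads) {p q : GolayPt} (hp : p ∉ o)
    (hq : q ∉ o) :
    ∃ g ∈ M24 ⊓ fixingSubgroup (Equiv.Perm GolayPt) (o : Set GolayPt), g p = q := by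
  obtain ⟨k, hk, e⟩ := octad_trans O0s o O0s_octad ho
  have hst : ∀ y ∈ (o : Set GolayPt), k⁻¹ y ∈ (O0s : Set GolayPt) := by
    intro y hy
    rw [Finset.mem_coe] at hy ⊢
    rw [← e] at hy
    obtain ⟨z, hz, rfl⟩ := Finset.mem_smul_finset.1 hy
    simpa using hz
  have hts : ∀ y ∈ (O0s : Set GolayPt), k y ∈ (o : Set GolayPt) := by
    intro y hy
    rw [Finset.mem_coe] at hy ⊢
    rw [← e]
    exact Finset.smul_mem_smul_finset hy
  have hp' : k⁻¹ p ∉ O0s := by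
    intro hmem
    apply hp
    have := hts _ (Finset.mem_coe.2 hmem)
    simpa using this
  have hq' : k⁻¹ q ∉ O0s := by
    intro hmem
    apply hq
    have := hts _ (Finset.mem_coe.2 hmem)
    simpa using this
  obtain ⟨g, hg, hgpq⟩ := fixO0_trans hp' hq'
  refine ⟨k * g * k⁻¹, fixing_conj M24 hk _ _ hst hg, ?_⟩
  show k (g (k⁻¹ p)) = q
  rw [hgpq]
  simp

theorem fix_le_stab (o : Finset GolayPt) :
    fixingSubgroup (Equiv.Perm GolayPt) (o : Set GolayPt) ≤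
      MulAction.stabilizer (Equiv.Perm GolayPt) o := by
  intro g hg
  rw [mem_fixingSubgroup_iff] at hg
  rw [MulAction.mem_stabilizer_iff]
  apply smul_eq_of_mem_iff
  intro x
  constructor
  · intro hx
    have h2 := hg (g x) (Finset.mem_coe.mpr hx)
    have h3 : g x = x := g.injective h2
    rw [← h3]; exact hx
  · intro hx
    have h2 : g x = x := hg x (Finset.mem_coe.mpr hx)
    rw [h2]; exact hx

/-- factorisation of an element of the octad stabiliser -/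
theorem stab_factor {o : Finset GolayPt} (ho : o ∈ octads) {p : GolayPt} (hp : p ∉ o)
    {s : Equiv.Perm GolayPt} (hs : s ∈ M24) (hso : s • o = o) :
    ∃ k ∈ M24 ⊓ fixingSubgroup (Equiv.Perm GolayPt) (o : Set GolayPt),
      k⁻¹ * s ∈ M24 ⊓ MulAction.stabilizer (Equiv.Perm GolayPt) o ⊓
        MulAction.stabilizer (Equiv.Perm GolayPt) p := by
  have hsp : s p ∉ o := by
    rw [mem_iff_of_smul hso]
    exact hp
  obtain ⟨k, hk, hkp⟩ := fix_trans ho hp hsp
  refine ⟨k, hk, ?_⟩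
  have hk1 : k ∈ M24 := (Subgroup.mem_inf.1 hk).1
  have hk2 : k ∈ MulAction.stabilizer (Equiv.Perm GolayPt) o :=
    fix_le_stab o (Subgroup.mem_inf.1 hk).2
  refine Subgroup.mem_inf.2 ⟨Subgroup.mem_inf.2 ⟨Subgroup.mul_mem _ (Subgroup.inv_mem _ hk1) hs,
    Subgroup.mul_mem _ (Subgroup.inv_mem _ hk2) (MulAction.mem_stabilizer_iff.2 hso)⟩, ?_⟩
  rw [MulAction.mem_stabilizer_iff]
  show k⁻¹ (s p) = p
  rw [← hkp]
  simp

end Cfsg.Agent.Lib.Helper12
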