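import Mathlib
import Cfsg.Prelude.Def_Sporadic_a
import Cfsg.Agent.Lib.Helper12.OctadSplit
import Cfsg.Agent.Lib.Helper12.M24Trans
import Cfsg.Agent.Lib.Helper12.CodeSupp
import Cfsg.Agent.Lib.Helper4.Steiner

set_option autoImplicit false

namespace Cfsg.Agent.Lib.Helper12

open Cfsg Pointwise
open Cfsg.Agent.Lib.Helper4 Cfsg.Agent.Lib.Helper4.Golay

theorem fix_comm {o : Finset GolayPt} (ho : o ∈ octads) {g r : Equiv.Perm GolayPt}
    (hg : g ∈ M24 ⊓ fixingSubgroup (Equiv.Perm GolayPt) (o : Set GolayPt))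
    (hr : r ∈ M24 ⊓ fixingSubgroup (Equiv.Perm GolayPt) (o : Set GolayPt)) :
    g * r = r * g := by
  have h1 := (fix_octad ho).2 g hg
  have h2 := (fix_octad ho).2 r hr
  have h3 := (fix_octad ho).2 (g * r) (Subgroup.mul_mem _ hg hr)
  have hg' : g⁻¹ = g := inv_eq_of_mul_eq_one_left h1
  have hr' : r⁻¹ = r := inv_eq_of_mul_eq_one_left h2
  have h' : (g * r)⁻¹ = g * r := inv_eq_of_mul_eq_one_left h3
  rw [mul_inv_rev, hg', hr'] at h'
  exact h'.symm

/-- the stabiliser of an octad is transitive on the subsets of the octad of any size up to 5 -/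
theorem stab_hom {o : Finset GolayPt} (ho : o ∈ octads) {t t' : Finset GolayPt} (ht : t ⊆ o)
    (ht' : t' ⊆ o) (hc : t.card = t'.card) (h5 : t.card ≤ 5) :
    ∃ g ∈ M24, g • o = o ∧ g • t = t' := by
  obtain ⟨S, hS1, hS2, hS3⟩ := Finset.exists_subsuperset_card_eq ht h5 (by rw [ho.2]; norm_num)
  obtain ⟨S', hS1', hS2', hS3'⟩ :=
    Finset.exists_subsuperset_card_eq (n := 5) ht' (by omega) (by rw [ho.2]; norm_num)
  have c1 : (t ∪ S \ t).card ≤ 5 := by
    rw [Finset.union_sdiff_of_subset hS1, hS3]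
  have c2 : (S \ t).card = (S' \ t').card := by
    rw [Finset.card_sdiff_of_subset hS1, Finset.card_sdiff_of_subset hS1', hS3, hS3', hc]
  have c3 : (t ∩ (S \ t)).card = (t' ∩ (S' \ t')).card := by
    rw [Finset.inter_sdiff_self, Finset.inter_sdiff_self]
  obtain ⟨g, hg, e1, e2⟩ := pairs_trans t (S \ t) t' (S' \ t') c1 hc c2 c3
  refine ⟨g, hg, ?_, e1⟩
  have hgo : g • o ∈ octads := smul_mem_weight hg ho
  apply octad_eq_of_five hgo ho
  have hSS : S' = g • S := by
    rw [← Finset.union_sdiff_of_subset hS1', ← e2, ← e1, ← Finset.smul_finset_union,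
      Finset.union_sdiff_of_subset hS1]
  have hsub : S' ⊆ g • o ∩ o := by
    apply Finset.subset_inter _ hS2'
    rw [hSS]
    exact Finset.smul_finset_subset_smul_finset hS2
  calc 5 = S'.card := hS3'.symm
    _ ≤ _ := Finset.card_le_card hsub

/-- two octads meeting a third in the same four points are conjugate under its pointwise
stabiliser -/
theorem case4 {o p q : Finset GolayPt} (ho : o ∈ octads) (hp : p ∈ octads) (hq : q ∈ octads)
    (h4 : (o ∩ p).card = 4) (he : o ∩ p = o ∩ q) :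
    ∃ k ∈ M24 ⊓ fixingSubgroup (Equiv.Perm GolayPt) (o : Set GolayPt), k • p = q := by
  have hx : (p \ o).Nonempty := by
    rw [← Finset.card_pos, Finset.card_sdiff, hp.2, h4]
    norm_num
  have hy : (q \ o).Nonempty := by
    rw [← Finset.card_pos, Finset.card_sdiff, hq.2, ← he, h4]
    norm_num
  obtain ⟨x, hx⟩ := hx
  obtain ⟨y, hy⟩ := hy
  obtain ⟨k, hk, hkxy⟩ := fix_trans ho (Finset.mem_sdiff.1 hx).2 (Finset.mem_sdiff.1 hy).2
  refine ⟨k, hk, ?_⟩
  have hk1 := (Subgroup.mem_inf.1 hk).1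
  have hk2 := (Subgroup.mem_inf.1 hk).2
  rw [mem_fixingSubgroup_iff] at hk2
  apply octad_eq_of_five (smul_mem_weight hk1 hp) hq
  have hsub : insert y (o ∩ q) ⊆ k • p ∩ q := by
    intro z hz
    rcases Finset.mem_insert.1 hz with rfl | hz
    · refine Finset.mem_inter.2 ⟨?_, (Finset.mem_sdiff.1 hy).1⟩
      rw [← hkxy]
      exact Finset.smul_mem_smul_finset (Finset.mem_sdiff.1 hx).1
    · have hzo := (Finset.mem_inter.1 hz).1
      have hzq := (Finset.mem_inter.1 hz).2
      have hzp : z ∈ p := by rw [← he] at hz; exact (Finset.mem_inter.1 hz).2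
      refine Finset.mem_inter.2 ⟨?_, hzq⟩
      have hkz : k • z = z := hk2 z (Finset.mem_coe.2 hzo)
      rw [← hkz]
      exact Finset.smul_mem_smul_finset hzp
  have hcard : (insert y (o ∩ q)).card = 5 := by
    rw [Finset.card_insert_of_notMem, ← he, h4]
    intro h
    exact (Finset.mem_sdiff.1 hy).2 (Finset.mem_inter.1 h).1
  calc 5 = _ := hcard.symm
    _ ≤ _ := Finset.card_le_card hsub

end Cfsg.Agent.Lib.Helper12
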