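import Mathlib
import Cfsg.Prelude.Def_Sporadic_a
import Cfsg.Agent.Lib.Helper12.OctadOrb

set_option autoImplicit false

namespace Cfsg.Agent.Lib.Helper12

open Cfsg Pointwise
open Cfsg.Agent.Lib.Helper4 Cfsg.Agent.Lib.Helper4.Golay

/-- the pointwise stabiliser of an octad acts freely on the octads meeting it in two points -/
theorem fix_free_octad {o q : Finset GolayPt} (ho : o ∈ octads) (hq : q ∈ octads)
    (h2 : (q ∩ o).card = 2) {k : Equiv.Perm GolayPt}
    (hk : k ∈ M24 ⊓ fixingSubgroup (Equiv.Perm GolayPt) (o : Set GolayPt))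
    (hkq : k • q = q) : k = 1 := by
  classical
  by_contra hne
  have hk1 := (Subgroup.mem_inf.1 hk).1
  have hk2 := (Subgroup.mem_inf.1 hk).2
  rw [mem_fixingSubgroup_iff] at hk2
  have hsq : k * k = 1 := (fix_octad ho).2 k hk
  let x : MulAction.stabilizer M24 q := ⟨⟨k, hk1⟩, hkq⟩
  set σ := resHom q x with hσ
  have hσalt : σ ∈ alternatingGroup ↥q := by rw [← range_resHom hq]; exact ⟨x, rfl⟩
  have hsign : Equiv.Perm.sign σ = 1 := Equiv.Perm.mem_alternatingGroup.1 hσalt
  have hσapply : ∀ y : ↥q, ((σ y : ↥q) : GolayPt) = k y := fun y => rfl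
  have hσsq : σ * σ = 1 := by
    apply Equiv.ext
    intro y
    apply Subtype.ext
    show k (k y) = y
    have := congrArg (fun e : Equiv.Perm GolayPt => e y) hsq
    exact this
  have hfixiff : ∀ y : ↥q, σ y = y ↔ (y : GolayPt) ∈ o := by
    intro y
    constructor
    · intro h
      by_contra hyo
      have : k (y : GolayPt) = y := by rw [← hσapply y, h]
      exact hne (fix_free ho hk hyo this)
    · intro h
      apply Subtype.ext
      rw [hσapply]
      exact hk2 _ (Finset.mem_coe.2 h)
  have hσne : σ ≠ 1 := by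
    intro h1
    have hsub : q ⊆ o := by
      intro y hy
      exact (hfixiff ⟨y, hy⟩).1 (by rw [h1]; rfl)
    have h8 : q ∩ o = q := Finset.inter_eq_left.2 hsub
    rw [h8, hq.2] at h2
    omega
  have hord : orderOf σ = 2 := orderOf_eq_prime (by rw [pow_two]; exact hσsq) hσne
  obtain ⟨n, hn⟩ := Equiv.Perm.cycleType_prime_order (σ := σ) (by rw [hord]; exact Nat.prime_two)
  rw [hord] at hn
  have hsupp : σ.support.card = 6 := by
    have e : σ.support.map ⟨Subtype.val, Subtype.val_injective⟩ = q \ o := by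
      ext y
      simp only [Finset.mem_map, Equiv.Perm.mem_support, Function.Embedding.coeFn_mk,
        Finset.mem_sdiff]
      constructor
      · rintro ⟨z, hz, rfl⟩
        exact ⟨z.2, fun h => hz ((hfixiff z).2 h)⟩
      · rintro ⟨hy1, hy2⟩
        exact ⟨⟨y, hy1⟩, fun h => hy2 ((hfixiff ⟨y, hy1⟩).1 h), rfl⟩
    rw [← Finset.card_map, e, Finset.card_sdiff, hq.2, Finset.inter_comm, h2]
  have hsum := Equiv.Perm.sum_cycleType σ
  rw [hn, hsupp, Multiset.sum_replicate, smul_eq_mul] at hsum
  have hn2 : n = 2 := by omega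
  have hs := Equiv.Perm.sign_of_cycleType σ
  rw [hn, hn2, hsign] at hs
  simp at hs
  revert hs
  decide

/-- two octads meeting a third in the same two points are conjugate under its pointwise
stabiliser -/
theorem case2 {o p q : Finset GolayPt} (ho : o ∈ octads) (hp : p ∈ octads) (hq : q ∈ octads)
    (h2 : (o ∩ p).card = 2) (he : o ∩ p = o ∩ q) :
    ∃ k ∈ M24 ⊓ fixingSubgroup (Equiv.Perm GolayPt) (o : Set GolayPt), k • p = q := by
  classical
  have hB := Cfsg.Agent.S0363.result
  have hα := card_pts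
  set K := M24 ⊓ fixingSubgroup (Equiv.Perm GolayPt) (o : Set GolayPt) with hK
  have hKcard : Nat.card K = 16 := (fix_octad ho).1
  let Cd : Finset GolayPt → Finset (Finset GolayPt) := fun d =>
    (Steiner.blocks octads).filter (fun r => r ∩ o = d)
  have hCd : ∀ d r, r ∈ Cd d ↔ r ∈ octads ∧ r ∩ o = d := by
    intro d r
    show r ∈ (Steiner.blocks octads).filter (fun r => r ∩ o = d) ↔ _
    rw [Finset.mem_filter, Steiner.mem_blocks]
  -- orbits under K inside a class have 16 elements
  have horb : ∀ d r, d.card = 2 → r ∈ Cd d →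
      Set.range (fun k : ↥K => (k : Equiv.Perm GolayPt) • r) ⊆ ↑(Cd d) ∧
      (Set.range (fun k : ↥K => (k : Equiv.Perm GolayPt) • r)).ncard = 16 := by
    intro d r hd hr
    obtain ⟨hr1, hr2⟩ := (hCd d r).1 hr
    constructor
    · rintro _ ⟨k, rfl⟩
      have hk1 := (Subgroup.mem_inf.1 k.2).1
      have hk2 := (Subgroup.mem_inf.1 k.2).2
      rw [Finset.mem_coe, hCd]
      refine ⟨smul_mem_weight hk1 hr1, ?_⟩
      have hko : (k : Equiv.Perm GolayPt) • o = o :=
        MulAction.mem_stabilizer_iff.1 (fix_le_stab o hk2)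
      have hkd : (k : Equiv.Perm GolayPt) • d = d := by
        rw [mem_fixingSubgroup_iff] at hk2
        apply Finset.eq_of_subset_of_card_le
        · intro z hz
          obtain ⟨w, hw, rfl⟩ := Finset.mem_smul_finset.1 hz
          have hwo : w ∈ o := by rw [← hr2] at hw; exact (Finset.mem_inter.1 hw).2
          rw [hk2 w (Finset.mem_coe.2 hwo)]
          exact hw
        · rw [Finset.card_smul_finset]
      calc (k : Equiv.Perm GolayPt) • r ∩ o
          = (k : Equiv.Perm GolayPt) • r ∩ (k : Equiv.Perm GolayPt) • o := by rw [hko]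
        _ = (k : Equiv.Perm GolayPt) • (r ∩ o) := (Finset.smul_finset_inter).symm
        _ = d := by rw [hr2, hkd]
    · have hinj : Function.Injective (fun k : ↥K => (k : Equiv.Perm GolayPt) • r) := by
        intro k1 k2 h12
        have h12' : (k1 : Equiv.Perm GolayPt) • r = (k2 : Equiv.Perm GolayPt) • r := h12
        have h3 : ((k2 : Equiv.Perm GolayPt)⁻¹ * (k1 : Equiv.Perm GolayPt)) • r = r := by
          rw [mul_smul, h12', inv_smul_smul]
        have h4 := fix_free_octad ho hr1 (by rw [hr2]; exact hd)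
          (Subgroup.mul_mem _ (Subgroup.inv_mem _ k2.2) k1.2) h3
        apply Subtype.ext
        rw [inv_mul_eq_one] at h4
        exact h4.symm
      rw [← Nat.card_coe_set_eq, Nat.card_range_of_injective hinj, hKcard]
  -- every class is nonempty, hence has at least 16 elements
  have hge : ∀ d ∈ Finset.powersetCard 2 o, 16 ≤ (Cd d).card := by
    intro d hd
    rw [Finset.mem_powersetCard] at hd
    have hpo : (o ∩ p) ⊆ o := Finset.inter_subset_left
    obtain ⟨g, hg, hgo, hgd⟩ := stab_hom ho hpo hd.1 (by rw [h2, hd.2]) (by omega)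
    have hr : g • p ∈ Cd d := by
      rw [hCd]
      refine ⟨smul_mem_weight hg hp, ?_⟩
      calc g • p ∩ o = g • p ∩ g • o := by rw [hgo]
        _ = g • (p ∩ o) := (Finset.smul_finset_inter).symm
        _ = d := by rw [Finset.inter_comm, hgd]
    obtain ⟨hsub, hcard⟩ := horb d (g • p) hd.2 hr
    have := Set.ncard_le_ncard hsub (Finset.finite_toSet _)
    rw [hcard, Set.ncard_coe_finset] at this
    exact this
  -- the classes partition the 448 octads meeting o in two points
  have hsum : ∑ d ∈ Finset.powersetCard 2 o, (Cd d).card = 448 := by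
    have h448 := (Steiner.s5824 hα hB ho).2.2.1
    unfold Steiner.cnt at h448
    rw [← h448]
    rw [Finset.card_eq_sum_card_fiberwise (f := fun r => r ∩ o) (t := Finset.powersetCard 2 o)]
    · apply Finset.sum_congr rfl
      intro d hd
      rw [Finset.mem_powersetCard] at hd
      congr 1
      ext r
      rw [hCd, Finset.mem_filter, Finset.mem_filter, Steiner.mem_blocks]
      constructor
      · rintro ⟨h1, h2⟩
        exact ⟨⟨h1, Finset.empty_subset _, by rw [h2]; exact hd.2⟩, h2⟩
      · rintro ⟨⟨h1, -, -⟩, h2⟩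
        exact ⟨h1, h2⟩
    · intro r hr
      rw [Finset.mem_coe, Finset.mem_filter] at hr
      show r ∩ o ∈ ((Finset.powersetCard 2 o : Finset (Finset GolayPt)) : Set (Finset GolayPt))
      rw [Finset.mem_coe, Finset.mem_powersetCard]
      exact ⟨Finset.inter_subset_right, hr.2.2⟩
  have hd0 : o ∩ q ∈ Finset.powersetCard 2 o := by
    rw [Finset.mem_powersetCard]
    exact ⟨Finset.inter_subset_left, by rw [← he]; exact h2⟩
  have hle : (Cd (o ∩ q)).card ≤ 16 := by
    have h1 := Finset.add_sum_erase (Finset.powersetCard 2 o) (fun d => (Cd d).card) hd0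
    have h2' := Finset.card_nsmul_le_sum ((Finset.powersetCard 2 o).erase (o ∩ q))
      (fun d => (Cd d).card) 16 (fun d hd => hge d (Finset.mem_of_mem_erase hd))
    rw [Finset.card_erase_of_mem hd0, Finset.card_powersetCard, ho.2, smul_eq_mul] at h2'
    have h28 : Nat.choose 8 2 = 28 := by decide
    rw [h28] at h2'
    have h3 : (fun d => (Cd d).card) (o ∩ q) = (Cd (o ∩ q)).card := rfl
    rw [hsum] at h1
    omega
  have hpC : p ∈ Cd (o ∩ q) := by
    rw [hCd]
    exact ⟨hp, by rw [Finset.inter_comm, he]⟩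
  have hqC : q ∈ Cd (o ∩ q) := by
    rw [hCd]
    exact ⟨hq, by rw [Finset.inter_comm]⟩
  obtain ⟨hsub, hcard⟩ := horb (o ∩ q) p (by rw [← he]; exact h2) hpC
  have heq := Set.eq_of_subset_of_ncard_le hsub (by rw [hcard, Set.ncard_coe_finset]; exact hle)
    (Finset.finite_toSet _)
  have hqR : q ∈ Set.range (fun k : ↥K => (k : Equiv.Perm GolayPt) • p) := by
    rw [heq]
    exact Finset.mem_coe.2 hqC
  obtain ⟨k, hk⟩ := hqR
  exact ⟨k.1, k.2, hk⟩

end Cfsg.Agent.Lib.Helper12
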