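import Mathlib
import Cfsg.Prelude.Def_Sporadic_a
import Cfsg.Agent.Lib.Helper12.OctadOrb2

set_option autoImplicit false

namespace Cfsg.Agent.Lib.Helper12

open Cfsg Pointwise
open Cfsg.Agent.Lib.Helper4 Cfsg.Agent.Lib.Helper4.Golay

theorem octad_symmDiff {o o' : Finset GolayPt} (ho : o ∈ octads) (ho' : o' ∈ octads)
    (h : (o ∩ o').card = 4) : symmDiff o o' ∈ octads := by
  rw [mem_octads_iff]
  refine ⟨gs_symmDiff ho.1 ho'.1, ?_⟩
  have := card_symmDiff_add o o'
  rw [h, ho.2, ho'.2] at this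
  omega

/-- octads disjoint from a given one never meet in exactly two points -/
theorem no_two {o a b : Finset GolayPt} (ho : o ∈ octads) (ha : a ∈ octads) (hb : b ∈ octads)
    (hoa : Disjoint o a) (hob : Disjoint o b) : (a ∩ b).card ≠ 2 := by
  intro h2
  have h1 := card_symmDiff_add a b
  rw [h2, ha.2, hb.2] at h1
  have hgs : symmDiff o (symmDiff a b) ∈ GS := gs_symmDiff ho.1 (gs_symmDiff ha.1 hb.1)
  have h3 := card_symmDiff_add o (symmDiff a b)
  have hdis : o ∩ symmDiff a b = ∅ := by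
    rw [← Finset.disjoint_iff_inter_eq_empty, Finset.disjoint_left]
    intro x hx hx'
    rw [Finset.mem_symmDiff] at hx'
    rcases hx' with h | h
    · exact Finset.disjoint_left.1 hoa hx h.1
    · exact Finset.disjoint_left.1 hob hx h.1
  rw [hdis, Finset.card_empty, ho.2] at h3
  have := gs_card hgs
  omega

/-- an octad through three points of a disjoint octad meeting the given octad in four points -/
theorem exists_mixed_octad {o o' X : Finset GolayPt} (ho : o ∈ octads) (_ho' : o' ∈ octads)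
    (hd : Disjoint o o') (hX : X ⊆ o') (hX3 : X.card = 3) :
    ∃ o1 ∈ octads, X ⊆ o1 ∧ (o1 ∩ o).card = 4 := by
  classical
  have hB := Cfsg.Agent.S0363.result
  have hα := card_pts
  have hone : o.Nonempty := by rw [← Finset.card_pos, ho.2]; norm_num
  obtain ⟨a, ha⟩ := hone
  have haX : a ∉ X := fun h => Finset.disjoint_left.1 hd ha (hX h)
  have hτ : (insert a X).card = 4 := by rw [Finset.card_insert_of_notMem haX, hX3]
  set F := (Steiner.blocks octads).filter (fun r => insert a X ⊆ r) with hF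
  have hFcard : F.card = 5 := (Steiner.s5824_deg hα hB (insert a X)).2.2.2.2.1 hτ
  have hFmem : ∀ r, r ∈ F ↔ r ∈ octads ∧ insert a X ⊆ r := by
    intro r
    rw [hF, Finset.mem_filter, Steiner.mem_blocks]
  have hcover : o.erase a ⊆ F.biUnion (fun r => (r ∩ o).erase a) := by
    intro b hb
    rw [Finset.mem_erase] at hb
    have hc : (insert b (insert a X)).card ≤ 5 := by
      have := Finset.card_insert_le b (insert a X)
      omega
    obtain ⟨r, hr, hsub⟩ := exists_octad_superset _ hc
    rw [Finset.mem_biUnion]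
    refine ⟨r, (hFmem r).2 ⟨hr, (Finset.subset_insert _ _).trans hsub⟩, ?_⟩
    rw [Finset.mem_erase, Finset.mem_inter]
    exact ⟨hb.1, hsub (Finset.mem_insert_self _ _), hb.2⟩
  have hex : ∃ r ∈ F, 2 ≤ ((r ∩ o).erase a).card := by
    by_contra hcon
    push Not at hcon
    have h1 := Finset.card_le_card hcover
    have h2 := Finset.card_biUnion_le (s := F) (t := fun r => (r ∩ o).erase a)
    have h3 : ∑ r ∈ F, ((r ∩ o).erase a).card ≤ F.card • 1 :=
      Finset.sum_le_card_nsmul F _ 1 (fun r hr => by have := hcon r hr; omega)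
    rw [Finset.card_erase_of_mem ha, ho.2] at h1
    rw [hFcard] at h3
    simp only [smul_eq_mul] at h3
    omega
  obtain ⟨r, hr, h2⟩ := hex
  obtain ⟨hr1, hr2⟩ := (hFmem r).1 hr
  have har : a ∈ r ∩ o := Finset.mem_inter.2 ⟨hr2 (Finset.mem_insert_self _ _), ha⟩
  rw [Finset.card_erase_of_mem har] at h2
  have hXr : X ⊆ r := (Finset.subset_insert _ _).trans hr2
  have hne : r ≠ o := by
    intro h
    have hXne : X.Nonempty := by rw [← Finset.card_pos]; omega
    obtain ⟨x, hx⟩ := hXne
    exact Finset.disjoint_left.1 hd (h ▸ hXr hx) (hX hx)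
  have h := Cfsg.Agent.S0352.result hα hB hr1 ho hne
  exact ⟨r, hr1, hXr, by omega⟩

/-- adjacent case: two octads disjoint from `o` and meeting in four points -/
theorem case0_adj {o o' o'' : Finset GolayPt} (ho : o ∈ octads) (ho' : o' ∈ octads)
    (ho'' : o'' ∈ octads) (hd' : Disjoint o o') (hd'' : Disjoint o o'')
    (h4 : (o' ∩ o'').card = 4) : ∃ k ∈ M24, k • o = o ∧ k • o' = o'' := by
  classical
  have hB := Cfsg.Agent.S0363.result
  have hα := card_pts
  have hso' : o' ∩ o'' ⊆ o' := Finset.inter_subset_left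
  have hso'' : o' ∩ o'' ⊆ o'' := Finset.inter_subset_right
  obtain ⟨X, hXs, hX3⟩ := Finset.exists_subset_card_eq (s := o' ∩ o'') (n := 3) (by omega)
  obtain ⟨o1, ho1, hX1, h14⟩ := exists_mixed_octad ho ho' hd' (hXs.trans hso') hX3
  have hne1 : (o1 ∩ o).Nonempty := by rw [← Finset.card_pos]; omega
  obtain ⟨x, hx⟩ := hne1
  have hx1 := (Finset.mem_inter.1 hx).1
  have hxo := (Finset.mem_inter.1 hx).2
  have h1' : o1 ≠ o' := fun h => Finset.disjoint_left.1 hd' hxo (h ▸ hx1)
  have h1'' : o1 ≠ o'' := fun h => Finset.disjoint_left.1 hd'' hxo (h ▸ hx1)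
  have c' : (o1 ∩ o').card = 4 := by
    have h := Cfsg.Agent.S0352.result hα hB ho1 ho' h1'
    have hsub : X ⊆ o1 ∩ o' := Finset.subset_inter hX1 (hXs.trans hso')
    have := Finset.card_le_card hsub
    omega
  have c'' : (o1 ∩ o'').card = 4 := by
    have h := Cfsg.Agent.S0352.result hα hB ho1 ho'' h1''
    have hsub : X ⊆ o1 ∩ o'' := Finset.subset_inter hX1 (hXs.trans hso'')
    have := Finset.card_le_card hsub
    omega
  have c1o : (o1 \ o).card = 4 := by
    rw [Finset.card_sdiff, ho1.2, Finset.inter_comm, h14]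
  have e' : o1 ∩ o' = o1 \ o := by
    apply Finset.eq_of_subset_of_card_le
    · intro z hz
      rw [Finset.mem_sdiff]
      exact ⟨(Finset.mem_inter.1 hz).1,
        fun h => Finset.disjoint_left.1 hd' h (Finset.mem_inter.1 hz).2⟩
    · rw [c1o, c']
  have e'' : o1 ∩ o'' = o1 \ o := by
    apply Finset.eq_of_subset_of_card_le
    · intro z hz
      rw [Finset.mem_sdiff]
      exact ⟨(Finset.mem_inter.1 hz).1,
        fun h => Finset.disjoint_left.1 hd'' h (Finset.mem_inter.1 hz).2⟩
    · rw [c1o, c'']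
  have hs1 : o1 \ o = o' ∩ o'' := by
    apply Finset.eq_of_subset_of_card_le
    · intro z hz
      have hz' : z ∈ o1 ∩ o' := by rw [e']; exact hz
      have hz'' : z ∈ o1 ∩ o'' := by rw [e'']; exact hz
      exact Finset.mem_inter.2 ⟨(Finset.mem_inter.1 hz').2, (Finset.mem_inter.1 hz'').2⟩
    · rw [c1o, h4]
  -- notation
  have hs_o1 : ∀ z ∈ o' ∩ o'', z ∈ o1 := fun z hz => by
    rw [← hs1] at hz; exact (Finset.mem_sdiff.1 hz).1
  have hs_no : ∀ z ∈ o' ∩ o'', z ∉ o := fun z hz => by
    rw [← hs1] at hz; exact (Finset.mem_sdiff.1 hz).2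
  have ho2 : symmDiff o o1 ∈ octads := octad_symmDiff ho ho1 (by rw [Finset.inter_comm]; exact h14)
  have hs_o2 : ∀ z ∈ o' ∩ o'', z ∈ symmDiff o o1 := fun z hz => by
    rw [Finset.mem_symmDiff]
    exact Or.inr ⟨hs_o1 z hz, hs_no z hz⟩
  -- the third octad
  have ho3 : (symmDiff o (symmDiff o' o''))ᶜ ∈ octads := by
    rw [mem_octads_iff]
    refine ⟨gs_compl (gs_symmDiff ho.1 (gs_symmDiff ho'.1 ho''.1)), ?_⟩
    have h1 := card_symmDiff_add o' o''
    rw [h4, ho'.2, ho''.2] at h1
    have h3 := card_symmDiff_add o (symmDiff o' o'')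
    have hdis : o ∩ symmDiff o' o'' = ∅ := by
      rw [← Finset.disjoint_iff_inter_eq_empty, Finset.disjoint_left]
      intro z hz hz'
      rw [Finset.mem_symmDiff] at hz'
      rcases hz' with h | h
      · exact Finset.disjoint_left.1 hd' hz h.1
      · exact Finset.disjoint_left.1 hd'' hz h.1
    rw [hdis, Finset.card_empty, ho.2] at h3
    rw [card_compl_pt]
    omega
  have hmem3 : ∀ p, p ∈ (symmDiff o (symmDiff o' o''))ᶜ ↔ p ∉ o ∧ (p ∈ o' ↔ p ∈ o'') := by
    intro p
    have a1 : p ∈ o → p ∉ o' := fun h h' => Finset.disjoint_left.1 hd' h h'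
    have a2 : p ∈ o → p ∉ o'' := fun h h' => Finset.disjoint_left.1 hd'' h h'
    rw [Finset.mem_compl, Finset.mem_symmDiff, Finset.mem_symmDiff]
    tauto
  set o3 := (symmDiff o (symmDiff o' o''))ᶜ with ho3def
  have hs_o3 : ∀ z ∈ o' ∩ o'', z ∈ o3 := fun z hz => by
    rw [hmem3]
    have hz' := Finset.mem_inter.1 hz
    exact ⟨hs_no z hz, ⟨fun _ => hz'.2, fun _ => hz'.1⟩⟩
  have hx3 : x ∉ o3 := fun h => ((hmem3 x).1 h).1 hxo
  have hyne : (o \ o1).Nonempty := by
    rw [← Finset.card_pos, Finset.card_sdiff, ho.2, h14]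
    norm_num
  obtain ⟨y, hy⟩ := hyne
  have hyo := (Finset.mem_sdiff.1 hy).1
  have hy1 := (Finset.mem_sdiff.1 hy).2
  have hy3 : y ∉ o3 := fun h => ((hmem3 y).1 h).1 hyo
  obtain ⟨k, hk, hkxy⟩ := fix_trans ho3 hx3 hy3
  have hk1 := (Subgroup.mem_inf.1 hk).1
  have hkfix : ∀ z ∈ o3, k z = z := by
    have hk2 := (Subgroup.mem_inf.1 hk).2
    rw [mem_fixingSubgroup_iff] at hk2
    exact fun z hz => hk2 z (Finset.mem_coe.2 hz)
  have hsq : k * k = 1 := (fix_octad ho3).2 k hk
  have hscard : (o' ∩ o'').card = 4 := h4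
  -- step 1
  have st1 : k • o1 = symmDiff o o1 := by
    apply octad_eq_of_five (smul_mem_weight hk1 ho1) ho2
    have hsub : insert y (o' ∩ o'') ⊆ k • o1 ∩ symmDiff o o1 := by
      intro z hz
      rcases Finset.mem_insert.1 hz with rfl | hz
      · refine Finset.mem_inter.2 ⟨?_, ?_⟩
        · rw [← hkxy]
          exact Finset.smul_mem_smul_finset hx1
        · rw [Finset.mem_symmDiff]
          exact Or.inl ⟨hyo, hy1⟩
      · refine Finset.mem_inter.2 ⟨?_, hs_o2 z hz⟩
        rw [← hkfix z (hs_o3 z hz)]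
        exact Finset.smul_mem_smul_finset (hs_o1 z hz)
    have hcard : (insert y (o' ∩ o'')).card = 5 := by
      rw [Finset.card_insert_of_notMem (fun h => hs_no y h hyo), hscard]
    calc 5 = _ := hcard.symm
      _ ≤ _ := Finset.card_le_card hsub
  have st2 : k • symmDiff o o1 = o1 := by
    rw [← st1, ← mul_smul, hsq, one_smul]
  have st3 : k • o = o := by
    have e : o = symmDiff o1 (symmDiff o o1) := by
      rw [symmDiff_comm o o1, symmDiff_symmDiff_cancel_left]
    calc k • o = k • symmDiff o1 (symmDiff o o1) := by rw [← e]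
      _ = symmDiff (k • o1) (k • symmDiff o o1) := Finset.smul_finset_symmDiff
      _ = symmDiff (symmDiff o o1) o1 := by rw [st1, st2]
      _ = o := by rw [symmDiff_comm, ← e]
  -- step 4
  have st4 : k • o' ≠ o' := by
    intro hfix
    have hzne : (o' \ (o' ∩ o'')).Nonempty := by
      rw [← Finset.card_pos, Finset.card_sdiff_of_subset hso', ho'.2, hscard]
      norm_num
    obtain ⟨z, hz⟩ := hzne
    have hzo' := (Finset.mem_sdiff.1 hz).1
    have hzs := (Finset.mem_sdiff.1 hz).2
    have hz3 : z ∉ o3 := by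
      intro h
      have := ((hmem3 z).1 h).2
      exact hzs (Finset.mem_inter.2 ⟨hzo', this.1 hzo'⟩)
    obtain ⟨k0, hk0, hk0xz⟩ := fix_trans ho3 hx3 hz3
    have hk01 := (Subgroup.mem_inf.1 hk0).1
    have hk0fix : ∀ w ∈ o3, k0 w = w := by
      have hk2 := (Subgroup.mem_inf.1 hk0).2
      rw [mem_fixingSubgroup_iff] at hk2
      exact fun w hw => hk2 w (Finset.mem_coe.2 hw)
    have e1 : k0 • o1 = o' := by
      apply octad_eq_of_five (smul_mem_weight hk01 ho1) ho'
      have hsub : insert z (o' ∩ o'') ⊆ k0 • o1 ∩ o' := by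
        intro w hw
        rcases Finset.mem_insert.1 hw with rfl | hw
        · refine Finset.mem_inter.2 ⟨?_, hzo'⟩
          rw [← hk0xz]
          exact Finset.smul_mem_smul_finset hx1
        · refine Finset.mem_inter.2 ⟨?_, hso' hw⟩
          rw [← hk0fix w (hs_o3 w hw)]
          exact Finset.smul_mem_smul_finset (hs_o1 w hw)
      have hcard : (insert z (o' ∩ o'')).card = 5 := by
        rw [Finset.card_insert_of_notMem hzs, hscard]
      calc 5 = _ := hcard.symm
        _ ≤ _ := Finset.card_le_card hsub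
    have hcomm := fix_comm ho3 hk hk0
    have e2 : k0 • symmDiff o o1 = o' := by
      calc k0 • symmDiff o o1 = k0 • (k • o1) := by rw [st1]
        _ = (k0 * k) • o1 := (mul_smul _ _ _).symm
        _ = (k * k0) • o1 := by rw [hcomm]
        _ = k • (k0 • o1) := mul_smul _ _ _
        _ = o' := by rw [e1, hfix]
    have e3 : symmDiff o o1 = o1 := smul_left_cancel k0 (e2.trans e1.symm)
    have hxn : x ∉ symmDiff o o1 := by
      rw [Finset.mem_symmDiff]
      rintro (h | h)
      · exact h.2 hx1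
      · exact h.2 hxo
    have hxin : x ∈ symmDiff o o1 := by rw [e3]; exact hx1
    exact hxn hxin
  -- step 5
  have hgo' : k • o' ∈ octads := smul_mem_weight hk1 ho'
  have hs_sub : o' ∩ o'' ⊆ k • o' ∩ o' := by
    intro w hw
    refine Finset.mem_inter.2 ⟨?_, hso' hw⟩
    rw [← hkfix w (hs_o3 w hw)]
    exact Finset.smul_mem_smul_finset (hso' hw)
  have st5 : k • o' ∩ o' = o' ∩ o'' := by
    symm
    apply Finset.eq_of_subset_of_card_le hs_sub
    have h := Cfsg.Agent.S0352.result hα hB hgo' ho' st4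
    have := Finset.card_le_card hs_sub
    omega
  -- step 6/7
  have st7 : k • o' ⊆ o'' := by
    intro p hp
    obtain ⟨w, hw, rfl⟩ := Finset.mem_smul_finset.1 hp
    have hpo : k • w ∉ o := by
      intro h
      rw [← st3] at h
      obtain ⟨v, hv, hvw⟩ := Finset.mem_smul_finset.1 h
      have : v = w := smul_left_cancel k hvw
      exact Finset.disjoint_left.1 hd' (this ▸ hv) hw
    by_cases hp3 : k • w ∈ o3
    · have h1 : k (k • w) = k • w := hkfix _ hp3
      have h2 : k • w = w := k.injective h1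
      have hw3 : w ∈ o3 := h2 ▸ hp3
      rw [h2]
      exact ((hmem3 w).1 hw3).2.1 hw
    · have h1 : ¬ (k • w ∈ o' ↔ k • w ∈ o'') := fun h => hp3 ((hmem3 _).2 ⟨hpo, h⟩)
      by_contra hno''
      have hino' : k • w ∈ o' := by
        by_contra hno'
        exact h1 ⟨fun h => absurd h hno', fun h => absurd h hno''⟩
      have : k • w ∈ k • o' ∩ o' := Finset.mem_inter.2 ⟨hp, hino'⟩
      rw [st5] at this
      exact hno'' (hso'' this)
  refine ⟨k, hk1, st3, ?_⟩
  apply Finset.eq_of_subset_of_card_le st7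
  rw [Finset.card_smul_finset, ho'.2, ho''.2]

end Cfsg.Agent.Lib.Helper12
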