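import Mathlib
import Cfsg.Prelude.Def_Sporadic_a
import Cfsg.Agent.Lib.Helper12.OctadOrb3

set_option autoImplicit false

namespace Cfsg.Agent.Lib.Helper12

open Cfsg Pointwise
open Cfsg.Agent.Lib.Helper4 Cfsg.Agent.Lib.Helper4.Golay

/-- the stabiliser of an octad is transitive on the octads disjoint from it -/
theorem case0 {o o' o'' : Finset GolayPt} (ho : o ∈ octads) (ho' : o' ∈ octads)
    (ho'' : o'' ∈ octads) (hd' : Disjoint o o') (hd'' : Disjoint o o'') :
    ∃ g ∈ M24, g • o = o ∧ g • o' = o'' := by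
  classical
  have hB := Cfsg.Agent.S0363.result
  have hα := card_pts
  by_cases heq : o' = o''
  · exact ⟨1, Subgroup.one_mem _, one_smul _ _, by rw [one_smul, heq]⟩
  have h := Cfsg.Agent.S0352.result hα hB ho' ho'' heq
  have hn2 := no_two ho ho' ho'' hd' hd''
  rcases h with h0 | h2 | h4
  · have hdd : Disjoint o' o'' := by
      rw [Finset.disjoint_iff_inter_eq_empty, ← Finset.card_eq_zero]; exact h0
    obtain ⟨X, hXs, hX3⟩ :=
      Finset.exists_subset_card_eq (s := o') (n := 3) (by rw [ho'.2]; norm_num)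
    obtain ⟨o1, ho1, hX1, h14⟩ := exists_mixed_octad ho ho' hd' hXs hX3
    have hne1 : (o1 ∩ o).Nonempty := by rw [← Finset.card_pos]; omega
    obtain ⟨x, hx⟩ := hne1
    have hx1 := (Finset.mem_inter.1 hx).1
    have hxo := (Finset.mem_inter.1 hx).2
    have h1' : o1 ≠ o' := fun h => Finset.disjoint_left.1 hd' hxo (h ▸ hx1)
    have c' : (o1 ∩ o').card = 4 := by
      have h := Cfsg.Agent.S0352.result hα hB ho1 ho' h1'
      have hsub : X ⊆ o1 ∩ o' := Finset.subset_inter hX1 hXs
      have := Finset.card_le_card hsub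
      omega
    have c1o : (o1 \ o).card = 4 := by
      rw [Finset.card_sdiff, ho1.2, Finset.inter_comm, h14]
    have e' : o1 ∩ o' = o1 \ o := by
      apply Finset.eq_of_subset_of_card_le
      · intro z hz
        rw [Finset.mem_sdiff]
        exact ⟨(Finset.mem_inter.1 hz).1,
          fun h => Finset.disjoint_left.1 hd' h (Finset.mem_inter.1 hz).2⟩
      · rw [c1o, c']
    have hone : o''.Nonempty := by rw [← Finset.card_pos, ho''.2]; norm_num
    obtain ⟨z, hz⟩ := hone
    have hzo : z ∉ o := fun h => Finset.disjoint_left.1 hd'' h hz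
    have hzo' : z ∉ o' := fun h => Finset.disjoint_left.1 hdd h hz
    have hz1 : z ∉ o1 := by
      intro h
      have h3 : z ∈ o1 \ o := Finset.mem_sdiff.2 ⟨h, hzo⟩
      rw [← e'] at h3
      exact hzo' (Finset.mem_inter.1 h3).2
    have hzs : z ∉ o1 ∩ o' := fun h => hzo' (Finset.mem_inter.1 h).2
    have hY : (insert z (o1 ∩ o')).card ≤ 5 := by rw [Finset.card_insert_of_notMem hzs, c']
    obtain ⟨q, hq, hYq⟩ := exists_octad_superset _ hY
    have hzq : z ∈ q := hYq (Finset.mem_insert_self _ _)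
    have hsq : o1 ∩ o' ⊆ q := (Finset.subset_insert _ _).trans hYq
    have hqo' : q ≠ o' := fun h => hzo' (h ▸ hzq)
    have cB : (o' ∩ q).card = 4 := by
      have h := Cfsg.Agent.S0352.result hα hB ho' hq (Ne.symm hqo')
      have hsub : o1 ∩ o' ⊆ o' ∩ q := Finset.subset_inter Finset.inter_subset_right hsq
      have := Finset.card_le_card hsub
      omega
    have ho2 : symmDiff o o1 ∈ octads :=
      octad_symmDiff ho ho1 (by rw [Finset.inter_comm]; exact h14)
    have hq1 : q ≠ o1 := fun h => hz1 (h ▸ hzq)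
    have hz2 : z ∉ symmDiff o o1 := by
      rw [Finset.mem_symmDiff]
      rintro (h | h)
      · exact hzo h.1
      · exact hz1 h.1
    have hq2 : q ≠ symmDiff o o1 := fun h => hz2 (h ▸ hzq)
    have hs1 : o1 ∩ o' ⊆ o1 := Finset.inter_subset_left
    have hs_no : ∀ w ∈ o1 ∩ o', w ∉ o :=
      fun w hw h => Finset.disjoint_left.1 hd' h (Finset.mem_inter.1 hw).2
    have hs2 : o1 ∩ o' ⊆ symmDiff o o1 :=
      fun w hw => Finset.mem_symmDiff.2 (Or.inr ⟨hs1 hw, hs_no w hw⟩)
    have eq1 : q ∩ o1 = o1 ∩ o' := by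
      symm
      apply Finset.eq_of_subset_of_card_le (Finset.subset_inter hsq hs1)
      have h := Cfsg.Agent.S0352.result hα hB hq ho1 hq1
      have := Finset.card_le_card (Finset.subset_inter hsq hs1)
      omega
    have eq2 : q ∩ symmDiff o o1 = o1 ∩ o' := by
      symm
      apply Finset.eq_of_subset_of_card_le (Finset.subset_inter hsq hs2)
      have h := Cfsg.Agent.S0352.result hα hB hq ho2 hq2
      have := Finset.card_le_card (Finset.subset_inter hsq hs2)
      omega
    have hA : Disjoint o q := by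
      rw [Finset.disjoint_left]
      intro p hpo hpq
      by_cases hp1 : p ∈ o1
      · have h3 : p ∈ q ∩ o1 := Finset.mem_inter.2 ⟨hpq, hp1⟩
        rw [eq1] at h3
        exact hs_no p h3 hpo
      · have h3 : p ∈ q ∩ symmDiff o o1 :=
          Finset.mem_inter.2 ⟨hpq, Finset.mem_symmDiff.2 (Or.inl ⟨hpo, hp1⟩)⟩
        rw [eq2] at h3
        exact hs_no p h3 hpo
    have hqo'' : q ≠ o'' := by
      intro h
      have hsne : (o1 ∩ o').Nonempty := by rw [← Finset.card_pos, c']; norm_num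
      obtain ⟨w, hw⟩ := hsne
      have hwq : w ∈ q := hsq hw
      rw [h] at hwq
      exact Finset.disjoint_left.1 hdd (Finset.mem_inter.1 hw).2 hwq
    have cC : (q ∩ o'').card = 4 := by
      have h := Cfsg.Agent.S0352.result hα hB hq ho'' hqo''
      have hn := no_two ho hq ho'' hA hd''
      have hpos : 0 < (q ∩ o'').card := Finset.card_pos.2 ⟨z, Finset.mem_inter.2 ⟨hzq, hz⟩⟩
      omega
    obtain ⟨g1, hg1, e1, e2⟩ := case0_adj ho ho' hq hd' hA cB
    obtain ⟨g2, hg2, e3, e4⟩ := case0_adj ho hq ho'' hA hd'' cC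
    exact ⟨g2 * g1, Subgroup.mul_mem _ hg2 hg1, by rw [mul_smul, e1, e3],
      by rw [mul_smul, e2, e4]⟩
  · exact absurd h2 hn2
  · exact case0_adj ho ho' ho'' hd' hd'' h4

/-- orbits of an octad stabiliser on octads are classified by the intersection size -/
theorem octad_orbits (o o' o'' : Finset GolayPt) (ho : o ∈ octads) (ho' : o' ∈ octads)
    (ho'' : o'' ∈ octads) (h : (o ∩ o').card = (o ∩ o'').card) :
    ∃ g ∈ M24, g • o = o ∧ g • o' = o'' := by
  have hB := Cfsg.Agent.S0363.result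
  have hα := card_pts
  by_cases h1 : o = o'
  · have h8 : (o ∩ o'').card = 8 := by rw [← h, ← h1, Finset.inter_self, ho.2]
    have h3 : o = o'' := octad_eq_of_five ho ho'' (by omega)
    exact ⟨1, Subgroup.one_mem _, one_smul _ _, by rw [one_smul, ← h1, h3]⟩
  have hc := Cfsg.Agent.S0352.result hα hB ho ho' h1
  rcases hc with h0 | h2' | h4
  · have hd' : Disjoint o o' := by
      rw [Finset.disjoint_iff_inter_eq_empty, ← Finset.card_eq_zero]; exact h0
    have hd'' : Disjoint o o'' := by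
      rw [Finset.disjoint_iff_inter_eq_empty, ← Finset.card_eq_zero, ← h]; exact h0
    exact case0 ho ho' ho'' hd' hd''
  · obtain ⟨g1, hg1, e1, e2⟩ := stab_hom ho (Finset.inter_subset_left : o ∩ o' ⊆ o)
      (Finset.inter_subset_left : o ∩ o'' ⊆ o) h (by omega)
    have hp : g1 • o' ∈ octads := smul_mem_weight hg1 ho'
    have hint : o ∩ g1 • o' = o ∩ o'' := by
      calc o ∩ g1 • o' = g1 • o ∩ g1 • o' := by rw [e1]
        _ = g1 • (o ∩ o') := (Finset.smul_finset_inter).symm
        _ = o ∩ o'' := e2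
    obtain ⟨k, hk, e3⟩ := case2 ho hp ho'' (by rw [hint, ← h]; exact h2') hint
    refine ⟨k * g1, Subgroup.mul_mem _ (Subgroup.mem_inf.1 hk).1 hg1, ?_, by rw [mul_smul, e3]⟩
    rw [mul_smul, e1]
    exact MulAction.mem_stabilizer_iff.1 (fix_le_stab o (Subgroup.mem_inf.1 hk).2)
  · obtain ⟨g1, hg1, e1, e2⟩ := stab_hom ho (Finset.inter_subset_left : o ∩ o' ⊆ o)
      (Finset.inter_subset_left : o ∩ o'' ⊆ o) h (by omega)
    have hp : g1 • o' ∈ octads := smul_mem_weight hg1 ho'
    have hint : o ∩ g1 • o' = o ∩ o'' := by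
      calc o ∩ g1 • o' = g1 • o ∩ g1 • o' := by rw [e1]
        _ = g1 • (o ∩ o') := (Finset.smul_finset_inter).symm
        _ = o ∩ o'' := e2
    obtain ⟨k, hk, e3⟩ := case4 ho hp ho'' (by rw [hint, ← h]; exact h4) hint
    refine ⟨k * g1, Subgroup.mul_mem _ (Subgroup.mem_inf.1 hk).1 hg1, ?_, by rw [mul_smul, e3]⟩
    rw [mul_smul, e1]
    exact MulAction.mem_stabilizer_iff.1 (fix_le_stab o (Subgroup.mem_inf.1 hk).2)

end Cfsg.Agent.Lib.Helper12
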