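import Mathlib
import Cfsg.Agent.Lib.Helper4.GolayDod2

set_option autoImplicit false

namespace Cfsg.Agent.Lib.Helper12

open Cfsg.Agent.Lib.Helper4.Golay

/-- Maximality of a point stabiliser by orbit counting: if the only stabiliser-invariant subsets
of the orbit that contain the point and whose size divides the orbit length are the trivial ones,
the stabiliser is a maximal subgroup. -/
theorem isCoatom_stabilizer_of_card {G : Type*} [Group G] [Finite G] {Ω : Type*} [MulAction G Ω]
    (ω : Ω) (N : ℕ) (hN : (MulAction.orbit G ω).ncard = N) (hN1 : 1 < N)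
    (h : ∀ S : Set Ω, S ⊆ MulAction.orbit G ω → ω ∈ S →
      (∀ g ∈ MulAction.stabilizer G ω, ∀ x ∈ S, g • x ∈ S) → S.ncard ∣ N →
      S = {ω} ∨ S = MulAction.orbit G ω) :
    IsCoatom (MulAction.stabilizer G ω) := by
  have hG := card_orbit_mul_stab (G := G) ω
  rw [hN] at hG
  constructor
  · intro htop
    have horb : MulAction.orbit G ω = {ω} := by
      ext x
      constructor
      · rintro ⟨g, rfl⟩
        have hg : g ∈ MulAction.stabilizer G ω := by rw [htop]; exact Subgroup.mem_top g
        exact MulAction.mem_stabilizer_iff.1 hg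
      · rintro rfl
        exact MulAction.mem_orbit_self _
    rw [horb, Set.ncard_singleton] at hN
    omega
  · intro M hM
    set S : Set Ω := {x | ∃ m ∈ M, m • ω = x} with hS
    have hS1 : S ⊆ MulAction.orbit G ω := by
      rintro x ⟨m, -, rfl⟩
      exact ⟨m, rfl⟩
    have hS2 : ω ∈ S := ⟨1, M.one_mem, one_smul _ _⟩
    have hS3 : ∀ g ∈ MulAction.stabilizer G ω, ∀ x ∈ S, g • x ∈ S := by
      rintro g hg x ⟨m, hm, rfl⟩
      exact ⟨g * m, M.mul_mem (hM.le hg) hm, mul_smul _ _ _⟩
    have hS4 : S.ncard ∣ N := by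
      have e1 : S = MulAction.orbit ↥M ω := by
        ext x
        constructor
        · rintro ⟨m, hm, rfl⟩
          exact ⟨⟨m, hm⟩, rfl⟩
        · rintro ⟨m, rfl⟩
          exact ⟨m.1, m.2, rfl⟩
      have hM1 := card_orbit_mul_stab (G := ↥M) ω
      rw [← e1] at hM1
      have e2 : Nat.card (MulAction.stabilizer ↥M ω) = Nat.card (MulAction.stabilizer G ω) := by
        apply Nat.card_congr
        exact
          { toFun := fun x => ⟨x.1.1, x.2⟩
            invFun := fun y => ⟨⟨y.1, hM.le y.2⟩, y.2⟩
            left_inv := fun _ => rfl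
            right_inv := fun _ => rfl }
      rw [e2] at hM1
      have hdvd : Nat.card M ∣ Nat.card G := Subgroup.card_subgroup_dvd_card M
      rw [hM1, hG] at hdvd
      have hpos : 0 < Nat.card (MulAction.stabilizer G ω) := Nat.card_pos
      exact Nat.dvd_of_mul_dvd_mul_right hpos hdvd
    rcases h S hS1 hS2 hS3 hS4 with h1 | h1
    · exfalso
      have hle : M ≤ MulAction.stabilizer G ω := by
        intro m hm
        have hmS : m • ω ∈ S := ⟨m, hm, rfl⟩
        rw [h1] at hmS
        exact MulAction.mem_stabilizer_iff.2 hmS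
      exact lt_irrefl _ (lt_of_lt_of_le hM hle)
    · rw [eq_top_iff]
      intro g _
      have hgS : g • ω ∈ S := by rw [h1]; exact ⟨g, rfl⟩
      obtain ⟨m, hm, hmg⟩ := hgS
      have hgH : m⁻¹ * g ∈ MulAction.stabilizer G ω := by
        rw [MulAction.mem_stabilizer_iff, mul_smul, ← hmg, inv_smul_smul]
      have h3 := M.mul_mem hm (hM.le hgH)
      rwa [mul_inv_cancel_left] at h3

end Cfsg.Agent.Lib.Helper12
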