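import Mathlib

set_option autoImplicit false

namespace Cfsg.Agent.Lib.Helper12

/-- Primitivity criterion: a point stabiliser is a maximal subgroup as soon as, for every other
point `ω'` of the orbit, some relation contained in the orbital of `(ω, ω')` connects `ω` to every
point of the orbit. -/
theorem isCoatom_stabilizer_of_orbital {G : Type*} [Group G] {Ω : Type*} [MulAction G Ω] (ω : Ω)
    (h1 : ∃ g : G, g • ω ≠ ω)
    (h2 : ∀ ω' ∈ MulAction.orbit G ω, ω' ≠ ω → ∃ R : Ω → Ω → Prop,
      (∀ α β, R α β → ∃ g : G, g • ω = α ∧ g • ω' = β) ∧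
      ∀ β ∈ MulAction.orbit G ω, Relation.ReflTransGen R ω β) :
    IsCoatom (MulAction.stabilizer G ω) := by
  constructor
  · intro htop
    obtain ⟨g, hg⟩ := h1
    apply hg
    have : g ∈ MulAction.stabilizer G ω := by rw [htop]; exact Subgroup.mem_top g
    exact MulAction.mem_stabilizer_iff.1 this
  · intro M hM
    obtain ⟨m, hmM, hmH⟩ := SetLike.exists_of_lt hM
    have hm : m • ω ≠ ω := fun h => hmH (MulAction.mem_stabilizer_iff.2 h)
    obtain ⟨R, hR1, hR2⟩ := h2 (m • ω) ⟨m, rfl⟩ hm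
    have key : ∀ β, Relation.ReflTransGen R ω β → ∃ m' ∈ M, m' • ω = β := by
      intro β hβ
      induction hβ with
      | refl => exact ⟨1, Subgroup.one_mem _, one_smul _ _⟩
      | tail _ hab ih =>
        obtain ⟨m1, hm1, hm1ω⟩ := ih
        obtain ⟨g, hg1, hg2⟩ := hR1 _ _ hab
        have hgH : m1⁻¹ * g ∈ MulAction.stabilizer G ω := by
          rw [MulAction.mem_stabilizer_iff, mul_smul, hg1, ← hm1ω, inv_smul_smul]
        have hgM : g ∈ M := by
          have h3 := Subgroup.mul_mem _ hm1 (hM.le hgH)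
          rwa [mul_inv_cancel_left] at h3
        exact ⟨g * m, Subgroup.mul_mem _ hgM hmM, by rw [mul_smul, hg2]⟩
    rw [eq_top_iff]
    intro g _
    obtain ⟨m', hm', hm'ω⟩ := key (g • ω) (hR2 _ ⟨g, rfl⟩)
    have hgH : m'⁻¹ * g ∈ MulAction.stabilizer G ω := by
      rw [MulAction.mem_stabilizer_iff, mul_smul, ← hm'ω, inv_smul_smul]
    have h3 := Subgroup.mul_mem _ hm' (hM.le hgH)
    rwa [mul_inv_cancel_left] at h3

end Cfsg.Agent.Lib.Helper12
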