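import Mathlib
import Cfsg.Prelude.Def_Local
import Cfsg.Agent.Lib.Helper6.PSolv

set_option autoImplicit false

namespace Cfsg.Agent.Lib.Helper12

open Cfsg Cfsg.Agent.Lib.Helper6 Cfsg.Agent.Lib.Helper14

universe u

variable {G : Type u} [Group G] [Finite G] {p : ℕ} [hp : Fact p.Prime]

/-- the shape of a group of `p`-length at most one -/
theorem plen1_struct (h : PLengthLE p 1 G) :
    ∃ V W : Subgroup G, V.Normal ∧ W.Normal ∧ V ≤ W ∧ (Nat.card V).Coprime p ∧
      (∀ x ∈ W, ∃ k : ℕ, x ^ p ^ k ∈ V) ∧ (W.index).Coprime p := by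
  have h0 : (upperPSeries p G 0).1 = ⊥ := upperPSeries_zero
  have h1 : (upperPSeries p G 1).1 = (pPrimeCore p (G ⧸ (upperPSeries p G 0).1)).comap
      (QuotientGroup.mk' (upperPSeries p G 0).1) := upperPSeries_succ_even 0 (by decide)
  have h2 : (upperPSeries p G 2).1 = (pCore p (G ⧸ (upperPSeries p G 1).1)).comap
      (QuotientGroup.mk' (upperPSeries p G 1).1) := upperPSeries_succ_odd 1 (by decide)
  have h3 : (upperPSeries p G 3).1 = (pPrimeCore p (G ⧸ (upperPSeries p G 2).1)).comap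
      (QuotientGroup.mk' (upperPSeries p G 2).1) := upperPSeries_succ_even 2 (by decide)
  have htop : (upperPSeries p G 3).1 = ⊤ := h
  refine ⟨(upperPSeries p G 1).1, (upperPSeries p G 2).1, (upperPSeries p G 1).2,
    (upperPSeries p G 2).2, ?_, ?_, ?_, ?_⟩
  · intro x hx
    rw [h2, Subgroup.mem_comap]
    have e : QuotientGroup.mk' (upperPSeries p G 1).1 x = 1 := (QuotientGroup.eq_one_iff x).2 hx
    rw [e]
    exact Subgroup.one_mem _
  · have hel : ∀ x ∈ (upperPSeries p G 1).1, (orderOf x).Coprime p := by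
      intro x hx
      rw [h1] at hx
      have hx' := orderOf_coprime_of_mem_pPrimeCore (Subgroup.mem_comap.1 hx)
      have hinj : Function.Injective (QuotientGroup.mk' (upperPSeries p G 0).1) := by
        rw [injective_iff_map_eq_one]
        intro a ha
        have ha' : a ∈ (upperPSeries p G 0).1 := (QuotientGroup.eq_one_iff a).1 ha
        rw [h0] at ha'
        exact Subgroup.mem_bot.1 ha'
      rwa [orderOf_injective _ hinj] at hx'
    by_contra hcon
    have hdvd : p ∣ Nat.card (upperPSeries p G 1).1 := by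
      by_contra hnd
      exact hcon (Nat.Coprime.symm ((Nat.Prime.coprime_iff_not_dvd hp.1).2 hnd))
    obtain ⟨x, hx⟩ := exists_prime_orderOf_dvd_card' p hdvd
    have h4 := hel x.1 x.2
    rw [Subgroup.orderOf_coe, hx] at h4
    exact (Nat.Prime.one_lt hp.1).ne' ((Nat.coprime_self p).1 h4)
  · intro x hx
    rw [h2] at hx
    obtain ⟨k, hk⟩ := exists_pow_eq_one_of_mem_pCore (Subgroup.mem_comap.1 hx)
    refine ⟨k, ?_⟩
    rw [← map_pow] at hk
    exact (QuotientGroup.eq_one_iff _).1 hk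
  · rw [Subgroup.index_eq_card]
    have hall : pPrimeCore p (G ⧸ (upperPSeries p G 2).1) = ⊤ := by
      rw [eq_top_iff]
      intro y _
      obtain ⟨x, rfl⟩ := QuotientGroup.mk'_surjective _ y
      have hx : x ∈ (upperPSeries p G 3).1 := by rw [htop]; exact Subgroup.mem_top x
      rw [h3] at hx
      exact Subgroup.mem_comap.1 hx
    have hc := pPrimeCore_coprime (G := G ⧸ (upperPSeries p G 2).1) p
    rw [hall, Subgroup.card_top] at hc
    exact hc

theorem pgroup_le_of_index_coprime {W : Subgroup G} [W.Normal] (hW : W.index.Coprime p)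
    (Q : Subgroup G) (hQ : IsPGroup p Q) : Q ≤ W := by
  intro s hs
  obtain ⟨k, hk⟩ := hQ ⟨s, hs⟩
  have hk' : s ^ p ^ k = 1 := congrArg Subtype.val hk
  have h1 : orderOf (QuotientGroup.mk' W s) ∣ p ^ k := by
    apply orderOf_dvd_of_pow_eq_one
    rw [← map_pow, hk', map_one]
  have h2 : orderOf (QuotientGroup.mk' W s) ∣ W.index := by
    rw [Subgroup.index_eq_card]
    exact orderOf_dvd_natCard _
  have hc : (p ^ k).Coprime W.index := Nat.Coprime.pow_left k hW.symm
  have h3 : orderOf (QuotientGroup.mk' W s) = 1 := Nat.eq_one_of_dvd_coprimes hc h1 h2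
  rw [orderOf_eq_one_iff] at h3
  exact (QuotientGroup.eq_one_iff s).1 h3

theorem eq_sup_sylow {V W : Subgroup G} [V.Normal] [W.Normal] (hVW : V ≤ W)
    (hW : ∀ x ∈ W, ∃ k : ℕ, x ^ p ^ k ∈ V) (hidx : W.index.Coprime p) (S : Sylow p G) :
    W = V ⊔ (S : Subgroup G) := by
  have hSW : (S : Subgroup G) ≤ W := pgroup_le_of_index_coprime hidx S S.2
  apply le_antisymm _ (sup_le hVW hSW)
  rw [← Subgroup.relIndex_eq_one]
  have d1 : (V ⊔ (S : Subgroup G)).relIndex W ∣ V.relIndex W :=
    Subgroup.relIndex_dvd_of_le_left W le_sup_left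
  have d2 : (V ⊔ (S : Subgroup G)).relIndex W ∣ (S : Subgroup G).index := by
    have h1 := Subgroup.relIndex_dvd_of_le_left W (le_sup_right : (S : Subgroup G) ≤ V ⊔ S)
    exact h1.trans (Dvd.intro _ (Subgroup.relIndex_mul_index hSW))
  have hpow : ∃ a, V.relIndex W = p ^ a := by
    have e1 : V = (⊥ : Subgroup (G ⧸ V)).comap (QuotientGroup.mk' V) := by
      rw [MonoidHom.comap_bot, QuotientGroup.ker_mk']
    have e2 : V.relIndex W = Nat.card (W.map (QuotientGroup.mk' V)) := by
      conv_lhs => rw [e1]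
      rw [Subgroup.relIndex_comap, Subgroup.relIndex_bot_left]
    rw [e2]
    have hpg : IsPGroup p (W.map (QuotientGroup.mk' V)) := by
      rintro ⟨y, hy⟩
      obtain ⟨x, hx, rfl⟩ := hy
      obtain ⟨k, hk⟩ := hW x hx
      refine ⟨k, Subtype.ext ?_⟩
      show (QuotientGroup.mk' V x) ^ p ^ k = 1
      rw [← map_pow]
      exact (QuotientGroup.eq_one_iff _).2 hk
    exact IsPGroup.iff_card.1 hpg
  obtain ⟨a, ha⟩ := hpow
  rw [ha] at d1
  have hcop : ((S : Subgroup G).index).Coprime (p ^ a) :=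
    Nat.Coprime.pow_right a (Nat.Coprime.symm ((Nat.Prime.coprime_iff_not_dvd hp.1).2
      S.not_dvd_index))
  exact Nat.eq_one_of_dvd_coprimes hcop d2 d1

/-- `p`-length one: `G = O_{p'}(G) N_G(S)` and every `p`-subgroup lies in `O_{p'}(G) S`
(with `V` in the role of `O_{p'}(G)`) -/
theorem plen1 (h : PLengthLE p 1 G) (S : Sylow p G) :
    ∃ V : Subgroup G, V.Normal ∧ (Nat.card V).Coprime p ∧
      (∀ Q : Subgroup G, IsPGroup p Q → Q ≤ V ⊔ (S : Subgroup G)) ∧
      V ⊔ Subgroup.normalizer ((S : Subgroup G) : Set G) = ⊤ := by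
  obtain ⟨V, W, hV, hWn, hVW, hVc, hWp, hWi⟩ := plen1_struct h
  have := hV
  have := hWn
  have hW := eq_sup_sylow hVW hWp hWi S
  refine ⟨V, hV, hVc, ?_, ?_⟩
  · intro Q hQ
    rw [← hW]
    exact pgroup_le_of_index_coprime hWi Q hQ
  · have hSW : (S : Subgroup G) ≤ W := by rw [hW]; exact le_sup_right
    have hf := Sylow.normalizer_sup_eq_top' S hSW
    rw [eq_top_iff, ← hf, hW]
    exact sup_le le_sup_right (sup_le le_sup_left (Subgroup.le_normalizer.trans le_sup_right))

end Cfsg.Agent.Lib.Helper12
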