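import Mathlib
import Cfsg.Prelude.Def_Local
import Cfsg.Agent.Lib.Helper12.PLen1

set_option autoImplicit false
set_option linter.style.haveILetI false

namespace Cfsg.Agent.Lib.Helper12

open Cfsg Cfsg.Agent.Lib.Helper6 Cfsg.Agent.Lib.Helper14

universe u

variable {G : Type u} [Group G] [Finite G] {p : ℕ} [hp : Fact p.Prime]

/-- relative index of a normal subgroup with `p`-power quotient section -/
theorem relIndex_pow_of_pow_mem {V W : Subgroup G} [V.Normal]
    (hW : ∀ x ∈ W, ∃ k : ℕ, x ^ p ^ k ∈ V) : ∃ a, V.relIndex W = p ^ a := by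
  have e1 : V = (⊥ : Subgroup (G ⧸ V)).comap (QuotientGroup.mk' V) := by
    rw [MonoidHom.comap_bot, QuotientGroup.ker_mk']
  have e2 : V.relIndex W = Nat.card (W.map (QuotientGroup.mk' V)) := by
    conv_lhs => rw [e1]
    rw [Subgroup.relIndex_comap, Subgroup.relIndex_bot_left]
  rw [e2]
  have hpg : IsPGroup p (W.map (QuotientGroup.mk' V)) := by
    rintro ⟨y, hy⟩
    obtain ⟨x, hx, rfl⟩ := hy
    obtain ⟨k, hk⟩ := hW x hx
    refine ⟨k, Subtype.ext ?_⟩
    show (QuotientGroup.mk' V x) ^ p ^ k = 1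
    rw [← map_pow]
    exact (QuotientGroup.eq_one_iff _).2 hk
  exact IsPGroup.iff_card.1 hpg

/-- a three step chain with `p'`, `p`, `p'` factors witnesses `p`-solvability -/
theorem isPSolvable_of_chain (V W : Subgroup G) (hV : V.Normal) (hW : W.Normal) (hVW : V ≤ W)
    (h1 : (Nat.card V).Coprime p) (h2 : ∃ m, V.relIndex W = p ^ m) (h3 : W.index.Coprime p) :
    IsPSolvable p G := by
  refine ⟨3, ![⊥, V, W, ⊤], rfl, rfl, ?_, ?_, ?_⟩
  · rw [Fin.monotone_iff_le_succ]
    intro i
    fin_cases i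
    · exact bot_le
    · exact hVW
    · exact le_top
  · intro i
    fin_cases i
    · exact Subgroup.normal_bot
    · exact hV
    · exact hW
    · exact Subgroup.normal_top
  · intro i
    fin_cases i
    · right
      show ((⊥ : Subgroup G).relIndex V).Coprime p
      rw [Subgroup.relIndex_bot_left]
      exact h1
    · left
      exact h2
    · right
      show (W.relIndex ⊤).Coprime p
      rw [Subgroup.relIndex_top_right]
      exact h3

/-- the shape of a group of `p`-length at most one, with the Hall–Higman centraliser property -/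
theorem plen1_hh (h : PLengthLE p 1 G) :
    ∃ V W : Subgroup G, V.Normal ∧ W.Normal ∧ V ≤ W ∧ (Nat.card V).Coprime p ∧
      (∀ x ∈ W, ∃ k : ℕ, x ^ p ^ k ∈ V) ∧ (W.index).Coprime p ∧
      (∀ x : G, (∀ w ∈ W, x * w * x⁻¹ * w⁻¹ ∈ V) → x ∈ W) := by
  have h0 : (upperPSeries p G 0).1 = ⊥ := upperPSeries_zero
  have h1 : (upperPSeries p G 1).1 = (pPrimeCore p (G ⧸ (upperPSeries p G 0).1)).comap
      (QuotientGroup.mk' (upperPSeries p G 0).1) := upperPSeries_succ_even 0 (by decide)
  have h2 : (upperPSeries p G 2).1 = (pCore p (G ⧸ (upperPSeries p G 1).1)).comap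
      (QuotientGroup.mk' (upperPSeries p G 1).1) := upperPSeries_succ_odd 1 (by decide)
  have h3 : (upperPSeries p G 3).1 = (pPrimeCore p (G ⧸ (upperPSeries p G 2).1)).comap
      (QuotientGroup.mk' (upperPSeries p G 2).1) := upperPSeries_succ_even 2 (by decide)
  have htop : (upperPSeries p G 3).1 = ⊤ := h
  haveI hVn : (upperPSeries p G 1).1.Normal := (upperPSeries p G 1).2
  haveI hWn : (upperPSeries p G 2).1.Normal := (upperPSeries p G 2).2
  haveI hU0n : (upperPSeries p G 0).1.Normal := (upperPSeries p G 0).2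
  have hVW : (upperPSeries p G 1).1 ≤ (upperPSeries p G 2).1 := by
    intro x hx
    rw [h2, Subgroup.mem_comap]
    have e : QuotientGroup.mk' (upperPSeries p G 1).1 x = 1 := (QuotientGroup.eq_one_iff x).2 hx
    rw [e]
    exact Subgroup.one_mem _
  have hVc : (Nat.card (upperPSeries p G 1).1).Coprime p := by
    have hel : ∀ x ∈ (upperPSeries p G 1).1, (orderOf x).Coprime p := by
      intro x hx
      rw [h1] at hx
      have hx' := orderOf_coprime_of_mem_pPrimeCore (Subgroup.mem_comap.1 hx)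
      have hinj : Function.Injective (QuotientGroup.mk' (upperPSeries p G 0).1) := by
        rw [injective_iff_map_eq_one]
        intro a ha
        have ha' : a ∈ (upperPSeries p G 0).1 := (QuotientGroup.eq_one_iff a).1 ha
        rw [h0] at ha'
        exact Subgroup.mem_bot.1 ha'
      rwa [orderOf_injective _ hinj] at hx'
    by_contra hcon
    have hdvd : p ∣ Nat.card (upperPSeries p G 1).1 := by
      by_contra hnd
      exact hcon (Nat.Coprime.symm ((Nat.Prime.coprime_iff_not_dvd hp.1).2 hnd))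
    obtain ⟨x, hx⟩ := exists_prime_orderOf_dvd_card' p hdvd
    have h4 := hel x.1 x.2
    rw [Subgroup.orderOf_coe, hx] at h4
    exact (Nat.Prime.one_lt hp.1).ne' ((Nat.coprime_self p).1 h4)
  have hWp : ∀ x ∈ (upperPSeries p G 2).1, ∃ k : ℕ, x ^ p ^ k ∈ (upperPSeries p G 1).1 := by
    intro x hx
    rw [h2] at hx
    obtain ⟨k, hk⟩ := exists_pow_eq_one_of_mem_pCore (Subgroup.mem_comap.1 hx)
    refine ⟨k, ?_⟩
    rw [← map_pow] at hk
    exact (QuotientGroup.eq_one_iff _).1 hk
  have hWi : ((upperPSeries p G 2).1.index).Coprime p := by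
    rw [Subgroup.index_eq_card]
    have hall : pPrimeCore p (G ⧸ (upperPSeries p G 2).1) = ⊤ := by
      rw [eq_top_iff]
      intro y _
      obtain ⟨x, rfl⟩ := QuotientGroup.mk'_surjective _ y
      have hx : x ∈ (upperPSeries p G 3).1 := by rw [htop]; exact Subgroup.mem_top x
      rw [h3] at hx
      exact Subgroup.mem_comap.1 hx
    have hc := pPrimeCore_coprime (G := G ⧸ (upperPSeries p G 2).1) p
    rw [hall, Subgroup.card_top] at hc
    exact hc
  refine ⟨(upperPSeries p G 1).1, (upperPSeries p G 2).1, hVn, hWn, hVW, hVc, hWp, hWi, ?_⟩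
  -- Hall–Higman
  have hsolv : IsPSolvable p G :=
    isPSolvable_of_chain _ _ hVn hWn hVW hVc (relIndex_pow_of_pow_mem hWp) hWi
  have hsolvq : IsPSolvable p (G ⧸ (upperPSeries p G 1).1) := isPSolvable_quotient hp.1 _ hsolv
  have hO : pPrimeCore p (G ⧸ (upperPSeries p G 1).1) = ⊥ :=
    pPrimeCore_quotient_comap_eq_bot (upperPSeries p G 0).1 (upperPSeries p G 1).1 h1
  have hHH := centralizer_pCore_le_of_isPSolvable hsolvq hO
  intro x hx
  rw [h2, Subgroup.mem_comap]
  apply hHH
  rw [Subgroup.mem_centralizer_iff]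
  intro y hy
  obtain ⟨w, rfl⟩ := QuotientGroup.mk'_surjective _ y
  have hw : w ∈ (upperPSeries p G 2).1 := by
    rw [h2, Subgroup.mem_comap]
    exact hy
  have hc := hx w hw
  have e1 : (QuotientGroup.mk' (upperPSeries p G 1).1) (x * w * x⁻¹ * w⁻¹) = 1 :=
    (QuotientGroup.eq_one_iff _).2 hc
  rw [map_mul, map_mul, map_mul, map_inv, map_inv] at e1
  have e2 := mul_inv_eq_one.mp e1
  have e3 := mul_inv_eq_iff_eq_mul.mp e2
  exact e3.symm

end Cfsg.Agent.Lib.Helper12
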