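import Mathlib
import Cfsg.Prelude.Def_Solvable
import Cfsg.Agent.Lib.Helper12.QuadIrr
import Cfsg.Agent.Lib.Helper12.CN
import Cfsg.Agent.Lib.Helper1.Cores
import Cfsg.Agent.S0199

set_option autoImplicit false
set_option linter.unusedSimpArgs false
set_option linter.style.haveILetI false
set_option linter.unusedSectionVars false

/-!
`p`-stability of solvable groups of odd order: an element acting quadratically on a normal
`p`-subgroup `V` maps into `O_p(Z / C_Z(V))`.
-/

namespace Cfsg.Agent.Lib.Helper12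

universe u

/-- quadratic action of `x` on `V`: `x` commutes with every commutator `[x, v]`, `v ∈ V` -/
def QuadOn {Z : Type*} [Group Z] (V : Subgroup Z) (x : Z) : Prop :=
  ∀ v ∈ V, x * (x * v * x⁻¹ * v⁻¹) = (x * v * x⁻¹ * v⁻¹) * x

theorem quadOn_conj {Z : Type*} [Group Z] (V : Subgroup Z) [hVn : V.Normal] (b g : Z)
    (hb : QuadOn V b) : QuadOn V (g * b * g⁻¹) := by
  intro v hv
  have hv' : g⁻¹ * v * g ∈ V := by simpa using hVn.conj_mem v hv g⁻¹
  have h := hb _ hv'
  obtain ⟨c, hc⟩ : ∃ c, c = b * (g⁻¹ * v * g) * b⁻¹ * (g⁻¹ * v * g)⁻¹ := ⟨_, rfl⟩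
  rw [← hc] at h
  have e1 : g * b * g⁻¹ * v * (g * b * g⁻¹)⁻¹ * v⁻¹ = g * c * g⁻¹ := by rw [hc]; group
  rw [e1]
  calc g * b * g⁻¹ * (g * c * g⁻¹) = g * (b * c) * g⁻¹ := by group
    _ = g * (c * b) * g⁻¹ := by rw [h]
    _ = g * c * g⁻¹ * (g * b * g⁻¹) := by group

theorem quad_pair_centralizes {p : ℕ} [hp : Fact p.Prime] :
    ∀ (n : ℕ) (Z : Type u) [Group Z] [Finite Z] [Group.IsSolvable Z], Odd (Nat.card Z) →
    ∀ (V : Subgroup Z) [V.Normal], IsPGroup p V → Nat.card V ≤ n →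
    ∀ x y : Z, QuadOn V x → QuadOn V y →
    ∀ g ∈ Subgroup.closure ({x, y} : Set Z), (orderOf g).Coprime p →
      ∀ v ∈ V, g * v = v * g := by
  intro n
  induction n with
  | zero =>
    intro Z _ _ _ _ V _ _ hcard
    have := Nat.card_pos (α := V)
    omega
  | succ n ih =>
    intro Z _ _ _ hodd V hVn hVp hcard x y hx hy g hg hgo v hv
    classical
    by_cases hV1 : V = ⊥
    · rw [hV1, Subgroup.mem_bot] at hv
      rw [hv, mul_one, one_mul]
    obtain ⟨U, hU⟩ := exists_minimal_of_wellFoundedLT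
      (fun U : Subgroup Z => U ≤ V ∧ U ≠ ⊥ ∧ (∀ u ∈ U, x * u * x⁻¹ ∈ U) ∧
        (∀ u ∈ U, y * u * y⁻¹ ∈ U) ∧ ∀ w ∈ V, ∀ u ∈ U, w * u * w⁻¹ ∈ U)
      ⟨V, le_rfl, hV1, fun u hu => hVn.conj_mem u hu x, fun u hu => hVn.conj_mem u hu y,
        fun w _ u hu => hVn.conj_mem u hu w⟩
    obtain ⟨hUV, hU1, hUx, hUy, hUVinv⟩ := hU.1
    have hUmin := hU.2
    haveI : Group.IsNilpotent V := hVp.isNilpotent
    have hCn : (Subgroup.centralizer (V : Set Z)).Normal := inferInstance
    -- `U` is central in `V`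
    have hUc : U ≤ Subgroup.centralizer (V : Set Z) := by
      have hNn : (U.subgroupOf V).Normal := by
        refine ⟨fun n hn w => ?_⟩
        rw [Subgroup.mem_subgroupOf] at hn ⊢
        simpa using hUVinv w w.2 n hn
      have hN1 : U.subgroupOf V ≠ ⊥ := by
        intro h
        rw [Subgroup.subgroupOf_eq_bot] at h
        exact hU1 ((inf_eq_left.mpr hUV).symm.trans h.eq_bot)
      have hZ := normal_inf_center_ne_bot' (U.subgroupOf V) hN1
      obtain ⟨⟨w, hw⟩, hw1⟩ := (Subgroup.ne_bot_iff_exists_ne_one).mp hZ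
      obtain ⟨hwN, hwZ⟩ := Subgroup.mem_inf.mp hw
      have hwU : (w : Z) ∈ U := Subgroup.mem_subgroupOf.mp hwN
      have hwC : (w : Z) ∈ Subgroup.centralizer (V : Set Z) := by
        rw [Subgroup.mem_centralizer_iff]
        intro t ht
        have := Subgroup.mem_center_iff.mp hwZ ⟨t, ht⟩
        exact congrArg Subtype.val this
      have hw1' : (w : Z) ≠ 1 := by
        intro h
        apply hw1
        apply Subtype.ext
        apply Subtype.ext
        exact h
      have hP1 : U ⊓ Subgroup.centralizer (V : Set Z) ≤ V ∧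
          U ⊓ Subgroup.centralizer (V : Set Z) ≠ ⊥ ∧
          (∀ u ∈ U ⊓ Subgroup.centralizer (V : Set Z),
            x * u * x⁻¹ ∈ U ⊓ Subgroup.centralizer (V : Set Z)) ∧
          (∀ u ∈ U ⊓ Subgroup.centralizer (V : Set Z),
            y * u * y⁻¹ ∈ U ⊓ Subgroup.centralizer (V : Set Z)) ∧
          ∀ w ∈ V, ∀ u ∈ U ⊓ Subgroup.centralizer (V : Set Z),
            w * u * w⁻¹ ∈ U ⊓ Subgroup.centralizer (V : Set Z) := by
        refine ⟨inf_le_left.trans hUV, ?_, ?_, ?_, ?_⟩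
        · intro h
          have : (w : Z) ∈ U ⊓ Subgroup.centralizer (V : Set Z) := Subgroup.mem_inf.mpr ⟨hwU, hwC⟩
          rw [h, Subgroup.mem_bot] at this
          exact hw1' this
        · intro u hu
          obtain ⟨h1, h2⟩ := Subgroup.mem_inf.mp hu
          exact Subgroup.mem_inf.mpr ⟨hUx u h1, hCn.conj_mem u h2 x⟩
        · intro u hu
          obtain ⟨h1, h2⟩ := Subgroup.mem_inf.mp hu
          exact Subgroup.mem_inf.mpr ⟨hUy u h1, hCn.conj_mem u h2 y⟩
        · intro w hw u hu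
          obtain ⟨h1, h2⟩ := Subgroup.mem_inf.mp hu
          exact Subgroup.mem_inf.mpr ⟨hUVinv w hw u h1, hCn.conj_mem u h2 w⟩
      exact (hUmin hP1 inf_le_left).trans inf_le_right
    have hUcomm : ∀ u ∈ U, ∀ w ∈ V, w * u = u * w := fun u hu w hw =>
      Subgroup.mem_centralizer_iff.mp (hUc hu) w hw
    -- the action on `U`
    letI : CommGroup ↥U :=
      { (inferInstance : Group ↥U) with
        mul_comm := fun a b => Subtype.ext (hUcomm a.1 a.2 b.1 (hUV b.2)).symm }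
    have hLN : Subgroup.closure ({x, y} : Set Z) ≤ Subgroup.normalizer (U : Set Z) := by
      rw [Subgroup.closure_le]
      rintro z (rfl | rfl)
      · exact mem_normalizer_of_conj U _ hUx
      · exact mem_normalizer_of_conj U _ hUy
    obtain ⟨φ, hφ⟩ : ∃ φ : ↥(Subgroup.closure ({x, y} : Set Z)) →* MulAut ↥U,
        ∀ (l : ↥(Subgroup.closure ({x, y} : Set Z))) (u : ↥U),
          ((φ l u : ↥U) : Z) = l * u * (l : Z)⁻¹ :=
      ⟨(U.normalizerMonoidHom).comp (Subgroup.inclusion hLN), fun _ _ => rfl⟩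
    obtain ⟨x', hx'⟩ : ∃ x' : ↥(Subgroup.closure ({x, y} : Set Z)), (x' : Z) = x :=
      ⟨⟨x, Subgroup.subset_closure (by simp)⟩, rfl⟩
    obtain ⟨y', hy'⟩ : ∃ y' : ↥(Subgroup.closure ({x, y} : Set Z)), (y' : Z) = y :=
      ⟨⟨y, Subgroup.subset_closure (by simp)⟩, rfl⟩
    have hgen : Subgroup.closure ({x', y'} : Set ↥(Subgroup.closure ({x, y} : Set Z))) = ⊤ := by
      have h := Subgroup.closure_closure_coe_preimage (k := ({x, y} : Set Z))
      have hpre : ((↑) : ↥(Subgroup.closure ({x, y} : Set Z)) → Z) ⁻¹' {x, y} = {x', y'} := by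
        ext z
        simp only [Set.mem_preimage, Set.mem_insert_iff, Set.mem_singleton_iff, Subtype.ext_iff,
          hx', hy']
      rw [hpre] at h
      exact h
    have hquad' : ∀ (z : Z) (z' : ↥(Subgroup.closure ({x, y} : Set Z))), (z' : Z) = z →
        QuadOn V z → ∀ u : ↥U, φ z' (φ z' u / u) = φ z' u / u := by
      intro z z' hz' hz u
      apply Subtype.ext
      have h := hz u.1 (hUV u.2)
      rw [hφ, Subgroup.coe_div, hφ, hz', div_eq_mul_inv]
      rw [mul_inv_eq_iff_eq_mul]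
      exact h
    have hirr : ∀ B : Subgroup ↥U, (∀ b ∈ B, φ x' b ∈ B) → (∀ b ∈ B, φ y' b ∈ B) →
        B = ⊥ ∨ B = ⊤ := by
      intro B hBx hBy
      by_cases hB : B = ⊥
      · exact Or.inl hB
      right
      have hP : B.map U.subtype ≤ V ∧ B.map U.subtype ≠ ⊥ ∧
          (∀ u ∈ B.map U.subtype, x * u * x⁻¹ ∈ B.map U.subtype) ∧
          (∀ u ∈ B.map U.subtype, y * u * y⁻¹ ∈ B.map U.subtype) ∧
          ∀ w ∈ V, ∀ u ∈ B.map U.subtype, w * u * w⁻¹ ∈ B.map U.subtype := by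
        refine ⟨(Subgroup.map_subtype_le B).trans hUV, ?_, ?_, ?_, ?_⟩
        · intro h
          exact hB ((Subgroup.map_eq_bot_iff_of_injective _ U.subtype_injective).mp h)
        · rintro _ ⟨b, hb, rfl⟩
          refine ⟨φ x' b, hBx b hb, ?_⟩
          rw [Subgroup.coe_subtype, hφ, hx']
        · rintro _ ⟨b, hb, rfl⟩
          refine ⟨φ y' b, hBy b hb, ?_⟩
          rw [Subgroup.coe_subtype, hφ, hy']
        · rintro w hw _ ⟨b, hb, rfl⟩
          refine ⟨b, hb, ?_⟩
          have h := hUcomm b.1 b.2 w hw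
          rw [Subgroup.coe_subtype, h, mul_inv_cancel_right]
      have hle := hUmin hP (Subgroup.map_subtype_le B)
      rw [eq_top_iff]
      intro b _
      obtain ⟨b', hb', hbb⟩ := hle b.2
      have : b' = b := Subtype.ext hbb
      rw [← this]; exact hb'
    have hφ1 := quad_irr (Odd.of_dvd_nat hodd (Subgroup.card_subgroup_dvd_card _))
      (hVp.to_le hUV) φ x' y' hgen (hquad' x x' hx' hx) (hquad' y y' hy' hy) hirr
    have hLU : ∀ l ∈ Subgroup.closure ({x, y} : Set Z), ∀ u ∈ U, l * u * l⁻¹ = u := by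
      intro l hl u hu
      have h := congrArg (fun f : MulAut ↥U => ((f ⟨u, hu⟩ : ↥U) : Z)) (hφ1 ⟨l, hl⟩)
      simp only [hφ] at h
      exact h
    -- the quotient
    have hVN : V ≤ Subgroup.normalizer (U : Set Z) := fun w hw =>
      mem_normalizer_of_conj U w (hUVinv w hw)
    obtain ⟨π, hπ⟩ : ∃ π : ↥(Subgroup.normalizer (U : Set Z)) →*
        ↥(Subgroup.normalizer (U : Set Z)) ⧸ U.subgroupOf (Subgroup.normalizer (U : Set Z)),
        π = QuotientGroup.mk' (U.subgroupOf (Subgroup.normalizer (U : Set Z))) := ⟨_, rfl⟩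
    have hπsurj : Function.Surjective π := by rw [hπ]; exact QuotientGroup.mk'_surjective _
    have hπker : ∀ z : ↥(Subgroup.normalizer (U : Set Z)), π z = 1 ↔ (z : Z) ∈ U := by
      intro z
      rw [hπ, QuotientGroup.mk'_apply, QuotientGroup.eq_one_iff, Subgroup.mem_subgroupOf]
    have hV₁n : (V.subgroupOf (Subgroup.normalizer (U : Set Z))).Normal := hVn.subgroupOf _
    have hVbn : ((V.subgroupOf (Subgroup.normalizer (U : Set Z))).map π).Normal :=
      Subgroup.Normal.map hV₁n π hπsurj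
    have hVbp : IsPGroup p ((V.subgroupOf (Subgroup.normalizer (U : Set Z))).map π) :=
      (hVp.comap_subtype).map π
    have hcard' : Nat.card ((V.subgroupOf (Subgroup.normalizer (U : Set Z))).map π) ≤ n := by
      obtain ⟨f, hf⟩ : ∃ f : ↥V → ↥((V.subgroupOf (Subgroup.normalizer (U : Set Z))).map π),
          ∀ w : ↥V, ((f w : ↥((V.subgroupOf (Subgroup.normalizer (U : Set Z))).map π)) :
            ↥(Subgroup.normalizer (U : Set Z)) ⧸ U.subgroupOf (Subgroup.normalizer (U : Set Z)))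
            = π ⟨w, hVN w.2⟩ :=
        ⟨fun w => ⟨π ⟨w, hVN w.2⟩, Subgroup.mem_map_of_mem π (Subgroup.mem_subgroupOf.mpr w.2)⟩,
          fun w => rfl⟩
      have hsurj : Function.Surjective f := by
        rintro ⟨_, ⟨z, hz, rfl⟩⟩
        refine ⟨⟨z, Subgroup.mem_subgroupOf.mp hz⟩, ?_⟩
        apply Subtype.ext
        rw [hf]
      have hninj : ¬ Function.Injective f := by
        intro hinj
        obtain ⟨u, hu, hu1⟩ : ∃ u ∈ U, u ≠ 1 := by
          by_contra hcon
          exact hU1 ((Subgroup.eq_bot_iff_forall _).mpr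
            (fun t ht => by_contra (fun h1 => hcon ⟨t, ht, h1⟩)))
        have h1 : f ⟨u, hUV hu⟩ = f 1 := by
          apply Subtype.ext
          rw [hf, hf]
          rw [(hπker _).mpr hu]
          exact ((hπker _).mpr U.one_mem).symm
        have h2 := hinj h1
        exact hu1 (congrArg Subtype.val h2)
      haveI := Fintype.ofFinite ↥V
      haveI := Fintype.ofFinite ↥((V.subgroupOf (Subgroup.normalizer (U : Set Z))).map π)
      have h3 := Fintype.card_lt_of_surjective_not_injective f hsurj hninj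
      rw [← Nat.card_eq_fintype_card, ← Nat.card_eq_fintype_card] at h3
      omega
    obtain ⟨x₁, hx₁⟩ : ∃ x₁ : ↥(Subgroup.normalizer (U : Set Z)), (x₁ : Z) = x :=
      ⟨⟨x, hLN (Subgroup.subset_closure (by simp))⟩, rfl⟩
    obtain ⟨y₁, hy₁⟩ : ∃ y₁ : ↥(Subgroup.normalizer (U : Set Z)), (y₁ : Z) = y :=
      ⟨⟨y, hLN (Subgroup.subset_closure (by simp))⟩, rfl⟩
    have hquadQ : ∀ (z : Z) (z₁ : ↥(Subgroup.normalizer (U : Set Z))), (z₁ : Z) = z →
        QuadOn V z → QuadOn ((V.subgroupOf (Subgroup.normalizer (U : Set Z))).map π) (π z₁) := by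
      rintro z z₁ hz₁ hz _ ⟨v₁, hv₁, rfl⟩
      have h := hz v₁.1 (Subgroup.mem_subgroupOf.mp hv₁)
      have h' : z₁ * (z₁ * v₁ * z₁⁻¹ * v₁⁻¹) = (z₁ * v₁ * z₁⁻¹ * v₁⁻¹) * z₁ := by
        apply Subtype.ext
        simp only [Subgroup.coe_mul, Subgroup.coe_inv, hz₁]
        exact h
      have h'' := congrArg π h'
      simpa only [map_mul, map_inv] using h''
    obtain ⟨g₁, hg₁⟩ : ∃ g₁ : ↥(Subgroup.normalizer (U : Set Z)), (g₁ : Z) = g :=
      ⟨⟨g, hLN hg⟩, rfl⟩
    have hg₁cl : g₁ ∈ Subgroup.closure ({x₁, y₁} : Set ↥(Subgroup.normalizer (U : Set Z))) := by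
      have h1 : (Subgroup.closure ({x₁, y₁} : Set ↥(Subgroup.normalizer (U : Set Z)))).map
          (Subgroup.normalizer (U : Set Z)).subtype = Subgroup.closure ({x, y} : Set Z) := by
        rw [MonoidHom.map_closure, Set.image_pair, Subgroup.coe_subtype, hx₁, hy₁]
      rw [← h1] at hg
      obtain ⟨g', hg', hgg⟩ := hg
      have : g' = g₁ := Subtype.ext (by rw [hg₁]; exact hgg)
      rw [← this]; exact hg'
    have hgbcl : π g₁ ∈ Subgroup.closure ({π x₁, π y₁} : Set
        (↥(Subgroup.normalizer (U : Set Z)) ⧸ U.subgroupOf (Subgroup.normalizer (U : Set Z)))) := by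
      have h1 : (Subgroup.closure ({x₁, y₁} : Set ↥(Subgroup.normalizer (U : Set Z)))).map π =
          Subgroup.closure ({π x₁, π y₁} : Set _) := by
        rw [MonoidHom.map_closure, Set.image_pair]
      rw [← h1]
      exact Subgroup.mem_map_of_mem π hg₁cl
    have hgbo : (orderOf (π g₁)).Coprime p := by
      refine Nat.Coprime.coprime_dvd_left (orderOf_map_dvd π g₁) ?_
      rw [← Subgroup.orderOf_coe, hg₁]
      exact hgo
    obtain ⟨v₁, hv₁⟩ : ∃ v₁ : ↥(Subgroup.normalizer (U : Set Z)), (v₁ : Z) = v :=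
      ⟨⟨v, hVN hv⟩, rfl⟩
    have hoddQ : Odd (Nat.card
        (↥(Subgroup.normalizer (U : Set Z)) ⧸ U.subgroupOf (Subgroup.normalizer (U : Set Z)))) :=
      Odd.of_dvd_nat hodd ((Subgroup.card_quotient_dvd_card _).trans
        (Subgroup.card_subgroup_dvd_card _))
    have hih := ih _ hoddQ ((V.subgroupOf (Subgroup.normalizer (U : Set Z))).map π) hVbp hcard'
      (π x₁) (π y₁) (hquadQ x x₁ hx₁ hx) (hquadQ y y₁ hy₁ hy) (π g₁) hgbcl hgbo (π v₁)
      (Subgroup.mem_map_of_mem π (Subgroup.mem_subgroupOf.mpr (by rw [hv₁]; exact hv)))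
    have hu : g * v * g⁻¹ * v⁻¹ ∈ U := by
      have h1 : π (g₁ * v₁ * g₁⁻¹ * v₁⁻¹) = 1 := by
        rw [map_mul, map_mul, map_mul, map_inv, map_inv, hih]
        group
      have h2 := (hπker _).mp h1
      simpa only [Subgroup.coe_mul, Subgroup.coe_inv, hg₁, hv₁] using h2
    -- the chain argument
    obtain ⟨u, hudef⟩ : ∃ u, u = g * v * g⁻¹ * v⁻¹ := ⟨_, rfl⟩
    rw [← hudef] at hu
    have hgu : g * u * g⁻¹ = u := hLU g hg u hu
    have hpow : ∀ k : ℕ, g ^ k * v * (g ^ k)⁻¹ = u ^ k * v := by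
      intro k
      induction k with
      | zero => simp
      | succ k ihk =>
        have e1 : g ^ (k + 1) * v * (g ^ (k + 1))⁻¹ = g * (g ^ k * v * (g ^ k)⁻¹) * g⁻¹ := by
          rw [pow_succ']; group
        have e2 : g * u ^ k * g⁻¹ = u ^ k := by rw [← conj_pow, hgu]
        rw [e1, ihk]
        calc g * (u ^ k * v) * g⁻¹ = (g * u ^ k * g⁻¹) * (g * v * g⁻¹ * v⁻¹) * v := by group
          _ = u ^ k * u * v := by rw [e2, ← hudef]
          _ = u ^ (k + 1) * v := by rw [pow_succ]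
    have h1 := hpow (orderOf g)
    rw [pow_orderOf_eq_one, one_mul, inv_one, mul_one] at h1
    have h2 : u ^ orderOf g = 1 := by
      have : u ^ orderOf g * v = 1 * v := by rw [one_mul]; exact h1.symm
      exact mul_right_cancel this
    have h3 : u = 1 := by
      obtain ⟨j, hj⟩ := hVp ⟨u, hUV hu⟩
      have hj' : u ^ p ^ j = 1 := by
        simpa only [Subgroup.coe_pow, Subgroup.coe_one] using congrArg Subtype.val hj
      have hd1 : orderOf u ∣ orderOf g := orderOf_dvd_of_pow_eq_one h2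
      have hd2 : orderOf u ∣ p ^ j := orderOf_dvd_of_pow_eq_one hj'
      have hcop : (orderOf g).Coprime (p ^ j) := Nat.Coprime.pow_right j hgo
      have : orderOf u ∣ 1 := by
        have := Nat.dvd_gcd hd1 hd2
        rwa [hcop] at this
      exact orderOf_eq_one_iff.mp (Nat.dvd_one.mp this)
    rw [h3] at hudef
    have e : g * v = (g * v * g⁻¹ * v⁻¹) * (v * g) := by group
    rw [e, ← hudef, one_mul]

/-- **`p`-stability** for solvable groups of odd order. -/
theorem quad_mem_pCore {p : ℕ} [hp : Fact p.Prime] (Z : Type u) [Group Z] [Finite Z]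
    [Group.IsSolvable Z] (hodd : Odd (Nat.card Z)) (V : Subgroup Z) [hVn : V.Normal]
    (hV : IsPGroup p V) (C : Subgroup Z) [hCn : C.Normal]
    (hC : C = Subgroup.centralizer (V : Set Z)) (a : Z) (ha : QuadOn V a) :
    QuotientGroup.mk' C a ∈ Cfsg.pCore p (Z ⧸ C) := by
  classical
  have hpp : p.Prime := hp.1
  obtain ⟨K, hK⟩ : ∃ K : Set (Z ⧸ C), K = {z | ∃ b, QuadOn V b ∧ QuotientGroup.mk' C b = z} :=
    ⟨_, rfl⟩
  have hconj : ∀ g : Z ⧸ C, ∀ z ∈ K, g * z * g⁻¹ ∈ K := by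
    intro g z hz
    rw [hK] at hz ⊢
    obtain ⟨b, hb, rfl⟩ := hz
    obtain ⟨g, rfl⟩ := QuotientGroup.mk'_surjective C g
    exact ⟨g * b * g⁻¹, quadOn_conj V b g hb, by simp only [map_mul, map_inv]⟩
  have hpair : ∀ z₁ ∈ K, ∀ z₂ ∈ K, IsPGroup p (Subgroup.closure ({z₁, z₂} : Set (Z ⧸ C))) := by
    intro z₁ hz₁ z₂ hz₂
    rw [hK] at hz₁ hz₂
    obtain ⟨b₁, hb₁, rfl⟩ := hz₁
    obtain ⟨b₂, hb₂, rfl⟩ := hz₂
    have h1 : (Subgroup.closure ({b₁, b₂} : Set Z)).map (QuotientGroup.mk' C) =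
        Subgroup.closure ({QuotientGroup.mk' C b₁, QuotientGroup.mk' C b₂} : Set (Z ⧸ C)) := by
      rw [MonoidHom.map_closure, Set.image_pair]
    rw [← h1]
    rintro ⟨_, ⟨w, hw, rfl⟩⟩
    obtain ⟨k, m, hm, hkm⟩ := Nat.exists_eq_pow_mul_and_not_dvd (orderOf_pos w).ne' p hpp.ne_one
    have hw' : w ^ p ^ k ∈ Subgroup.closure ({b₁, b₂} : Set Z) := Subgroup.pow_mem _ hw _
    have hwo : (orderOf (w ^ p ^ k)).Coprime p := by
      have h2 : (w ^ p ^ k) ^ m = 1 := by rw [← pow_mul, ← hkm, pow_orderOf_eq_one]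
      exact Nat.Coprime.coprime_dvd_left (orderOf_dvd_of_pow_eq_one h2)
        ((Nat.Prime.coprime_iff_not_dvd hpp).mpr hm).symm
    have h3 := quad_pair_centralizes (Nat.card V) Z hodd V hV le_rfl b₁ b₂ hb₁ hb₂ (w ^ p ^ k)
      hw' hwo
    have h4 : w ^ p ^ k ∈ C := by
      rw [hC, Subgroup.mem_centralizer_iff]
      intro t ht
      exact (h3 t ht).symm
    refine ⟨k, Subtype.ext ?_⟩
    simp only [Subgroup.coe_pow, Subgroup.coe_one]
    rw [← map_pow, QuotientGroup.mk'_apply, QuotientGroup.eq_one_iff]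
    exact h4
  obtain ⟨N, hNn, hNp, hKN⟩ := Cfsg.Agent.S0199.baer_suzuki_set K hconj hpair
  have hle := Cfsg.Agent.Lib.Helper1.le_pCore p hNn hNp
  apply hle
  apply hKN
  rw [hK]
  exact ⟨a, ha, rfl⟩

end Cfsg.Agent.Lib.Helper12
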