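import Mathlib
import Cfsg.Prelude.Def_OddOrderLocal
import Cfsg.Agent.S1466
import Cfsg.Agent.S1467
import Cfsg.Agent.Lib.Helper18.Basic

set_option autoImplicit false

namespace Cfsg.Agent.Lib.Helper12.Puig

variable {G : Type*} [Group G]

/-- relative Puig step inside an ambient group -/
def relStep (H X : Subgroup G) : Subgroup G :=
  sSup {A : Subgroup G | A ≤ H ∧ IsMulCommutative A ∧ X ≤ Subgroup.normalizer (A : Set G)}

/-- relative Puig series of a subgroup `H` of `G` -/
def relSeq (H : Subgroup G) : ℕ → Subgroup G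
  | 0 => ⊥
  | n + 1 => relStep H (relSeq H n)

/-- `L_*(H)` inside `G` -/
def relLower (H : Subgroup G) : Subgroup G := ⨆ n : ℕ, relSeq H (2 * n)

/-- `L(H)` inside `G` -/
def relUpper (H : Subgroup G) : Subgroup G := ⨅ n : ℕ, relSeq H (2 * n + 1)

theorem relStep_le (H X : Subgroup G) : relStep H X ≤ H := sSup_le (fun _ hA => hA.1)

theorem relSeq_le (H : Subgroup G) (n : ℕ) : relSeq H n ≤ H := by
  cases n with
  | zero => exact bot_le
  | succ n => exact relStep_le _ _

theorem relSeq_succ (H : Subgroup G) (n : ℕ) : relSeq H (n + 1) = relStep H (relSeq H n) := rfl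

theorem relStep_anti {H X Y : Subgroup G} (h : X ≤ Y) : relStep H Y ≤ relStep H X :=
  sSup_le_sSup (fun _ hA => ⟨hA.1, hA.2.1, h.trans hA.2.2⟩)

theorem relStep_mono {H H' : Subgroup G} (X : Subgroup G) (h : H ≤ H') :
    relStep H X ≤ relStep H' X :=
  sSup_le_sSup (fun _ hA => ⟨hA.1.trans h, hA.2⟩)

theorem le_relStep {H X A : Subgroup G} (h1 : A ≤ H) (h2 : IsMulCommutative A)
    (h3 : X ≤ Subgroup.normalizer (A : Set G)) : A ≤ relStep H X :=
  le_sSup ⟨h1, h2, h3⟩

theorem relUpper_le (H : Subgroup G) : relUpper H ≤ H :=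
  (iInf_le _ 0).trans (relSeq_le H _)

theorem relLower_le (H : Subgroup G) : relLower H ≤ H :=
  iSup_le (fun _ => relSeq_le H _)

theorem le_normalizer_of_conj (X A : Subgroup G) (h : ∀ x ∈ X, ∀ a ∈ A, x * a * x⁻¹ ∈ A) :
    X ≤ Subgroup.normalizer (A : Set G) := by
  intro x hx
  rw [Subgroup.mem_normalizer_iff]
  intro a
  constructor
  · exact h x hx a
  · intro ha
    have h1 := h x⁻¹ (X.inv_mem hx) _ ha
    have e : x⁻¹ * (x * a * x⁻¹) * x⁻¹⁻¹ = a := by group
    rwa [e] at h1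

theorem relStep_map {G' : Type*} [Group G'] (φ : G →* G') (H X : Subgroup G)
    (hinj : Set.InjOn φ (H : Set G)) (hX : X ≤ H) :
    (relStep H X).map φ = relStep (H.map φ) (X.map φ) := by
  apply le_antisymm
  · rw [Subgroup.map_le_iff_le_comap]
    apply sSup_le
    rintro A ⟨hAH, hAc, hXA⟩
    rw [← Subgroup.map_le_iff_le_comap]
    apply le_sSup
    refine ⟨Subgroup.map_mono hAH, ?_, ?_⟩
    · refine ⟨⟨?_⟩⟩
      rintro ⟨_, a, ha, rfl⟩ ⟨_, b, hb, rfl⟩
      apply Subtype.ext
      show φ a * φ b = φ b * φ a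
      rw [← map_mul, ← map_mul]
      exact congrArg φ (congrArg Subtype.val (hAc.is_comm.comm ⟨a, ha⟩ ⟨b, hb⟩))
    · apply le_normalizer_of_conj
      rintro _ ⟨x, hx, rfl⟩ _ ⟨a, ha, rfl⟩
      refine ⟨x * a * x⁻¹, ?_, by simp⟩
      exact (Subgroup.mem_normalizer_iff.mp (hXA hx) a).mp ha
  · apply sSup_le
    rintro A' ⟨hA'H, hA'c, hXA'⟩
    have h1 : A' = (A'.comap φ ⊓ H).map φ := by
      apply le_antisymm
      · intro y hy
        obtain ⟨h, hh, rfl⟩ := hA'H hy
        exact ⟨h, ⟨hy, hh⟩, rfl⟩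
      · rintro _ ⟨h, ⟨hh1, _⟩, rfl⟩
        exact hh1
    rw [h1]
    apply Subgroup.map_mono
    apply le_sSup
    refine ⟨inf_le_right, ?_, ?_⟩
    · refine ⟨⟨?_⟩⟩
      rintro ⟨a, ha1, ha2⟩ ⟨b, hb1, hb2⟩
      apply Subtype.ext
      apply hinj (H.mul_mem ha2 hb2) (H.mul_mem hb2 ha2)
      rw [map_mul, map_mul]
      exact congrArg Subtype.val (hA'c.is_comm.comm ⟨φ a, ha1⟩ ⟨φ b, hb1⟩)
    · apply le_normalizer_of_conj
      rintro x hx a ⟨ha1, ha2⟩
      refine ⟨?_, H.mul_mem (H.mul_mem (hX hx) ha2) (H.inv_mem (hX hx))⟩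
      show φ (x * a * x⁻¹) ∈ A'
      rw [map_mul, map_mul, map_inv]
      exact (Subgroup.mem_normalizer_iff.mp (hXA' (Subgroup.mem_map_of_mem φ hx)) (φ a)).mp ha1

theorem relSeq_map {G' : Type*} [Group G'] (φ : G →* G') (H : Subgroup G)
    (hinj : Set.InjOn φ (H : Set G)) (n : ℕ) :
    (relSeq H n).map φ = relSeq (H.map φ) n := by
  induction n with
  | zero => exact Subgroup.map_bot φ
  | succ n ih =>
    rw [relSeq_succ, relSeq_succ, relStep_map φ H _ hinj (relSeq_le H n), ih]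

theorem relLower_map {G' : Type*} [Group G'] (φ : G →* G') (H : Subgroup G)
    (hinj : Set.InjOn φ (H : Set G)) :
    (relLower H).map φ = relLower (H.map φ) := by
  unfold relLower
  rw [Subgroup.map_iSup]
  exact iSup_congr (fun n => relSeq_map φ H hinj _)

theorem relUpper_map {G' : Type*} [Group G'] (φ : G →* G') (H : Subgroup G)
    (hinj : Set.InjOn φ (H : Set G)) :
    (relUpper H).map φ = relUpper (H.map φ) := by
  unfold relUpper
  apply le_antisymm
  · apply le_iInf
    intro n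
    rw [← relSeq_map φ H hinj]
    exact Subgroup.map_mono (iInf_le _ n)
  · intro y hy
    rw [Subgroup.mem_iInf] at hy
    have h0 := hy 0
    rw [← relSeq_map φ H hinj] at h0
    obtain ⟨x, hx, rfl⟩ := h0
    refine ⟨x, ?_, rfl⟩
    show x ∈ ⨅ n, relSeq H (2 * n + 1)
    rw [Subgroup.mem_iInf]
    intro n
    have hn := hy n
    rw [← relSeq_map φ H hinj] at hn
    obtain ⟨x', hx', hxx⟩ := hn
    have : x' = x := hinj (relSeq_le H _ hx') (relSeq_le H _ hx) hxx
    rw [← this]; exact hx'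

theorem relStep_top (X : Subgroup G) : relStep ⊤ X = Cfsg.puigStep X := by
  unfold relStep Cfsg.puigStep
  congr 1
  ext A
  simp

theorem relSeq_top (n : ℕ) : relSeq (⊤ : Subgroup G) n = Cfsg.puigSeq G n := by
  induction n with
  | zero => rfl
  | succ n ih =>
    rw [relSeq_succ, relStep_top, ih]
    rfl

theorem map_top_subtype (H : Subgroup G) : (⊤ : Subgroup ↥H).map H.subtype = H := by
  ext x
  constructor
  · rintro ⟨y, _, rfl⟩
    exact y.2
  · intro hx
    exact ⟨⟨x, hx⟩, trivial, rfl⟩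

theorem map_puigStep (H : Subgroup G) (X : Subgroup ↥H) :
    (Cfsg.puigStep X).map H.subtype = relStep H (X.map H.subtype) := by
  rw [← relStep_top, relStep_map H.subtype ⊤ X (fun _ _ _ _ h => H.subtype_injective h) le_top,
    map_top_subtype]

theorem map_puigSeq (H : Subgroup G) (n : ℕ) :
    (Cfsg.puigSeq ↥H n).map H.subtype = relSeq H n := by
  rw [← relSeq_top, relSeq_map H.subtype ⊤ (fun _ _ _ _ h => H.subtype_injective h),
    map_top_subtype]

theorem map_puigLower (H : Subgroup G) :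
    (Cfsg.puigLower ↥H).map H.subtype = relLower H := by
  unfold Cfsg.puigLower relLower
  rw [Subgroup.map_iSup]
  exact iSup_congr (fun n => map_puigSeq H _)

theorem map_puigSubgroup (H : Subgroup G) :
    (Cfsg.puigSubgroup ↥H).map H.subtype = relUpper H := by
  unfold Cfsg.puigSubgroup relUpper
  rw [Subgroup.map_iInf _ H.subtype_injective]
  exact iInf_congr (fun n => map_puigSeq H _)

section fin
variable [Finite G]

theorem relLower_le_relUpper (H : Subgroup G) : relLower H ≤ relUpper H := by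
  rw [← map_puigLower, ← map_puigSubgroup]
  exact Subgroup.map_mono (Cfsg.Agent.S1467.result (G := ↥H)).2.2.2.2.1

theorem relStep_relLower (H : Subgroup G) : relStep H (relLower H) = relUpper H := by
  rw [← map_puigLower, ← map_puigStep, (Cfsg.Agent.S1467.result (G := ↥H)).2.2.2.2.2.1,
    map_puigSubgroup]

theorem relStep_relUpper (H : Subgroup G) : relStep H (relUpper H) = relLower H := by
  rw [← map_puigSubgroup, ← map_puigStep, (Cfsg.Agent.S1467.result (G := ↥H)).2.2.2.2.2.2,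
    map_puigLower]

theorem relSeq_even_le_relUpper (H : Subgroup G) (n : ℕ) : relSeq H (2 * n) ≤ relUpper H :=
  (le_iSup (fun n => relSeq H (2 * n)) n).trans (relLower_le_relUpper H)

/-- `L(R) = L(S)` whenever `L(S) ≤ R ≤ S`. -/
theorem relUpper_eq_of_le (S R : Subgroup G) (hRS : R ≤ S) (hLR : relUpper S ≤ R) :
    relUpper R = relUpper S := by
  have h1 : ∀ n, relSeq S (2 * n) ≤ relSeq R (2 * n) ∧
      relSeq R (2 * n + 1) ≤ relSeq S (2 * n + 1) := by
    intro n
    induction n with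
    | zero =>
      refine ⟨bot_le, ?_⟩
      exact relStep_mono _ hRS
    | succ n ih =>
      have hc : relSeq S (2 * n + 2) ≤ relSeq R (2 * n + 2) := by
        show relStep S (relSeq S (2 * n + 1)) ≤ relStep R (relSeq R (2 * n + 1))
        apply sSup_le
        rintro A ⟨hAS, hAc, hAN⟩
        refine le_relStep ?_ hAc (ih.2.trans hAN)
        have h3 : A ≤ relSeq S (2 * (n + 1)) := le_relStep hAS hAc hAN
        exact (h3.trans (relSeq_even_le_relUpper S (n + 1))).trans hLR
      refine ⟨hc, ?_⟩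
      show relStep R (relSeq R (2 * n + 2)) ≤ relStep S (relSeq S (2 * n + 2))
      exact (relStep_mono _ hRS).trans (relStep_anti hc)
  have h2 : ∀ n, relSeq R (2 * n) ≤ relLower S ∧ relUpper S ≤ relSeq R (2 * n + 1) := by
    intro n
    induction n with
    | zero =>
      refine ⟨bot_le, ?_⟩
      show relUpper S ≤ relStep R ⊥
      conv_lhs => rw [← relStep_relLower S]
      apply sSup_le
      rintro A ⟨hAS, hAc, hAN⟩
      refine le_relStep ?_ hAc bot_le
      exact ((le_relStep hAS hAc hAN).trans (le_of_eq (relStep_relLower S))).trans hLR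
    | succ n ih =>
      have hc : relSeq R (2 * n + 2) ≤ relLower S := by
        show relStep R (relSeq R (2 * n + 1)) ≤ relLower S
        rw [← relStep_relUpper S]
        exact (relStep_mono _ hRS).trans (relStep_anti ih.2)
      refine ⟨hc, ?_⟩
      show relUpper S ≤ relStep R (relSeq R (2 * n + 2))
      conv_lhs => rw [← relStep_relLower S]
      apply sSup_le
      rintro A ⟨hAS, hAc, hAN⟩
      refine le_relStep ?_ hAc (hc.trans hAN)
      exact ((le_relStep hAS hAc hAN).trans (le_of_eq (relStep_relLower S))).trans hLR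
  apply le_antisymm
  · exact iInf_mono (fun n => (h1 n).2)
  · exact le_iInf (fun n => (h2 n).2)

end fin

theorem relSeq_conj (H : Subgroup G) {g : G} (hg : g ∈ Subgroup.normalizer (H : Set G)) (n : ℕ) :
    (relSeq H n).map (MulAut.conj g).toMonoidHom = relSeq H n := by
  rw [relSeq_map _ H (fun _ _ _ _ h => (MulAut.conj g).injective h),
    Cfsg.Agent.Lib.Helper18.map_conj_eq_of_mem_normalizer H hg]

theorem relUpper_conj (H : Subgroup G) {g : G} (hg : g ∈ Subgroup.normalizer (H : Set G)) :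
    (relUpper H).map (MulAut.conj g).toMonoidHom = relUpper H := by
  rw [relUpper_map _ H (fun _ _ _ _ h => (MulAut.conj g).injective h),
    Cfsg.Agent.Lib.Helper18.map_conj_eq_of_mem_normalizer H hg]

/-- `Z(L(H))` inside `G` -/
def zUpper (H : Subgroup G) : Subgroup G :=
  relUpper H ⊓ Subgroup.centralizer ((relUpper H : Subgroup G) : Set G)

theorem zUpper_le (H : Subgroup G) : zUpper H ≤ H := inf_le_left.trans (relUpper_le H)

theorem relUpper_conj_mem (H : Subgroup G) {g : G} (hg : g ∈ Subgroup.normalizer (H : Set G))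
    {z : G} (hz : z ∈ relUpper H) : g * z * g⁻¹ ∈ relUpper H := by
  have h1 : g * z * g⁻¹ ∈ (relUpper H).map (MulAut.conj g).toMonoidHom := ⟨z, hz, rfl⟩
  rwa [relUpper_conj H hg] at h1

theorem normalizer_le_normalizer_zUpper (H : Subgroup G) :
    Subgroup.normalizer (H : Set G) ≤ Subgroup.normalizer ((zUpper H : Subgroup G) : Set G) := by
  apply le_normalizer_of_conj
  intro g hg z hz
  have hz1 : z ∈ relUpper H := hz.1
  have hz2 : z ∈ Subgroup.centralizer ((relUpper H : Subgroup G) : Set G) := hz.2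
  refine Subgroup.mem_inf.mpr ⟨relUpper_conj_mem H hg hz1, ?_⟩
  rw [Subgroup.mem_centralizer_iff] at hz2 ⊢
  intro y hy
  have hy' : g⁻¹ * y * g⁻¹⁻¹ ∈ relUpper H := relUpper_conj_mem H (Subgroup.inv_mem _ hg) hy
  have h3 := hz2 _ hy'
  have e1 : y * (g * z * g⁻¹) = g * ((g⁻¹ * y * g⁻¹⁻¹) * z) * g⁻¹ := by group
  have e2 : g * z * g⁻¹ * y = g * (z * (g⁻¹ * y * g⁻¹⁻¹)) * g⁻¹ := by group
  rw [e1, e2, h3]

theorem map_center_map (S : Subgroup G) (K : Subgroup ↥S) :
    ((Subgroup.center ↥K).map K.subtype).map S.subtype =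
      K.map S.subtype ⊓ Subgroup.centralizer ((K.map S.subtype : Subgroup G) : Set G) := by
  ext y
  rw [Subgroup.mem_inf]
  constructor
  · rintro ⟨s, ⟨k, hk, rfl⟩, rfl⟩
    have hk2 : k ∈ Subgroup.center ↥K := hk
    refine ⟨⟨(k : ↥S), k.2, rfl⟩, ?_⟩
    rw [Subgroup.mem_centralizer_iff]
    rintro _ ⟨k', hk', rfl⟩
    have hk3 : k' ∈ K := hk'
    have h1 := Subgroup.mem_center_iff.mp hk2 ⟨k', hk3⟩
    exact congrArg (fun t : ↥K => ((t : ↥S) : G)) h1
  · rintro ⟨⟨s, hs, rfl⟩, hc⟩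
    have hs2 : s ∈ K := hs
    refine ⟨s, ⟨⟨s, hs2⟩, ?_, rfl⟩, rfl⟩
    show (⟨s, hs2⟩ : ↥K) ∈ Subgroup.center ↥K
    rw [Subgroup.mem_center_iff]
    rintro ⟨k', hk'⟩
    apply Subtype.ext
    apply Subtype.ext
    exact (Subgroup.mem_centralizer_iff.mp hc) (k' : G) ⟨k', hk', rfl⟩

theorem map_center_puig (S : Subgroup G) :
    ((Subgroup.center ↥(Cfsg.puigSubgroup ↥S)).map (Cfsg.puigSubgroup ↥S).subtype).map S.subtype
      = zUpper S := by
  rw [map_center_map, map_puigSubgroup]
  rfl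


theorem relSeq_normal (H : Subgroup G) [hH : H.Normal] (n : ℕ) : (relSeq H n).Normal := by
  refine ⟨fun z hz g => ?_⟩
  have hg : g ∈ Subgroup.normalizer (H : Set G) := by
    rw [Subgroup.normalizer_eq_top_iff.mpr hH]; trivial
  have h1 : g * z * g⁻¹ ∈ (relSeq H n).map (MulAut.conj g).toMonoidHom := ⟨z, hz, rfl⟩
  rwa [relSeq_conj H hg] at h1

theorem relUpper_normal (H : Subgroup G) [hH : H.Normal] : (relUpper H).Normal := by
  refine ⟨fun z hz g => ?_⟩
  have hg : g ∈ Subgroup.normalizer (H : Set G) := by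
    rw [Subgroup.normalizer_eq_top_iff.mpr hH]; trivial
  exact relUpper_conj_mem H hg hz

theorem cent_relSeq_le [Finite G] (p : ℕ) [Fact p.Prime] (H : Subgroup G) (hH : IsPGroup p H)
    (i : ℕ) (hi : 0 < i) :
    H ⊓ Subgroup.centralizer ((relSeq H i : Subgroup G) : Set G) ≤ relSeq H i := by
  by_cases hH1 : H = ⊥
  · intro x hx
    have h0 : x ∈ H := hx.1
    rw [hH1] at h0
    rw [Subgroup.mem_bot.mp h0]
    exact Subgroup.one_mem _
  · have : Nontrivial ↥H := (Subgroup.nontrivial_iff_ne_bot H).mpr hH1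
    have h1 := ((Cfsg.Agent.S1466.result (R := ↥H) p hH).1 i hi).2
    intro x hx
    have hx1 : x ∈ H := hx.1
    have hx2 : x ∈ Subgroup.centralizer ((relSeq H i : Subgroup G) : Set G) := hx.2
    have h2 : (⟨x, hx1⟩ : ↥H) ∈
        Subgroup.centralizer ((Cfsg.puigSeq ↥H i : Subgroup ↥H) : Set ↥H) := by
      rw [Subgroup.mem_centralizer_iff]
      intro y hy
      apply Subtype.ext
      have hy' : (y : G) ∈ relSeq H i := by
        rw [← map_puigSeq]; exact ⟨y, hy, rfl⟩
      exact (Subgroup.mem_centralizer_iff.mp hx2) _ hy'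
    have h3 := h1 h2
    rw [← map_puigSeq]
    exact ⟨_, h3, rfl⟩

theorem cent_relUpper_le [Finite G] (p : ℕ) [Fact p.Prime] (H : Subgroup G) (hH : IsPGroup p H) :
    H ⊓ Subgroup.centralizer ((relUpper H : Subgroup G) : Set G) ≤ relUpper H := by
  by_cases hH1 : H = ⊥
  · intro x hx
    have h0 : x ∈ H := hx.1
    rw [hH1] at h0
    rw [Subgroup.mem_bot.mp h0]
    exact Subgroup.one_mem _
  · have : Nontrivial ↥H := (Subgroup.nontrivial_iff_ne_bot H).mpr hH1
    have h1 := (Cfsg.Agent.S1466.result (R := ↥H) p hH).2.2.1.2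
    intro x hx
    have hx1 : x ∈ H := hx.1
    have hx2 : x ∈ Subgroup.centralizer ((relUpper H : Subgroup G) : Set G) := hx.2
    have h2 : (⟨x, hx1⟩ : ↥H) ∈
        Subgroup.centralizer ((Cfsg.puigSubgroup ↥H : Subgroup ↥H) : Set ↥H) := by
      rw [Subgroup.mem_centralizer_iff]
      intro y hy
      apply Subtype.ext
      have hy' : (y : G) ∈ relUpper H := by
        rw [← map_puigSubgroup]; exact ⟨y, hy, rfl⟩
      exact (Subgroup.mem_centralizer_iff.mp hx2) _ hy'
    have h3 := h1 h2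
    rw [← map_puigSubgroup]
    exact ⟨_, h3, rfl⟩


theorem zUpper_map {G' : Type*} [Group G'] (φ : G →* G') (H : Subgroup G)
    (hinj : Set.InjOn φ (H : Set G)) :
    (zUpper H).map φ = zUpper (H.map φ) := by
  unfold zUpper
  rw [← relUpper_map φ H hinj]
  ext y
  constructor
  · rintro ⟨z, hz, rfl⟩
    have hz1 : z ∈ relUpper H := hz.1
    have hz2 : z ∈ Subgroup.centralizer ((relUpper H : Subgroup G) : Set G) := hz.2
    refine Subgroup.mem_inf.mpr ⟨⟨z, hz1, rfl⟩, ?_⟩
    rw [Subgroup.mem_centralizer_iff]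
    rintro _ ⟨l, hl, rfl⟩
    rw [← map_mul, ← map_mul, (Subgroup.mem_centralizer_iff.mp hz2) l hl]
  · intro hy
    obtain ⟨⟨l, hl, rfl⟩, hc⟩ := Subgroup.mem_inf.mp hy
    have hl1 : l ∈ relUpper H := hl
    refine ⟨l, Subgroup.mem_inf.mpr ⟨hl1, ?_⟩, rfl⟩
    rw [Subgroup.mem_centralizer_iff]
    intro l' hl'
    have hl2 : l' ∈ relUpper H := hl'
    have h1 := (Subgroup.mem_centralizer_iff.mp hc) (φ l') ⟨l', hl2, rfl⟩
    rw [← map_mul, ← map_mul] at h1
    exact hinj (H.mul_mem (relUpper_le H hl2) (relUpper_le H hl1))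
      (H.mul_mem (relUpper_le H hl1) (relUpper_le H hl2)) h1


end Cfsg.Agent.Lib.Helper12.Puig
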