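import Mathlib
import Cfsg.Prelude.Def_CaseTheorems
import Cfsg.Prelude.Def_Local
import Cfsg.Agent.S0640
import Cfsg.Agent.Lib.Helper1.Hall2
import Cfsg.Agent.Lib.Helper1.Cores
import Cfsg.Agent.Lib.Helper11.PConstrained
import Cfsg.Agent.Lib.Helper12.Rk2Main

/-!
Helper lemmas (helper12): solvable groups of odd order and `p`-rank at most two, modulo the
`p'`-core.
-/

set_option autoImplicit false
set_option linter.style.haveILetI false

namespace Cfsg.Agent.Lib.Helper12.Rk2Solv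

open scoped commutatorElement
open Cfsg.Agent.Lib.Helper12

variable {G : Type*} [Group G] [Finite G]

/-- the `p`-rank does not grow in the quotient by a normal `p'`-subgroup -/
theorem prank_quotient (p k : ℕ) [Fact p.Prime] (K : Subgroup G) [K.Normal]
    (hK : (Nat.card K).Coprime p) (hrk : Cfsg.PRankLE p k G) : Cfsg.PRankLE p k (G ⧸ K) := by
  classical
  intro Ab hAbc hAbp
  obtain ⟨L, hL⟩ : ∃ L : Subgroup G, L = Ab.comap (QuotientGroup.mk' K) := ⟨_, rfl⟩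
  have hLmem : ∀ x : G, x ∈ L ↔ QuotientGroup.mk' K x ∈ Ab := by
    intro x; rw [hL]; exact Subgroup.mem_comap
  obtain ⟨S⟩ : Nonempty (Sylow p ↥L) := inferInstance
  obtain ⟨f, hf'⟩ : ∃ f : ↥L →* ↥Ab, ∀ x : ↥L, ((f x : ↥Ab) : G ⧸ K) = QuotientGroup.mk' K x :=
    ⟨((QuotientGroup.mk' K).comp L.subtype).codRestrict Ab (fun x => (hLmem x).mp x.2),
      fun x => rfl⟩
  have hf : Function.Surjective f := by
    rintro ⟨a, ha⟩
    obtain ⟨g, rfl⟩ := QuotientGroup.mk'_surjective K a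
    exact ⟨⟨g, (hLmem g).mpr ha⟩, Subtype.ext (hf' _)⟩
  have hAbP : IsPGroup p ↥Ab := fun a => ⟨1, by
    rw [pow_one]; exact Subtype.ext (hAbp a a.2)⟩
  have htop : (⊤ : Subgroup ↥Ab) = (S : Subgroup ↥L).map f := by
    have h := (S.mapSurjective hf).is_maximal' (Q := ⊤) (hAbP.to_subgroup ⊤) le_top
    rw [h, Sylow.coe_mapSurjective]
  obtain ⟨S', hS'⟩ : ∃ S' : Subgroup G, S' = (S : Subgroup ↥L).map L.subtype := ⟨_, rfl⟩
  have hS'p : IsPGroup p ↥S' := by rw [hS']; exact S.isPGroup'.map _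
  have hS'L : S' ≤ L := by rw [hS']; exact Subgroup.map_subtype_le _
  have hdisj : ∀ x ∈ S', x ∈ K → x = 1 := by
    intro x hx hxK
    obtain ⟨j, hj⟩ := hS'p ⟨x, hx⟩
    have hj' : x ^ p ^ j = 1 := congrArg Subtype.val hj
    have h1 : orderOf x ∣ p ^ j := orderOf_dvd_of_pow_eq_one hj'
    have h2 : orderOf x ∣ Nat.card K := by
      have := orderOf_dvd_natCard (⟨x, hxK⟩ : ↥K)
      rwa [Subgroup.orderOf_mk] at this
    have h3 : (Nat.card K).Coprime (p ^ j) := Nat.Coprime.pow_right j hK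
    exact orderOf_eq_one_iff.mp (Nat.eq_one_of_dvd_coprimes h3 h2 h1)
  have hS'comm : IsMulCommutative ↥S' := by
    refine ⟨⟨fun a b => ?_⟩⟩
    apply Subtype.ext
    have h1 : ⁅(a : G), (b : G)⁆ ∈ S' := by
      rw [commutatorElement_def]
      exact S'.mul_mem (S'.mul_mem (S'.mul_mem a.2 b.2) (S'.inv_mem a.2)) (S'.inv_mem b.2)
    have h2 : ⁅(a : G), (b : G)⁆ ∈ K := by
      rw [← QuotientGroup.eq_one_iff]
      have e : ((⁅(a : G), (b : G)⁆ : G) : G ⧸ K) =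
          ⁅QuotientGroup.mk' K a, QuotientGroup.mk' K b⁆ :=
        map_commutatorElement (QuotientGroup.mk' K) _ _
      rw [e, commutatorElement_eq_one_iff_mul_comm]
      exact congrArg Subtype.val (hAbc.is_comm.comm ⟨_, (hLmem a).mp (hS'L a.2)⟩
        ⟨_, (hLmem b).mp (hS'L b.2)⟩)
    exact commutatorElement_eq_one_iff_mul_comm.mp (hdisj _ h1 h2)
  have hS'exp : ∀ a ∈ S', a ^ p = 1 := by
    intro a ha
    apply hdisj _ (S'.pow_mem ha p)
    have : QuotientGroup.mk' K (a ^ p) = 1 := by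
      rw [map_pow]; exact hAbp _ ((hLmem a).mp (hS'L ha))
    exact (QuotientGroup.eq_one_iff _).mp this
  have hle := hrk S' hS'comm hS'exp
  have hcard : Nat.card ↥Ab ≤ Nat.card ↥S' := by
    have h1 : Nat.card ↥Ab ≤ Nat.card ↥(S : Subgroup ↥L) := by
      apply Nat.card_le_card_of_surjective (fun s : ↥(S : Subgroup ↥L) => f s)
      intro a
      have : a ∈ (⊤ : Subgroup ↥Ab) := Subgroup.mem_top a
      rw [htop] at this
      obtain ⟨s, hs, rfl⟩ := this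
      exact ⟨⟨s, hs⟩, rfl⟩
    rw [hS', Subgroup.card_map_of_injective L.subtype_injective]
    exact h1
  exact hcard.trans hle

variable [Group.IsSolvable G]

/-- In a solvable group of odd order and `p`-rank at most two, the derived subgroup of
`G / O_{p'}(G)` is a `p`-group. -/
theorem solv_rk2_comm (hodd : Odd (Nat.card G)) (p : ℕ) [Fact p.Prime] (hp2 : p ≠ 2)
    (hr : Cfsg.PRankLE p 2 G) : IsPGroup p ↥(commutator (G ⧸ Cfsg.pPrimeCore p G)) := by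
  have hK := Cfsg.Agent.Lib.Helper1.pPrimeCore_coprime (G := G) p
  have hrkQ := prank_quotient p 2 (Cfsg.pPrimeCore p G) hK hr
  have hO := Cfsg.Agent.Lib.Helper11.pPrimeCore_quotient_eq_bot (X := G) p
  have hC := Cfsg.Agent.Lib.Helper1.centralizer_pCore_le p hO
  have hRp : IsPGroup p ↥(Cfsg.pCore p (G ⧸ Cfsg.pPrimeCore p G)) :=
    Cfsg.Agent.Lib.Helper1.pCore_isPGroup p
  have hoddQ : Odd (Nat.card (G ⧸ Cfsg.pPrimeCore p G)) :=
    Odd.of_dvd_nat hodd (Subgroup.card_quotient_dvd_card _)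
  have hmain := Rk2Main.rk2_sub p hp2 (Cfsg.pCore p (G ⧸ Cfsg.pPrimeCore p G))
    (⊤ : Subgroup (G ⧸ Cfsg.pPrimeCore p G)) hRp
    (Rk2Main.prank_sub p hrkQ _) (by rw [Subgroup.normalizer_eq_top]) inferInstance
    (by rw [Subgroup.card_top]; exact hoddQ)
  rintro ⟨x, hx⟩
  have hx' : x ∈ ⁅(⊤ : Subgroup (G ⧸ Cfsg.pPrimeCore p G)),
      (⊤ : Subgroup (G ⧸ Cfsg.pPrimeCore p G))⁆ := by
    rwa [commutator_def] at hx
  obtain ⟨k, hk⟩ := hmain x hx'
  obtain ⟨j, hj⟩ := hRp ⟨x ^ p ^ k, hC hk⟩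
  refine ⟨k + j, Subtype.ext ?_⟩
  have hj' : (x ^ p ^ k) ^ p ^ j = 1 := congrArg Subtype.val hj
  rw [Subgroup.coe_pow, pow_add, pow_mul]
  exact hj'

/-- In a solvable group of odd order and `p`-rank at most two, a prime `q ≠ p` dividing
`|G / O_{p'}(G)|` divides `p² - 1` and is less than `p`. -/
theorem solv_rk2_primes (p : ℕ) [Fact p.Prime] (hp2 : p ≠ 2)
    (hr : Cfsg.PRankLE p 2 G) (q : ℕ) (hq : q.Prime) (hqp : q ≠ p)
    (hdvd : q ∣ Nat.card (G ⧸ Cfsg.pPrimeCore p G)) : q ∣ p ^ 2 - 1 ∧ q < p := by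
  have hp : p.Prime := Fact.out
  have hK := Cfsg.Agent.Lib.Helper1.pPrimeCore_coprime (G := G) p
  have hrkQ := prank_quotient p 2 (Cfsg.pPrimeCore p G) hK hr
  have hO := Cfsg.Agent.Lib.Helper11.pPrimeCore_quotient_eq_bot (X := G) p
  have hC := Cfsg.Agent.Lib.Helper1.centralizer_pCore_le p hO
  have hRp : IsPGroup p ↥(Cfsg.pCore p (G ⧸ Cfsg.pPrimeCore p G)) :=
    Cfsg.Agent.Lib.Helper1.pCore_isPGroup p
  have hrkR := Rk2Main.prank_sub p hrkQ (Cfsg.pCore p (G ⧸ Cfsg.pPrimeCore p G))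
  obtain ⟨κ, hκ⟩ : ∃ κ : ↥(⊤ : Subgroup (G ⧸ Cfsg.pPrimeCore p G)) →*
      MulAut ↥(Cfsg.pCore p (G ⧸ Cfsg.pPrimeCore p G)),
      κ = Rk2Main.conjHom (Cfsg.pCore p (G ⧸ Cfsg.pPrimeCore p G)) ⊤
        (by rw [Subgroup.normalizer_eq_top]) := ⟨_, rfl⟩
  have hker : IsPGroup p κ.ker := by
    rintro ⟨⟨x, hxT⟩, hx⟩
    have hxC : x ∈ Subgroup.centralizer
        (Cfsg.pCore p (G ⧸ Cfsg.pPrimeCore p G) : Set (G ⧸ Cfsg.pPrimeCore p G)) := by
      rw [Subgroup.mem_centralizer_iff]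
      intro r hr'
      have h0 : κ ⟨x, hxT⟩ = 1 := MonoidHom.mem_ker.mp hx
      rw [hκ] at h0
      have h1 := congrArg (fun f : MulAut ↥(Cfsg.pCore p (G ⧸ Cfsg.pPrimeCore p G)) =>
        ((f ⟨r, hr'⟩ : ↥(Cfsg.pCore p (G ⧸ Cfsg.pPrimeCore p G))) :
          G ⧸ Cfsg.pPrimeCore p G)) h0
      have h2 : x * r * x⁻¹ = r := h1
      calc r * x = (x * r * x⁻¹) * x := by rw [h2]
        _ = x * r := by group
    obtain ⟨j, hj⟩ := hRp ⟨x, hC hxC⟩
    have hj' : x ^ p ^ j = 1 := congrArg Subtype.val hj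
    exact ⟨j, Subtype.ext (Subtype.ext hj')⟩
  have h1 : Nat.card κ.ker * Nat.card κ.range =
      Nat.card ↥(⊤ : Subgroup (G ⧸ Cfsg.pPrimeCore p G)) := by
    rw [← Subgroup.index_ker]
    exact Subgroup.card_mul_index _
  rw [Subgroup.card_top] at h1
  have h2 : ¬ q ∣ Nat.card κ.ker := by
    obtain ⟨j, hj⟩ := IsPGroup.iff_card.mp hker
    rw [hj]
    intro h
    exact hqp ((Nat.prime_dvd_prime_iff_eq hq hp).mp (hq.dvd_of_dvd_pow h))
  have h3 : q ∣ Nat.card κ.range := by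
    rw [← h1] at hdvd
    exact (hq.dvd_mul.mp hdvd).resolve_left h2
  have h4 : q ∣ Nat.card (MulAut ↥(Cfsg.pCore p (G ⧸ Cfsg.pPrimeCore p G))) :=
    h3.trans (Subgroup.card_subgroup_dvd_card _)
  exact Cfsg.Agent.S0640.result hp2 hRp hrkR q hq hqp h4

end Cfsg.Agent.Lib.Helper12.Rk2Solv
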