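import Mathlib

set_option autoImplicit false
set_option linter.style.haveILetI false

namespace Cfsg.Agent.Lib.Helper12.WTrace

open Matrix

/-- reduction map `ZMod (p^(k+1)) → ZMod p`. -/
noncomputable abbrev cst (p k : ℕ) : ZMod (p ^ (k + 1)) →+* ZMod p :=
  ZMod.castHom (dvd_pow_self p (Nat.succ_ne_zero k)) (ZMod p)

theorem isUnit_of_cst {p k : ℕ} [Fact p.Prime] (x : ZMod (p ^ (k + 1)))
    (h : IsUnit (cst p k x)) : IsUnit x := by
  haveI : NeZero p := ⟨(Fact.out : p.Prime).ne_zero⟩
  have h1 : x = ((x.val : ℕ) : ZMod (p ^ (k + 1))) := (ZMod.natCast_zmod_val x).symm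
  rw [h1] at h ⊢
  rw [map_natCast, ZMod.isUnit_iff_coprime] at h
  rw [ZMod.isUnit_iff_coprime]
  exact Nat.Coprime.pow_right _ h

theorem localRing (p k : ℕ) [Fact p.Prime] : IsLocalRing (ZMod (p ^ (k + 1))) := by
  haveI : Fact (1 < p ^ (k + 1)) :=
    ⟨Nat.one_lt_pow (Nat.succ_ne_zero k) (Fact.out : p.Prime).one_lt⟩
  apply IsLocalRing.of_isUnit_or_isUnit_one_sub_self
  intro a
  by_cases h : cst p k a = 0
  · right
    apply isUnit_of_cst
    rw [map_sub, map_one, h, sub_zero]
    exact isUnit_one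
  · left
    apply isUnit_of_cst
    exact isUnit_iff_ne_zero.mpr h

theorem idem_trace {p k n : ℕ} [Fact p.Prime]
    (e : Matrix (Fin n) (Fin n) (ZMod (p ^ (k + 1)))) (he : e * e = e) :
    ∃ (r : ℕ) (_ : Module.Basis (Fin r) (ZMod (p ^ (k + 1))) (LinearMap.range (Matrix.toLin' e))),
      r ≤ n ∧ Matrix.trace e = (r : ZMod (p ^ (k + 1))) := by
  haveI : Fact (1 < p ^ (k + 1)) :=
    ⟨Nat.one_lt_pow (Nat.succ_ne_zero k) (Fact.out : p.Prime).one_lt⟩
  haveI : NeZero p := ⟨(Fact.out : p.Prime).ne_zero⟩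
  haveI := localRing p k
  set f := Matrix.toLin' e with hf
  have hidem : IsIdempotentElem f := by
    change f ∘ₗ f = f
    rw [hf, ← Matrix.toLin'_mul, he]
  have hproj := LinearMap.IsIdempotentElem.isProj_range f hidem
  haveI : Module.Projective (ZMod (p ^ (k + 1))) (LinearMap.range f) := by
    apply Module.Projective.of_split (LinearMap.range f).subtype f.rangeRestrict
    refine LinearMap.ext fun x => Subtype.ext ?_
    simp only [LinearMap.coe_comp, Function.comp_apply, Submodule.coe_subtype, LinearMap.id_coe, id]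
    exact hproj.map_id _ x.2
  haveI : Module.Projective (ZMod (p ^ (k + 1))) (LinearMap.ker f) := by
    apply Module.Projective.of_split (LinearMap.ker f).subtype
      ((1 - f).codRestrict (LinearMap.ker f) (fun x => by
        rw [LinearMap.mem_ker, LinearMap.sub_apply, map_sub]
        have := congrArg (fun g => g x) hidem.eq
        simp only [Module.End.mul_apply] at this
        rw [Module.End.one_apply, this, sub_self]))
    refine LinearMap.ext fun x => Subtype.ext ?_
    simp only [LinearMap.coe_comp, Function.comp_apply, Submodule.coe_subtype, LinearMap.id_coe, id,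
      LinearMap.codRestrict_apply, LinearMap.sub_apply, Module.End.one_apply]
    rw [LinearMap.mem_ker.mp x.2, sub_zero]
  haveI : Module.Free (ZMod (p ^ (k + 1))) (LinearMap.range f) := Module.free_of_flat_of_isLocalRing
  haveI : Module.Free (ZMod (p ^ (k + 1))) (LinearMap.ker f) := Module.free_of_flat_of_isLocalRing
  refine ⟨Module.finrank (ZMod (p ^ (k + 1))) (LinearMap.range f),
    Module.finBasis _ _, ?_, ?_⟩
  · have h1 := Submodule.finrank_le (LinearMap.range f)
    rwa [Module.finrank_fin_fun] at h1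
  · rw [← hproj.trace, hf, Matrix.trace_toLin'_eq]

/-- entrywise reduction of vectors. -/
noncomputable def redv (p k n : ℕ) (w : Fin n → ZMod (p ^ (k + 1))) : Fin n → ZMod p :=
  fun i => cst p k (w i)

theorem redv_mulVec {p k n : ℕ} (e : Matrix (Fin n) (Fin n) (ZMod (p ^ (k + 1))))
    (w : Fin n → ZMod (p ^ (k + 1))) :
    redv p k n (e *ᵥ w) = (e.map (cst p k)) *ᵥ redv p k n w := by
  funext i
  simp [redv, Matrix.mulVec, dotProduct]

theorem redv_sum_smul {p k n r : ℕ} (c : Fin r → ZMod (p ^ (k + 1)))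
    (v : Fin r → (Fin n → ZMod (p ^ (k + 1)))) :
    redv p k n (∑ i, c i • v i) = ∑ i, cst p k (c i) • redv p k n (v i) := by
  funext j
  simp [redv, Finset.sum_apply, Pi.smul_apply, smul_eq_mul]

theorem redv_surj {p k n : ℕ} (x : Fin n → ZMod p) :
    ∃ w : Fin n → ZMod (p ^ (k + 1)), redv p k n w = x := by
  have hs : Function.Surjective (cst p k) := ZMod.ringHom_surjective _
  refine ⟨fun i => Classical.choose (hs (x i)), ?_⟩
  funext i
  exact Classical.choose_spec (hs (x i))

theorem idem_data {p k n : ℕ} [Fact p.Prime]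
    (e : Matrix (Fin n) (Fin n) (ZMod (p ^ (k + 1)))) (he : e * e = e) :
    ∃ r : ℕ, Matrix.trace e = (r : ZMod (p ^ (k + 1))) ∧ r ≤ n ∧
      Nat.card {x : Fin n → ZMod p | (e.map (cst p k)) *ᵥ x = x} ≤ p ^ r := by
  haveI : NeZero p := ⟨(Fact.out : p.Prime).ne_zero⟩
  obtain ⟨r, b, hrn, htr⟩ := idem_trace e he
  refine ⟨r, htr, hrn, ?_⟩
  set g : (Fin r → ZMod p) → (Fin n → ZMod p) :=
    fun c => ∑ i, c i • redv p k n ((b i : LinearMap.range (Matrix.toLin' e)) : Fin n → ZMod (p ^ (k + 1)))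
    with hg
  have hsub : {x : Fin n → ZMod p | (e.map (cst p k)) *ᵥ x = x} ⊆ Set.range g := by
    intro x hx
    rw [Set.mem_ofPred_eq] at hx
    obtain ⟨w, hw⟩ := redv_surj (k := k) x
    set m' : LinearMap.range (Matrix.toLin' e) := ⟨Matrix.toLin' e w, LinearMap.mem_range_self _ w⟩
      with hm'
    have h1 := b.sum_repr m'
    have h2 : ∑ i, (b.repr m' i) • ((b i : LinearMap.range (Matrix.toLin' e)) :
        Fin n → ZMod (p ^ (k + 1))) = e *ᵥ w := by
      have h3 := congrArg Subtype.val h1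
      rw [Submodule.coe_sum] at h3
      simp only [Submodule.coe_smul] at h3
      rw [h3, hm']
      simp [Matrix.toLin'_apply]
    refine ⟨fun i => cst p k (b.repr m' i), ?_⟩
    rw [hg]
    simp only
    rw [← redv_sum_smul, h2, redv_mulVec, hw, hx]
  calc Nat.card {x : Fin n → ZMod p | (e.map (cst p k)) *ᵥ x = x}
      ≤ Nat.card (Set.range g) := Nat.card_mono (Set.toFinite _) hsub
    _ ≤ Nat.card (Fin r → ZMod p) := Finite.card_range_le g
    _ = p ^ r := by rw [Nat.card_fun, Nat.card_fin, Nat.card_zmod]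

theorem idem_main {p k n : ℕ} [Fact p.Prime] (hq : n + n < p ^ (k + 1))
    (e : Matrix (Fin n) (Fin n) (ZMod (p ^ (k + 1)))) (he : e * e = e) :
    ∃ r : ℕ, r ≤ n ∧ Matrix.trace e = (r : ZMod (p ^ (k + 1))) ∧
      Nat.card {x : Fin n → ZMod p | (e.map (cst p k)) *ᵥ x = x} = p ^ r := by
  haveI : NeZero p := ⟨(Fact.out : p.Prime).ne_zero⟩
  have hp : p.Prime := Fact.out
  have he' : (1 - e) * (1 - e) = 1 - e := by
    rw [mul_sub, mul_one, sub_mul, one_mul, he, sub_self, sub_zero]
  obtain ⟨r, htr, hrn, hle⟩ := idem_data e he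
  obtain ⟨r', htr', hrn', hle'⟩ := idem_data (1 - e) he'
  have hsum : r + r' = n := by
    have h1 : ((r + r' : ℕ) : ZMod (p ^ (k + 1))) = ((n : ℕ) : ZMod (p ^ (k + 1))) := by
      rw [Nat.cast_add, ← htr, ← htr', Matrix.trace_sub, Matrix.trace_one, Fintype.card_fin]
      ring
    rw [ZMod.natCast_eq_natCast_iff'] at h1
    rwa [Nat.mod_eq_of_lt (by omega), Nat.mod_eq_of_lt (by omega)] at h1
  set ē := e.map (cst p k) with hē
  have hidem : ē * ē = ē := by
    rw [hē, ← Matrix.map_mul, he]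
  have hmap : (1 - e).map (cst p k) = 1 - ē := by
    rw [hē, Matrix.map_sub, Matrix.map_one _ (map_zero _) (map_one _)]
    exact map_sub _
  rw [hmap] at hle'
  have hcard : Nat.card {x : Fin n → ZMod p | ē *ᵥ x = x} *
      Nat.card {x : Fin n → ZMod p | (1 - ē) *ᵥ x = x} = p ^ n := by
    rw [← Nat.card_prod]
    have e1 : (Fin n → ZMod p) ≃ {x : Fin n → ZMod p | ē *ᵥ x = x} ×
        {x : Fin n → ZMod p | (1 - ē) *ᵥ x = x} :=
      { toFun := fun x => (⟨ē *ᵥ x, by
            rw [Set.mem_ofPred_eq, Matrix.mulVec_mulVec, hidem]⟩,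
          ⟨x - ē *ᵥ x, by
            rw [Set.mem_ofPred_eq, Matrix.sub_mulVec, Matrix.one_mulVec, Matrix.mulVec_sub,
              Matrix.mulVec_mulVec, hidem, sub_self, sub_zero]⟩)
        invFun := fun ab => ab.1.1 + ab.2.1
        left_inv := fun x => by simp
        right_inv := fun ab => by
          obtain ⟨⟨a, ha⟩, ⟨c, hc⟩⟩ := ab
          rw [Set.mem_ofPred_eq] at ha hc
          have hc0 : ē *ᵥ c = 0 := by
            rw [Matrix.sub_mulVec, Matrix.one_mulVec] at hc
            exact sub_eq_self.mp hc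
          have h1 : ē *ᵥ (a + c) = a := by rw [Matrix.mulVec_add, ha, hc0, add_zero]
          refine Prod.ext (Subtype.ext ?_) (Subtype.ext ?_)
          · exact h1
          · change a + c - ē *ᵥ (a + c) = c
            rw [h1, add_sub_cancel_left] }
    rw [← Nat.card_congr e1, Nat.card_fun, Nat.card_fin, Nat.card_zmod]
  refine ⟨r, hrn, htr, ?_⟩
  apply le_antisymm hle
  by_contra hlt
  push Not at hlt
  have h2 : Nat.card {x : Fin n → ZMod p | ē *ᵥ x = x} *
      Nat.card {x : Fin n → ZMod p | (1 - ē) *ᵥ x = x} < p ^ r * p ^ r' :=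
    Nat.mul_lt_mul_of_lt_of_le hlt hle' (pow_pos hp.pos _)
  rw [hcard, ← pow_add, hsum] at h2
  exact lt_irrefl _ h2

end Cfsg.Agent.Lib.Helper12.WTrace
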