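import Mathlib
import Cfsg.Agent.Lib.Helper12.WTrace

set_option autoImplicit false
set_option linter.style.haveILetI false

namespace Cfsg.Agent.Lib.Helper12.WLift

open Matrix Cfsg.Agent.Lib.Helper12.WTrace

/-- reduction on matrices. -/
noncomputable abbrev rmat (p k n : ℕ) :
    Matrix (Fin n) (Fin n) (ZMod (p ^ (k + 1))) →+* Matrix (Fin n) (Fin n) (ZMod p) :=
  (cst p k).mapMatrix

/-- reduction on units. -/
noncomputable abbrev runit (p k n : ℕ) :
    (Matrix (Fin n) (Fin n) (ZMod (p ^ (k + 1))))ˣ →* (Matrix (Fin n) (Fin n) (ZMod p))ˣ :=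
  Units.map (rmat p k n).toMonoidHom

theorem runit_surj {p k n : ℕ} [Fact p.Prime] (g : (Matrix (Fin n) (Fin n) (ZMod p))ˣ) :
    ∃ g' : (Matrix (Fin n) (Fin n) (ZMod (p ^ (k + 1))))ˣ, runit p k n g' = g := by
  have hs : Function.Surjective (cst p k) := ZMod.ringHom_surjective _
  set M' : Matrix (Fin n) (Fin n) (ZMod (p ^ (k + 1))) :=
    Matrix.of fun i j => Classical.choose (hs ((g : Matrix (Fin n) (Fin n) (ZMod p)) i j)) with hM'
  have hmap : rmat p k n M' = (g : Matrix (Fin n) (Fin n) (ZMod p)) := by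
    ext i j
    simp only [rmat, RingHom.mapMatrix_apply, Matrix.map_apply, hM', Matrix.of_apply]
    exact Classical.choose_spec (hs ((g : Matrix (Fin n) (Fin n) (ZMod p)) i j))
  have hdet : IsUnit M'.det := by
    apply isUnit_of_cst
    rw [RingHom.map_det]
    rw [show (cst p k).mapMatrix M' = (g : Matrix (Fin n) (Fin n) (ZMod p)) from hmap]
    exact (Matrix.isUnit_iff_isUnit_det _).mp g.isUnit
  have hu : IsUnit M' := (Matrix.isUnit_iff_isUnit_det _).mpr hdet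
  refine ⟨hu.unit, ?_⟩
  apply Units.ext
  rw [Units.coe_map]
  exact hmap

theorem natCast_pow_succ_eq_zero (p k n : ℕ) :
    ((p ^ (k + 1) : ℕ) : Matrix (Fin n) (Fin n) (ZMod (p ^ (k + 1)))) = 0 := by
  rw [← map_natCast (algebraMap (ZMod (p ^ (k + 1))) (Matrix (Fin n) (Fin n) (ZMod (p ^ (k + 1)))))]
  rw [ZMod.natCast_self, map_zero]

theorem ker_entry {p k : ℕ} [Fact p.Prime] (x : ZMod (p ^ (k + 1))) (h : cst p k x = 0) :
    ∃ y : ZMod (p ^ (k + 1)), x = (p : ZMod (p ^ (k + 1))) * y := by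
  haveI : NeZero p := ⟨(Fact.out : p.Prime).ne_zero⟩
  have h1 : ((x.val : ℕ) : ZMod (p ^ (k + 1))) = x := ZMod.natCast_zmod_val x
  rw [← h1, map_natCast] at h
  have h2 : p ∣ x.val := (CharP.cast_eq_zero_iff (ZMod p) p x.val).mp h
  obtain ⟨c, hc⟩ := h2
  refine ⟨(c : ZMod (p ^ (k + 1))), ?_⟩
  rw [← h1, hc, Nat.cast_mul]

theorem pow_congr_one {p k n : ℕ} [Fact p.Prime]
    (M : Matrix (Fin n) (Fin n) (ZMod (p ^ (k + 1)))) (h : rmat p k n M = 1) :
    M ^ (p ^ k) = 1 := by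
  set P : Matrix (Fin n) (Fin n) (ZMod (p ^ (k + 1))) :=
    ((p : ℕ) : Matrix (Fin n) (Fin n) (ZMod (p ^ (k + 1)))) with hP
  have hcomm : ∀ Y : Matrix (Fin n) (Fin n) (ZMod (p ^ (k + 1))), P * Y = Y * P :=
    fun Y => (Nat.cast_commute p Y).eq
  have hbase : ∃ Y, M = 1 + P * Y := by
    have hent : ∀ i j, ∃ y, M i j - (1 : Matrix (Fin n) (Fin n) (ZMod (p ^ (k + 1)))) i j
        = (p : ZMod (p ^ (k + 1))) * y := by
      intro i j
      apply ker_entry
      have h1 := congrFun (congrFun h i) j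
      simp only [rmat, RingHom.mapMatrix_apply, Matrix.map_apply] at h1
      rw [map_sub, h1]
      by_cases hij : i = j
      · subst hij; simp
      · simp [Matrix.one_apply_ne hij]
    choose Y hY using hent
    refine ⟨Matrix.of Y, ?_⟩
    ext i j
    have h3 : (P * Matrix.of Y) i j = (p : ZMod (p ^ (k + 1))) * Y i j := by
      rw [hP, ← nsmul_eq_mul, Matrix.smul_apply, Matrix.of_apply, nsmul_eq_mul]
    rw [Matrix.add_apply, h3, ← hY i j]
    ring
  have hA : ∀ x : Matrix (Fin n) (Fin n) (ZMod (p ^ (k + 1))), (∃ Y, x = 1 + P * Y) →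
      ∀ i : ℕ, ∃ Z, x ^ i = 1 + P * Z := by
    intro x ⟨Y, hY⟩ i
    induction i with
    | zero => exact ⟨0, by simp⟩
    | succ i ih =>
      obtain ⟨Z, hZ⟩ := ih
      refine ⟨Z + Y + Z * P * Y, ?_⟩
      rw [pow_succ x i, hZ, hY]
      noncomm_ring
  have hB : ∀ (j : ℕ) (x : Matrix (Fin n) (Fin n) (ZMod (p ^ (k + 1)))),
      (∃ Y, x = 1 + P ^ (j + 1) * Y) → ∃ Y', x ^ p = 1 + P ^ (j + 2) * Y' := by
    intro j x ⟨Y, hY⟩
    have hx1 : ∃ Y0, x = 1 + P * Y0 := ⟨P ^ j * Y, by rw [hY, pow_succ' P j, mul_assoc]⟩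
    choose Z hZ using hA x hx1
    have hsum : ∑ i ∈ Finset.range p, x ^ i = P * (1 + ∑ i ∈ Finset.range p, Z i) := by
      rw [Finset.sum_congr rfl (fun i _ => hZ i), Finset.sum_add_distrib, Finset.sum_const,
        Finset.card_range, nsmul_eq_mul, mul_one, ← Finset.mul_sum, mul_add, mul_one]
    have hgeom := mul_geom_sum x p
    rw [hsum] at hgeom
    refine ⟨Y * (1 + ∑ i ∈ Finset.range p, Z i), ?_⟩
    have h5 : x - 1 = P ^ (j + 1) * Y := by rw [hY]; abel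
    rw [h5] at hgeom
    have h6 : x ^ p = 1 + P ^ (j + 1) * Y * (P * (1 + ∑ i ∈ Finset.range p, Z i)) := by
      rw [hgeom]; abel
    rw [h6]
    congr 1
    calc P ^ (j + 1) * Y * (P * (1 + ∑ i ∈ Finset.range p, Z i))
        = P ^ (j + 1) * (Y * P) * (1 + ∑ i ∈ Finset.range p, Z i) := by
          simp only [mul_assoc]
      _ = P ^ (j + 1) * (P * Y) * (1 + ∑ i ∈ Finset.range p, Z i) := by rw [hcomm Y]
      _ = P ^ (j + 2) * (Y * (1 + ∑ i ∈ Finset.range p, Z i)) := by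
          rw [pow_succ P (j + 1)]; simp only [mul_assoc]
  have hC : ∀ j : ℕ, ∃ Y, M ^ (p ^ j) = 1 + P ^ (j + 1) * Y := by
    intro j
    induction j with
    | zero =>
      obtain ⟨Y, hY⟩ := hbase
      exact ⟨Y, by rw [pow_zero, pow_one, zero_add, pow_one]; exact hY⟩
    | succ j ih =>
      obtain ⟨Y', hY'⟩ := hB j _ ih
      exact ⟨Y', by rw [pow_succ p j, pow_mul]; exact hY'⟩
  obtain ⟨Y, hY⟩ := hC k
  rw [hY, hP, ← Nat.cast_pow, natCast_pow_succ_eq_zero, zero_mul, add_zero]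

theorem units_pow_congr_one {p k n : ℕ} [Fact p.Prime]
    (g : (Matrix (Fin n) (Fin n) (ZMod (p ^ (k + 1))))ˣ) (h : runit p k n g = 1) :
    g ^ (p ^ k) = 1 := by
  apply Units.ext
  rw [Units.val_pow_eq_pow_val, Units.val_one]
  apply pow_congr_one
  have h1 := congrArg Units.val h
  rw [Units.coe_map] at h1
  exact h1

theorem exists_lift {p k n : ℕ} [Fact p.Prime] {A : Type*} [Group A] [Finite A]
    (hA : ¬ p ∣ Nat.card A) (ρ : A →* (Matrix (Fin n) (Fin n) (ZMod p))ˣ) :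
    ∃ ρ' : A →* (Matrix (Fin n) (Fin n) (ZMod (p ^ (k + 1))))ˣ,
      ∀ a, runit p k n (ρ' a) = ρ a := by
  classical
  haveI : NeZero p := ⟨(Fact.out : p.Prime).ne_zero⟩
  have hp : p.Prime := Fact.out
  set Gt : Subgroup (Matrix (Fin n) (Fin n) (ZMod (p ^ (k + 1))))ˣ :=
    ρ.range.comap (runit p k n) with hGt
  set πt : ↥Gt →* (Matrix (Fin n) (Fin n) (ZMod p))ˣ := (runit p k n).comp Gt.subtype with hπt
  set K : Subgroup ↥Gt := πt.ker with hK
  have hKp : IsPGroup p K := by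
    intro g
    refine ⟨k, ?_⟩
    have hg : runit p k n ((g : ↥Gt) : (Matrix (Fin n) (Fin n) (ZMod (p ^ (k + 1))))ˣ) = 1 :=
      (MonoidHom.mem_ker).mp g.2
    apply Subtype.ext
    apply Subtype.ext
    rw [Subgroup.coe_pow, Subgroup.coe_pow, Subgroup.coe_one, Subgroup.coe_one]
    exact units_pow_congr_one _ hg
  obtain ⟨j, hj⟩ := IsPGroup.exists_card_eq hKp
  have hidx : ¬ p ∣ K.index := by
    rw [hK, Subgroup.index_ker]
    intro hdvd
    apply hA
    have h1 : πt.range ≤ ρ.range := by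
      rintro _ ⟨x, rfl⟩
      exact x.2
    exact (hdvd.trans (Subgroup.card_dvd_of_le h1)).trans (Subgroup.card_range_dvd ρ)
  have hcop : Nat.Coprime (Nat.card K) K.index := by
    rw [hj]
    exact Nat.Coprime.pow_left _ ((Nat.Prime.coprime_iff_not_dvd hp).mpr hidx)
  obtain ⟨C, hC⟩ := Subgroup.exists_right_complement'_of_coprime hcop
  have hex : ∀ a : A, ∃ c : ↥Gt, c ∈ C ∧ πt c = ρ a := by
    intro a
    obtain ⟨g', hg'⟩ := runit_surj (k := k) (ρ a)
    have hmem : g' ∈ Gt := by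
      rw [hGt, Subgroup.mem_comap, hg']; exact ⟨a, rfl⟩
    obtain ⟨⟨κ, c⟩, hkc⟩ := hC.2 ⟨g', hmem⟩
    refine ⟨(c : ↥Gt), c.2, ?_⟩
    have h1 : πt (⟨g', hmem⟩ : ↥Gt) = ρ a := hg'
    rw [← h1, ← hkc]
    change πt (c : ↥Gt) = πt ((κ : ↥Gt) * (c : ↥Gt))
    rw [map_mul, (MonoidHom.mem_ker).mp κ.2, one_mul]
  have huniq : ∀ c c' : ↥Gt, c ∈ C → c' ∈ C → πt c = πt c' → c = c' := by
    intro c c' hc hc' h
    have h1 : c⁻¹ * c' ∈ K := by
      rw [hK, MonoidHom.mem_ker, map_mul, map_inv, h, inv_mul_cancel]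
    have h2 : c⁻¹ * c' ∈ K ⊓ C := ⟨h1, C.mul_mem (C.inv_mem hc) hc'⟩
    rw [hC.disjoint.eq_bot, Subgroup.mem_bot] at h2
    exact inv_mul_eq_one.mp h2
  choose f hfC hfπ using hex
  have hmul : ∀ a b : A, f (a * b) = f a * f b := by
    intro a b
    apply huniq _ _ (hfC _) (C.mul_mem (hfC a) (hfC b))
    rw [hfπ, map_mul, map_mul, hfπ, hfπ]
  refine ⟨MonoidHom.mk' (fun a => ((f a : ↥Gt) : (Matrix (Fin n) (Fin n) (ZMod (p ^ (k + 1))))ˣ))
    ?_, fun a => hfπ a⟩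
  intro a b
  rw [hmul]
  rfl

end Cfsg.Agent.Lib.Helper12.WLift
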