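import Mathlib
import Cfsg.Agent.Lib.Helper12.WLift

set_option autoImplicit false
set_option linter.style.haveILetI false

namespace Cfsg.Agent.Lib.Helper12.WCore

open Matrix Cfsg.Agent.Lib.Helper12.WTrace Cfsg.Agent.Lib.Helper12.WLift

theorem frob_compl {A : Type*} [Group A] (U E : Subgroup A) [U.Normal]
    (hUE : U ⊓ E = ⊥) (hsup : U ⊔ E = ⊤) : Subgroup.IsComplement' U E := by
  apply Subgroup.isComplement'_of_disjoint_and_mul_eq_univ (disjoint_iff.mpr hUE)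
  rw [← Subgroup.normal_mul, hsup, Subgroup.coe_top]

/-- Frobenius class sum identity. -/
theorem frob_class_sum {A : Type*} [Group A] [Fintype A] {R : Type*} [AddCommMonoid R]
    (U E : Subgroup A) [Fintype U] [Fintype E] [U.Normal]
    (hUE : U ⊓ E = ⊥) (hsup : U ⊔ E = ⊤)
    (hfpf : ∀ e ∈ E, e ≠ 1 → ∀ u ∈ U, e * u = u * e → u = 1)
    (τ : A → R) (hτ : ∀ x a, τ (x * a * x⁻¹) = τ a) :
    ∑ a : A, τ a + Nat.card U • τ 1 = ∑ u : U, τ u + Nat.card U • ∑ e : E, τ e := by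
  classical
  have hcompl := frob_compl U E hUE hsup
  have hbij : Function.Bijective (fun x : U × E => (x.1 : A) * (x.2 : A)) := hcompl
  have h1 : ∑ a : A, τ a = ∑ e : E, ∑ u : U, τ ((u : A) * (e : A)) := by
    rw [← Fintype.sum_bijective _ hbij (fun x : U × E => τ ((x.1 : A) * (x.2 : A))) τ
      (fun _ => rfl)]
    rw [Fintype.sum_prod_type_right]
  have h2 : ∀ e : E, e ≠ 1 → ∑ u : U, τ ((u : A) * (e : A)) = Nat.card U • τ (e : A) := by
    intro e he
    have he' : (e : A) ≠ 1 := fun h => he (Subtype.ext h)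
    have hmem : ∀ x : U, (x : A) * (e : A) * (x : A)⁻¹ * (e : A)⁻¹ ∈ U := by
      intro x
      have h3 := Subgroup.Normal.conj_mem ‹U.Normal› _ (U.inv_mem x.2) (e : A)
      have h4 := U.mul_mem x.2 h3
      have h5 : (x : A) * ((e : A) * (x : A)⁻¹ * (e : A)⁻¹)
          = (x : A) * (e : A) * (x : A)⁻¹ * (e : A)⁻¹ := by group
      rwa [h5] at h4
    set σ : U → U := fun x => ⟨(x : A) * (e : A) * (x : A)⁻¹ * (e : A)⁻¹, hmem x⟩ with hσ
    have hinj : Function.Injective σ := by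
      intro x y hxy
      have h3 : (x : A) * (e : A) * (x : A)⁻¹ * (e : A)⁻¹
          = (y : A) * (e : A) * (y : A)⁻¹ * (e : A)⁻¹ := congrArg Subtype.val hxy
      have h4 : (e : A) * ((y : A)⁻¹ * (x : A)) = ((y : A)⁻¹ * (x : A)) * (e : A) := by
        have h5 : (x : A) * (e : A) * (x : A)⁻¹ = (y : A) * (e : A) * (y : A)⁻¹ :=
          mul_right_cancel h3
        calc (e : A) * ((y : A)⁻¹ * (x : A))
            = (y : A)⁻¹ * ((y : A) * (e : A) * (y : A)⁻¹) * (x : A) := by group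
          _ = (y : A)⁻¹ * ((x : A) * (e : A) * (x : A)⁻¹) * (x : A) := by rw [h5]
          _ = ((y : A)⁻¹ * (x : A)) * (e : A) := by group
      have h6 := hfpf (e : A) e.2 he' _ (U.mul_mem (U.inv_mem y.2) x.2) h4
      apply Subtype.ext
      exact (inv_mul_eq_one.mp h6).symm
    have hσbij : Function.Bijective σ := Finite.injective_iff_bijective.mp hinj
    rw [← Fintype.sum_bijective σ hσbij (fun x : U => τ (e : A))
      (fun u : U => τ ((u : A) * (e : A))) ?_]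
    · rw [Finset.sum_const, Finset.card_univ, Nat.card_eq_fintype_card]
    · intro x
      have h7 : ((σ x : U) : A) * (e : A) = (x : A) * (e : A) * (x : A)⁻¹ := by
        rw [hσ]; simp
      rw [h7, hτ]
  have h3 : ∑ e : E, ∑ u : U, τ ((u : A) * (e : A))
      = ∑ u : U, τ (u : A) + ∑ e ∈ (Finset.univ : Finset E).erase 1, Nat.card U • τ (e : A) := by
    rw [← Finset.add_sum_erase Finset.univ _ (Finset.mem_univ (1 : E))]
    congr 1
    · simp
    · apply Finset.sum_congr rfl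
      intro e he
      exact h2 e (Finset.ne_of_mem_erase he)
  have h4 : Nat.card U • ∑ e : E, τ (e : A)
      = Nat.card U • τ 1 + ∑ e ∈ (Finset.univ : Finset E).erase 1, Nat.card U • τ (e : A) := by
    rw [← Finset.add_sum_erase Finset.univ _ (Finset.mem_univ (1 : E)), smul_add,
      Finset.smul_sum]
    rfl
  rw [h1, h3, h4, add_assoc, add_comm (∑ e ∈ (Finset.univ : Finset E).erase 1, _)]

theorem sum_trace {p k n : ℕ} [Fact p.Prime] (hq : n + n < p ^ (k + 1))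
    {A : Type*} [Group A] [Finite A] (hA : ¬ p ∣ Nat.card A)
    (ρ : A →* (Matrix (Fin n) (Fin n) (ZMod p))ˣ)
    (ρ' : A →* (Matrix (Fin n) (Fin n) (ZMod (p ^ (k + 1))))ˣ)
    (hρ : ∀ a, runit p k n (ρ' a) = ρ a) (B : Subgroup A) [Fintype B] :
    ∃ d : ℕ, d ≤ n ∧
      Nat.card {x : Fin n → ZMod p |
        ∀ b ∈ B, ((ρ b : (Matrix (Fin n) (Fin n) (ZMod p))ˣ) :
          Matrix (Fin n) (Fin n) (ZMod p)) *ᵥ x = x} = p ^ d ∧
      ∑ b : B, Matrix.trace (((ρ' (b : A) : (Matrix (Fin n) (Fin n) (ZMod (p ^ (k + 1))))ˣ)) :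
          Matrix (Fin n) (Fin n) (ZMod (p ^ (k + 1))))
        = ((Nat.card B * d : ℕ) : ZMod (p ^ (k + 1))) := by
  classical
  have hp : p.Prime := Fact.out
  haveI : NeZero p := ⟨hp.ne_zero⟩
  have hq1 : 1 < p ^ (k + 1) := Nat.one_lt_pow (Nat.succ_ne_zero k) hp.one_lt
  set cB := Nat.card B with hcB
  have hcop : Nat.Coprime cB (p ^ (k + 1)) := by
    apply Nat.Coprime.pow_right
    rw [Nat.coprime_comm, Nat.Prime.coprime_iff_not_dvd hp]
    intro h
    exact hA (h.trans (Subgroup.card_subgroup_dvd_card B))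
  obtain ⟨t, -, ht⟩ := Nat.exists_mul_mod_eq_one_of_coprime hcop hq1
  have ht' : ((cB * t : ℕ) : ZMod (p ^ (k + 1))) = 1 := by
    rw [← ZMod.natCast_mod, ht, Nat.cast_one]
  have htp : ((cB * t : ℕ) : ZMod p) = 1 := by
    have := congrArg (cst p k) ht'
    rwa [map_natCast, map_one] at this
  have hcastM : ((cB * t : ℕ) : Matrix (Fin n) (Fin n) (ZMod (p ^ (k + 1)))) = 1 := by
    rw [← map_natCast (algebraMap (ZMod (p ^ (k + 1)))
      (Matrix (Fin n) (Fin n) (ZMod (p ^ (k + 1))))), ht', map_one]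
  set s : Matrix (Fin n) (Fin n) (ZMod (p ^ (k + 1))) :=
    ∑ b : B, ((ρ' (b : A) : (Matrix (Fin n) (Fin n) (ZMod (p ^ (k + 1))))ˣ) :
      Matrix (Fin n) (Fin n) (ZMod (p ^ (k + 1)))) with hs
  set sbar : Matrix (Fin n) (Fin n) (ZMod p) :=
    ∑ b : B, ((ρ (b : A) : (Matrix (Fin n) (Fin n) (ZMod p))ˣ) :
      Matrix (Fin n) (Fin n) (ZMod p)) with hsbar
  have hss : s * s = (cB : Matrix (Fin n) (Fin n) (ZMod (p ^ (k + 1)))) * s := by
    rw [hs, Finset.sum_mul_sum]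
    have h1 : ∀ b : B, ∑ b' : B,
        ((ρ' (b : A) : (Matrix (Fin n) (Fin n) (ZMod (p ^ (k + 1))))ˣ) :
          Matrix (Fin n) (Fin n) (ZMod (p ^ (k + 1)))) *
        ((ρ' (b' : A) : (Matrix (Fin n) (Fin n) (ZMod (p ^ (k + 1))))ˣ) :
          Matrix (Fin n) (Fin n) (ZMod (p ^ (k + 1)))) = s := by
      intro b
      rw [hs]
      apply Fintype.sum_bijective (fun b' : B => b * b') (Group.mulLeft_bijective b)
      intro b'
      rw [Subgroup.coe_mul, map_mul, Units.val_mul]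
    rw [Finset.sum_congr rfl (fun b _ => h1 b), Finset.sum_const, Finset.card_univ,
      nsmul_eq_mul, hcB, Nat.card_eq_fintype_card]
  have hbs : ∀ b0 ∈ B, ((ρ b0 : (Matrix (Fin n) (Fin n) (ZMod p))ˣ) :
      Matrix (Fin n) (Fin n) (ZMod p)) * sbar = sbar := by
    intro b0 hb0
    rw [hsbar, Finset.mul_sum]
    apply Fintype.sum_bijective (fun b' : B => (⟨b0, hb0⟩ : B) * b')
      (Group.mulLeft_bijective _)
    intro b'
    rw [Subgroup.coe_mul, map_mul, Units.val_mul]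
  set e : Matrix (Fin n) (Fin n) (ZMod (p ^ (k + 1))) :=
    (t : Matrix (Fin n) (Fin n) (ZMod (p ^ (k + 1)))) * s with he
  have hidem : e * e = e := by
    rw [he]
    rw [mul_assoc, ← mul_assoc s, ← (Nat.cast_commute t s).eq, mul_assoc, ← mul_assoc, hss,
      ← mul_assoc, mul_assoc (t : Matrix (Fin n) (Fin n) (ZMod (p ^ (k + 1)))), ← Nat.cast_mul t,
      mul_comm t, hcastM, mul_one]
  obtain ⟨r, hrn, htr, hcard⟩ := idem_main hq e hidem
  have hmap : e.map (cst p k) = (t : Matrix (Fin n) (Fin n) (ZMod p)) * sbar := by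
    change rmat p k n e = _
    rw [he, map_mul, map_natCast, hs, map_sum, hsbar]
    congr 1
    apply Finset.sum_congr rfl
    intro b _
    have h1 := congrArg Units.val (hρ (b : A))
    rw [Units.coe_map] at h1
    exact h1
  have hcastMp : ((cB * t : ℕ) : Matrix (Fin n) (Fin n) (ZMod p)) = 1 := by
    rw [← map_natCast (algebraMap (ZMod p) (Matrix (Fin n) (Fin n) (ZMod p))), htp, map_one]
  have hset : {x : Fin n → ZMod p | ∀ b ∈ B, ((ρ b : (Matrix (Fin n) (Fin n) (ZMod p))ˣ) :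
      Matrix (Fin n) (Fin n) (ZMod p)) *ᵥ x = x}
      = {x : Fin n → ZMod p | (e.map (cst p k)) *ᵥ x = x} := by
    ext x
    simp only [Set.mem_ofPred_eq]
    rw [hmap]
    constructor
    · intro hx
      have h1 : sbar *ᵥ x = cB • x := by
        rw [hsbar, Matrix.sum_mulVec]
        rw [Finset.sum_congr rfl (fun (b : B) _ => hx (b : A) b.2), Finset.sum_const, Finset.card_univ,
          hcB, Nat.card_eq_fintype_card]
      rw [← Matrix.mulVec_mulVec, h1, Matrix.mulVec_smul, Matrix.natCast_mulVec,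
        ← Nat.cast_smul_eq_nsmul (ZMod p) cB, smul_smul, ← Nat.cast_mul, htp, one_smul]
    · intro hx b0 hb0
      have h1 : ((ρ b0 : (Matrix (Fin n) (Fin n) (ZMod p))ˣ) :
          Matrix (Fin n) (Fin n) (ZMod p)) * ((t : Matrix (Fin n) (Fin n) (ZMod p)) * sbar)
          = (t : Matrix (Fin n) (Fin n) (ZMod p)) * sbar := by
        rw [← mul_assoc, ← (Nat.cast_commute t _).eq, mul_assoc, hbs b0 hb0]
      rw [← hx, Matrix.mulVec_mulVec, h1]
  refine ⟨r, hrn, ?_, ?_⟩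
  · rw [hset, hcard]
  · have h1 : (t : ZMod (p ^ (k + 1))) * ∑ b : B,
        Matrix.trace (((ρ' (b : A) : (Matrix (Fin n) (Fin n) (ZMod (p ^ (k + 1))))ˣ)) :
          Matrix (Fin n) (Fin n) (ZMod (p ^ (k + 1)))) = (r : ZMod (p ^ (k + 1))) := by
      have h0 : e = t • s := by rw [he, nsmul_eq_mul]
      rw [← htr, h0, Matrix.trace_smul, hs, Matrix.trace_sum, nsmul_eq_mul]
    have h2 : (cB : ZMod (p ^ (k + 1))) * ((t : ZMod (p ^ (k + 1))) * ∑ b : B,
        Matrix.trace (((ρ' (b : A) : (Matrix (Fin n) (Fin n) (ZMod (p ^ (k + 1))))ˣ)) :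
          Matrix (Fin n) (Fin n) (ZMod (p ^ (k + 1))))) = (cB : ZMod (p ^ (k + 1))) * r := by
      rw [h1]
    rw [← mul_assoc, ← Nat.cast_mul, ht', one_mul] at h2
    rw [h2, Nat.cast_mul]

theorem core {p n : ℕ} [Fact p.Prime] {A : Type*} [Group A] [Finite A] (hA : ¬ p ∣ Nat.card A)
    (ρ : A →* (Matrix (Fin n) (Fin n) (ZMod p))ˣ) (U E : Subgroup A) [U.Normal]
    (hUE : U ⊓ E = ⊥) (hsup : U ⊔ E = ⊤)
    (hfpf : ∀ e ∈ E, e ≠ 1 → ∀ u ∈ U, e * u = u * e → u = 1) :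
    Nat.card {x : Fin n → ZMod p | ∀ b ∈ (⊤ : Subgroup A), ((ρ b : (Matrix (Fin n) (Fin n) (ZMod p))ˣ) : Matrix (Fin n) (Fin n) (ZMod p)) *ᵥ x = x} ^ Nat.card E * p ^ n
    = Nat.card {x : Fin n → ZMod p | ∀ b ∈ E, ((ρ b : (Matrix (Fin n) (Fin n) (ZMod p))ˣ) : Matrix (Fin n) (Fin n) (ZMod p)) *ᵥ x = x} ^ Nat.card E
      * Nat.card {x : Fin n → ZMod p | ∀ b ∈ U, ((ρ b : (Matrix (Fin n) (Fin n) (ZMod p))ˣ) : Matrix (Fin n) (Fin n) (ZMod p)) *ᵥ x = x} := by
  classical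
  have hp : p.Prime := Fact.out
  haveI : NeZero p := ⟨hp.ne_zero⟩
  haveI : Fintype A := Fintype.ofFinite A
  set cE := Nat.card E with hcE
  set cU := Nat.card U with hcU
  set k := (cE + 2) * n + 1 with hk
  have hq0 : k + 1 < p ^ (k + 1) := Nat.lt_pow_self hp.one_lt
  have hq : n + n < p ^ (k + 1) := by
    have : n + n ≤ (cE + 2) * n := by nlinarith
    omega
  have hq2 : (cE + 1) * n < p ^ (k + 1) := by
    have : (cE + 1) * n ≤ (cE + 2) * n := by nlinarith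
    omega
  obtain ⟨ρ', hρ'⟩ := exists_lift (k := k) hA ρ
  set τ : A → ZMod (p ^ (k + 1)) := fun a =>
    Matrix.trace ((ρ' a : (Matrix (Fin n) (Fin n) (ZMod (p ^ (k + 1))))ˣ) :
      Matrix (Fin n) (Fin n) (ZMod (p ^ (k + 1)))) with hτdef
  have hτ : ∀ x a, τ (x * a * x⁻¹) = τ a := by
    intro x a
    simp only [hτdef, map_mul, map_inv, Units.val_mul]
    rw [Matrix.trace_mul_comm, ← mul_assoc, Units.inv_mul, one_mul]
  have hcs := frob_class_sum U E hUE hsup hfpf τ hτ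
  obtain ⟨dA, hdA, hcardA, hsumA⟩ := sum_trace hq hA ρ ρ' hρ' ⊤
  obtain ⟨dU, hdU, hcardU, hsumU⟩ := sum_trace hq hA ρ ρ' hρ' U
  obtain ⟨dE, hdE, hcardE, hsumE⟩ := sum_trace hq hA ρ ρ' hρ' E
  have hA' : ∑ a : A, τ a = ((Nat.card (⊤ : Subgroup A) * dA : ℕ) : ZMod (p ^ (k + 1))) := by
    rw [← hsumA]
    exact (Fintype.sum_equiv Subgroup.topEquiv.toEquiv _ _ (fun _ => rfl)).symm
  have hU' : ∑ u : U, τ (u : A) = ((cU * dU : ℕ) : ZMod (p ^ (k + 1))) := hsumU
  have hE' : ∑ e : E, τ (e : A) = ((cE * dE : ℕ) : ZMod (p ^ (k + 1))) := hsumE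
  have hτ1 : τ 1 = (n : ZMod (p ^ (k + 1))) := by
    simp only [hτdef, map_one, Units.val_one, Matrix.trace_one, Fintype.card_fin]
  have hcardtop : Nat.card (⊤ : Subgroup A) = cU * cE := by
    rw [Subgroup.card_top]
    exact ((frob_compl U E hUE hsup).card_mul_card).symm
  have hcong : ((cU * (cE * dA + n) : ℕ) : ZMod (p ^ (k + 1)))
      = ((cU * (dU + cE * dE) : ℕ) : ZMod (p ^ (k + 1))) := by
    have h1 := hcs
    rw [hA', hτ1, hcardtop, hU', hE', nsmul_eq_mul, nsmul_eq_mul] at h1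
    push_cast at h1 ⊢
    linear_combination h1
  have hmod : cU * (cE * dA + n) ≡ cU * (dU + cE * dE) [MOD p ^ (k + 1)] :=
    (ZMod.natCast_eq_natCast_iff _ _ _).mp hcong
  have hcopU : Nat.gcd (p ^ (k + 1)) cU = 1 :=
    Nat.Coprime.pow_left (k + 1) ((Nat.Prime.coprime_iff_not_dvd hp).mpr
      (fun h => hA (h.trans (Subgroup.card_subgroup_dvd_card U))))
  have hmod2 := Nat.ModEq.cancel_left_of_coprime hcopU hmod
  have heq : cE * dA + n = dU + cE * dE := by
    apply Nat.ModEq.eq_of_lt_of_lt hmod2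
    · have h3 : cE * dA ≤ cE * n := Nat.mul_le_mul_left _ hdA
      nlinarith
    · have h3 : cE * dE ≤ cE * n := Nat.mul_le_mul_left _ hdE
      nlinarith
  rw [hcardA, hcardE, hcardU, ← pow_mul, ← pow_mul, ← pow_add, ← pow_add]
  congr 1
  nlinarith [heq]

end Cfsg.Agent.Lib.Helper12.WCore
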