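import Mathlib
import Cfsg.Agent.Lib.Helper12.WCore

set_option autoImplicit false
set_option linter.style.haveILetI false

namespace Cfsg.Agent.Lib.Helper12.WElem

open Matrix

/-- Linear version: a `ZMod p`-module with additive action. -/
theorem elemLin {A W : Type*} [Group A] [Finite A] [AddCommGroup W] [Finite W] (p : ℕ)
    [Fact p.Prime] [Module (ZMod p) W] (hA : ¬ p ∣ Nat.card A) (L₀ : A → (W →+ W))
    (hL1 : ∀ w, L₀ 1 w = w) (hLmul : ∀ a a' w, L₀ (a * a') w = L₀ a (L₀ a' w))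
    (U E : Subgroup A) [U.Normal] (hUE : U ⊓ E = ⊥) (hsup : U ⊔ E = ⊤)
    (hfpf : ∀ e ∈ E, e ≠ 1 → ∀ u ∈ U, e * u = u * e → u = 1) :
    Nat.card {w : W | ∀ a : A, L₀ a w = w} ^ Nat.card E * Nat.card W
    = Nat.card {w : W | ∀ a ∈ E, L₀ a w = w} ^ Nat.card E
      * Nat.card {w : W | ∀ a ∈ U, L₀ a w = w} := by
  classical
  haveI : NeZero p := ⟨(Fact.out : p.Prime).ne_zero⟩
  obtain ⟨n, ⟨b⟩⟩ : ∃ n : ℕ, Nonempty (Module.Basis (Fin n) (ZMod p) W) :=
    ⟨_, ⟨Module.finBasis (ZMod p) W⟩⟩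
  set L : A → (W →ₗ[ZMod p] W) := fun a => AddMonoidHom.toZModLinearMap p (L₀ a) with hL
  have hLapp : ∀ a (w : W), L a w = L₀ a w := fun a w => rfl
  have hL1' : L 1 = LinearMap.id := by
    apply LinearMap.ext
    intro x
    rw [hLapp, hL1]
    rfl
  have hLmul' : ∀ a a', L (a * a') = (L a).comp (L a') := by
    intro a a'
    apply LinearMap.ext
    intro x
    rw [LinearMap.comp_apply, hLapp, hLapp, hLapp, hLmul]
  set ρ₀ : A →* Matrix (Fin n) (Fin n) (ZMod p) :=
    { toFun := fun a => LinearMap.toMatrix b b (L a)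
      map_one' := by rw [hL1']; exact LinearMap.toMatrix_id b
      map_mul' := fun a a' => by rw [hLmul']; exact LinearMap.toMatrix_comp b b b _ _ } with hρ₀
  set ρ : A →* (Matrix (Fin n) (Fin n) (ZMod p))ˣ := ρ₀.toHomUnits with hρ
  have hρapp : ∀ a, ((ρ a : (Matrix (Fin n) (Fin n) (ZMod p))ˣ) : Matrix (Fin n) (Fin n) (ZMod p))
      = LinearMap.toMatrix b b (L a) := fun a => rfl
  set φ : W ≃ (Fin n → ZMod p) := b.equivFun.toEquiv with hφ
  have hφapp : ∀ w : W, φ w = ⇑(b.repr w) := fun w => rfl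
  have key : ∀ a (w : W), ((ρ a : (Matrix (Fin n) (Fin n) (ZMod p))ˣ) :
      Matrix (Fin n) (Fin n) (ZMod p)) *ᵥ (φ w) = φ (L₀ a w) := by
    intro a w
    rw [hρapp, hφapp, hφapp, LinearMap.toMatrix_mulVec_repr, hLapp]
  have hcard : ∀ (P : A → Prop), Nat.card {w : W | ∀ a, P a → L₀ a w = w}
      = Nat.card {x : Fin n → ZMod p | ∀ a, P a →
          ((ρ a : (Matrix (Fin n) (Fin n) (ZMod p))ˣ) : Matrix (Fin n) (Fin n) (ZMod p)) *ᵥ x = x} := by
    intro P
    apply Nat.card_congr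
    apply φ.subtypeEquiv
    intro w
    simp only [Set.mem_ofPred_eq]
    apply forall₂_congr
    intro a _
    rw [key]
    exact φ.injective.eq_iff.symm
  have hcore := WCore.core hA ρ U E hUE hsup hfpf
  have hV : Nat.card W = p ^ n := by
    rw [Nat.card_congr φ, Nat.card_fun, Nat.card_fin, Nat.card_zmod]
  have h1 : {w : W | ∀ a : A, L₀ a w = w} = {w : W | ∀ a, a ∈ (⊤ : Subgroup A) → L₀ a w = w} := by
    ext w
    simp
  rw [h1, hcard (fun a => a ∈ (⊤ : Subgroup A)), hcard (fun a => a ∈ E),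
    hcard (fun a => a ∈ U), hV]
  exact hcore

/-- Frobenius fixed point formula for an elementary abelian group of exponent `p` on which a
group of order prime to `p` acts. -/
theorem elem {A V : Type*} [Group A] [Finite A] [CommGroup V] [Finite V] (p : ℕ) [Fact p.Prime]
    (hexp : ∀ v : V, v ^ p = 1) (hA : ¬ p ∣ Nat.card A) (ψ : A →* MulAut V)
    (U E : Subgroup A) [U.Normal] (hUE : U ⊓ E = ⊥) (hsup : U ⊔ E = ⊤)
    (hfpf : ∀ e ∈ E, e ≠ 1 → ∀ u ∈ U, e * u = u * e → u = 1) :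
    Nat.card {v : V | ∀ a : A, ψ a v = v} ^ Nat.card E * Nat.card V
    = Nat.card {v : V | ∀ a ∈ E, ψ a v = v} ^ Nat.card E
      * Nat.card {v : V | ∀ a ∈ U, ψ a v = v} := by
  have hpx : ∀ x : Additive V, p • x = 0 := fun x => by
    change p • Additive.ofMul (Additive.toMul x) = 0
    rw [← ofMul_pow, hexp]
    rfl
  have hfinV : Finite (Additive V) := ‹Finite V›
  exact @elemLin A (Additive V) _ _ _ hfinV p _ (AddCommGroup.zmodModule hpx) hA
    (fun a => MonoidHom.toAdditive (ψ a).toMonoidHom)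
    (fun w => by
      change ψ 1 (Additive.toMul w) = Additive.toMul w
      rw [map_one, MulAut.one_apply])
    (fun a a' w => by
      change ψ (a * a') (Additive.toMul w) = ψ a (ψ a' (Additive.toMul w))
      rw [map_mul, MulAut.mul_apply])
    U E _ hUE hsup hfpf

/-- Variant of `elem` for an action given by a family of endomorphisms. -/
theorem elemHom {A V : Type*} [Group A] [Finite A] [CommGroup V] [Finite V] (p : ℕ)
    [Fact p.Prime] (hexp : ∀ v : V, v ^ p = 1) (hA : ¬ p ∣ Nat.card A) (f : A → (V →* V))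
    (hf1 : ∀ v, f 1 v = v) (hfmul : ∀ a a' v, f (a * a') v = f a (f a' v))
    (U E : Subgroup A) [U.Normal] (hUE : U ⊓ E = ⊥) (hsup : U ⊔ E = ⊤)
    (hfpf : ∀ e ∈ E, e ≠ 1 → ∀ u ∈ U, e * u = u * e → u = 1) :
    Nat.card {v : V | ∀ a : A, f a v = v} ^ Nat.card E * Nat.card V
    = Nat.card {v : V | ∀ a ∈ E, f a v = v} ^ Nat.card E
      * Nat.card {v : V | ∀ a ∈ U, f a v = v} := by
  have hpx : ∀ x : Additive V, p • x = 0 := fun x => by
    change p • Additive.ofMul (Additive.toMul x) = 0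
    rw [← ofMul_pow, hexp]
    rfl
  have hfinV : Finite (Additive V) := ‹Finite V›
  exact @elemLin A (Additive V) _ _ _ hfinV p _ (AddCommGroup.zmodModule hpx) hA
    (fun a => MonoidHom.toAdditive (f a))
    (fun w => hf1 (Additive.toMul w))
    (fun a a' w => hfmul a a' (Additive.toMul w))
    U E _ hUE hsup hfpf

end Cfsg.Agent.Lib.Helper12.WElem
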