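import Mathlib
import Cfsg.Agent.Lib.Helper12.WElem

set_option autoImplicit false
set_option linter.style.haveILetI false

namespace Cfsg.Agent.Lib.Helper12.WComm

section Defs

variable {A V : Type*} [Group A] [CommGroup V]

/-- fixed points of a set of operators, as a subgroup. -/
def fixSub (ψ : A →* MulAut V) (S : Set A) : Subgroup V where
  carrier := {v | ∀ a ∈ S, ψ a v = v}
  one_mem' := fun a _ => map_one _
  mul_mem' := fun {x y} hx hy a ha => by rw [map_mul, hx a ha, hy a ha]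
  inv_mem' := fun {x} hx a ha => by rw [map_inv, hx a ha]

theorem mem_fixSub (ψ : A →* MulAut V) (S : Set A) (v : V) :
    v ∈ fixSub ψ S ↔ ∀ a ∈ S, ψ a v = v := Iff.rfl

/-- stabiliser of a vector. -/
def stabOf (ψ : A →* MulAut V) (v : V) : Subgroup A where
  carrier := {a | ψ a v = v}
  one_mem' := by simp
  mul_mem' := fun {a b} ha hb => by
    change ψ (a * b) v = v
    rw [map_mul, MulAut.mul_apply, (show ψ b v = v from hb), (show ψ a v = v from ha)]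
  inv_mem' := fun {a} ha => by
    change ψ a⁻¹ v = v
    rw [map_inv]
    rw [show ((ψ a)⁻¹ : MulAut V) v = (ψ a).symm v from rfl, MulEquiv.symm_apply_eq]
    exact (show ψ a v = v from ha).symm

theorem mem_stabOf (ψ : A →* MulAut V) (v : V) (a : A) : a ∈ stabOf ψ v ↔ ψ a v = v := Iff.rfl

/-- elements preserving a subgroup. -/
def presOf (ψ : A →* MulAut V) (V₀ : Subgroup V) : Subgroup A where
  carrier := {a | ∀ w ∈ V₀, ψ a w ∈ V₀ ∧ ψ a⁻¹ w ∈ V₀}
  one_mem' := by intro w hw; simp [hw]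
  mul_mem' := fun {a b} ha hb w hw =>
    ⟨by rw [map_mul, MulAut.mul_apply]; exact (ha _ (hb w hw).1).1,
     by rw [mul_inv_rev, map_mul, MulAut.mul_apply]; exact (hb _ (ha w hw).2).2⟩
  inv_mem' := fun {a} ha w hw => ⟨(ha w hw).2, by rw [inv_inv]; exact (ha w hw).1⟩

theorem le_normalizer_of_conj_mem {K N : Subgroup A}
    (h : ∀ a ∈ K, ∀ x ∈ N, a * x * a⁻¹ ∈ N) : K ≤ Subgroup.normalizer (N : Set A) := by
  intro a ha
  rw [Subgroup.mem_normalizer_iff]
  intro x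
  constructor
  · exact h a ha x
  · intro hx
    have h1 := h a⁻¹ (K.inv_mem ha) _ hx
    have h2 : a⁻¹ * (a * x * a⁻¹) * a⁻¹⁻¹ = x := by group
    rwa [h2] at h1

theorem card_sub_eq {V₀ T : Subgroup V} {P : V → Prop} (h : ∀ w, w ∈ T ↔ w ∈ V₀ ∧ P w) :
    Nat.card {w : ↥V₀ | P (w : V)} = Nat.card ↥T :=
  Nat.card_congr
    { toFun := fun w => ⟨(w.1 : V), (h _).mpr ⟨w.1.2, w.2⟩⟩
      invFun := fun t => ⟨⟨t.1, ((h _).mp t.2).1⟩, ((h _).mp t.2).2⟩
      left_inv := fun _ => rfl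
      right_inv := fun _ => rfl }

/-- The Frobenius fixed point formula for a pair `(Z, R)` acting on an invariant subgroup. -/
theorem pair_formula [Finite A] [Finite V] (ℓ : ℕ) [Fact ℓ.Prime] (hexp : ∀ v : V, v ^ ℓ = 1)
    (hA : ¬ ℓ ∣ Nat.card A) (ψ : A →* MulAut V) (Z R : Subgroup A)
    (hZR : Z ⊓ R = ⊥) (hRZ : ∀ r ∈ R, ∀ z ∈ Z, r * z * r⁻¹ ∈ Z)
    (hfpf : ∀ r ∈ R, r ≠ 1 → ∀ z ∈ Z, r * z = z * r → z = 1)
    (V₀ : Subgroup V) (hZV : ∀ z ∈ Z, ∀ w ∈ V₀, ψ z w ∈ V₀)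
    (hRV : ∀ r ∈ R, ∀ w ∈ V₀, ψ r w ∈ V₀) :
    Nat.card ↥(V₀ ⊓ fixSub ψ Z ⊓ fixSub ψ R) ^ Nat.card R * Nat.card V₀
      = Nat.card ↥(V₀ ⊓ fixSub ψ R) ^ Nat.card R * Nat.card ↥(V₀ ⊓ fixSub ψ Z) := by
  set B : Subgroup A := Z ⊔ R with hBdef
  have hZB : Z ≤ B := le_sup_left
  have hRB : R ≤ B := le_sup_right
  have hB : B ≤ presOf ψ V₀ :=
    sup_le (fun z hz w hw => ⟨hZV z hz w hw, hZV z⁻¹ (Z.inv_mem hz) w hw⟩)
      (fun r hr w hw => ⟨hRV r hr w hw, hRV r⁻¹ (R.inv_mem hr) w hw⟩)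
  set f : ↥B → (↥V₀ →* ↥V₀) := fun b =>
    ((ψ (b : A)).toMonoidHom.comp V₀.subtype).codRestrict V₀ (fun w => (hB b.2 w w.2).1) with hf
  have hfapp : ∀ (b : ↥B) (w : ↥V₀), ((f b w : ↥V₀) : V) = ψ (b : A) (w : V) := fun b w => rfl
  have hf1 : ∀ w, f 1 w = w := by
    intro w
    apply Subtype.ext
    rw [hfapp, Subgroup.coe_one, map_one, MulAut.one_apply]
  have hfmul : ∀ a a' w, f (a * a') w = f a (f a' w) := by
    intro a a' w
    apply Subtype.ext
    rw [hfapp, hfapp, hfapp, Subgroup.coe_mul, map_mul, MulAut.mul_apply]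
  have hBZ : B ≤ Subgroup.normalizer (Z : Set A) :=
    sup_le Subgroup.le_normalizer (le_normalizer_of_conj_mem hRZ)
  haveI hZn : (Z.subgroupOf B).Normal := Subgroup.normal_subgroupOf_of_le_normalizer hBZ
  have hinf : Z.subgroupOf B ⊓ R.subgroupOf B = ⊥ := by
    rw [Subgroup.eq_bot_iff_forall]
    rintro x ⟨hxZ, hxR⟩
    have h1 : (x : A) ∈ Z ⊓ R := ⟨hxZ, hxR⟩
    rw [hZR, Subgroup.mem_bot] at h1
    exact Subtype.ext h1
  have hsup : Z.subgroupOf B ⊔ R.subgroupOf B = ⊤ := by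
    rw [← Subgroup.subgroupOf_sup hZB hRB, Subgroup.subgroupOf_self]
  have hfpf' : ∀ e ∈ R.subgroupOf B, e ≠ 1 → ∀ u ∈ Z.subgroupOf B, e * u = u * e → u = 1 := by
    intro e he he1 u hu hcomm
    have h1 := hfpf (e : A) he (fun h => he1 (Subtype.ext h)) (u : A) hu
      (congrArg Subtype.val hcomm)
    exact Subtype.ext h1
  have hℓB : ¬ ℓ ∣ Nat.card ↥B := fun h => hA (h.trans (Subgroup.card_subgroup_dvd_card B))
  have hexp' : ∀ w : ↥V₀, w ^ ℓ = 1 := fun w => Subtype.ext (by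
    rw [Subgroup.coe_pow, hexp, Subgroup.coe_one])
  have helem := WElem.elemHom ℓ hexp' hℓB f hf1 hfmul (Z.subgroupOf B) (R.subgroupOf B)
    hinf hsup hfpf'
  have hcardR : Nat.card ↥(R.subgroupOf B) = Nat.card R :=
    Nat.card_congr (Subgroup.subgroupOfEquivOfLe hRB).toEquiv
  rw [hcardR] at helem
  have c1 : Nat.card {w : ↥V₀ | ∀ b : ↥B, f b w = w}
      = Nat.card ↥(V₀ ⊓ fixSub ψ Z ⊓ fixSub ψ R) := by
    have hset : {w : ↥V₀ | ∀ b : ↥B, f b w = w}
        = {w : ↥V₀ | (∀ z ∈ Z, ψ z (w : V) = w) ∧ (∀ r ∈ R, ψ r (w : V) = w)} := by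
      ext w
      constructor
      · intro h
        exact ⟨fun z hz => congrArg Subtype.val (h ⟨z, hZB hz⟩),
          fun r hr => congrArg Subtype.val (h ⟨r, hRB hr⟩)⟩
      · rintro ⟨h1, h2⟩ b
        apply Subtype.ext
        rw [hfapp]
        have h3 : B ≤ stabOf ψ (w : V) := sup_le (fun z hz => h1 z hz) (fun r hr => h2 r hr)
        exact h3 b.2
    rw [hset]
    exact card_sub_eq (V₀ := V₀) (T := V₀ ⊓ fixSub ψ Z ⊓ fixSub ψ R)
      (P := fun w => (∀ z ∈ Z, ψ z w = w) ∧ (∀ r ∈ R, ψ r w = w))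
      (fun w => ⟨fun ⟨⟨h1, h2⟩, h3⟩ => ⟨h1, h2, h3⟩, fun ⟨h1, h2, h3⟩ => ⟨⟨h1, h2⟩, h3⟩⟩)
  have c2 : Nat.card {w : ↥V₀ | ∀ b ∈ R.subgroupOf B, f b w = w}
      = Nat.card ↥(V₀ ⊓ fixSub ψ R) := by
    have hset : {w : ↥V₀ | ∀ b ∈ R.subgroupOf B, f b w = w}
        = {w : ↥V₀ | ∀ r ∈ R, ψ r (w : V) = w} := by
      ext w
      constructor
      · intro h r hr
        exact congrArg Subtype.val (h ⟨r, hRB hr⟩ hr)
      · intro h b hb
        apply Subtype.ext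
        rw [hfapp]
        exact h b hb
    rw [hset]
    exact card_sub_eq (V₀ := V₀) (T := V₀ ⊓ fixSub ψ R)
      (P := fun w => ∀ r ∈ R, ψ r w = w) (fun w => Iff.rfl)
  have c3 : Nat.card {w : ↥V₀ | ∀ b ∈ Z.subgroupOf B, f b w = w}
      = Nat.card ↥(V₀ ⊓ fixSub ψ Z) := by
    have hset : {w : ↥V₀ | ∀ b ∈ Z.subgroupOf B, f b w = w}
        = {w : ↥V₀ | ∀ r ∈ Z, ψ r (w : V) = w} := by
      ext w
      constructor
      · intro h r hr
        exact congrArg Subtype.val (h ⟨r, hZB hr⟩ hr)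
      · intro h b hb
        apply Subtype.ext
        rw [hfapp]
        exact h b hb
    rw [hset]
    exact card_sub_eq (V₀ := V₀) (T := V₀ ⊓ fixSub ψ Z)
      (P := fun w => ∀ r ∈ Z, ψ r w = w) (fun w => Iff.rfl)
  rw [c1, c2, c3] at helem
  exact helem

end Defs

section Main

theorem exists_central {G : Type*} [Group G] [Group.IsNilpotent G] [Nontrivial G] :
    ∃ z : G, z ≠ 1 ∧ ∀ g : G, z * g = g * z := by
  by_contra hcon
  push Not at hcon
  have hall : ∀ n, Subgroup.upperCentralSeries G n = ⊥ := by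
    intro n
    induction n with
    | zero => exact Subgroup.upperCentralSeries_zero G
    | succ n ih =>
      rw [Subgroup.eq_bot_iff_forall]
      intro x hx
      rw [Subgroup.mem_upperCentralSeries_succ_iff] at hx
      by_contra hx1
      obtain ⟨g, hg⟩ := hcon x hx1
      have h1 := hx g
      rw [ih, Subgroup.mem_bot, commutatorElement_def] at h1
      apply hg
      have h2 : x * g = (x * g * x⁻¹ * g⁻¹) * (g * x) := by group
      rw [h2, h1, one_mul]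
  obtain ⟨n, hn⟩ := Group.IsNilpotent.nilpotent G
  rw [hall n] at hn
  obtain ⟨x, y, hxy⟩ := exists_pair_ne G
  have hx : x ∈ (⊤ : Subgroup G) := Subgroup.mem_top x
  have hy : y ∈ (⊤ : Subgroup G) := Subgroup.mem_top y
  rw [← hn, Subgroup.mem_bot] at hx hy
  exact hxy (hx.trans hy.symm)

variable {A V : Type*} [Group A] [Finite A] [CommGroup V] [Finite V]

/-- A Frobenius group `KR` with nilpotent kernel and complement of prime order, acting on an
elementary abelian `ℓ`-group of coprime order with at most `ℓ` points fixed by `R`: commutators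
of `K` act trivially. -/
theorem comm_trivial (ℓ : ℕ) [Fact ℓ.Prime] (hexp : ∀ v : V, v ^ ℓ = 1) (hA : ¬ ℓ ∣ Nat.card A)
    (ψ : A →* MulAut V) (K R : Subgroup A) [K.Normal] (hKR : K ⊓ R = ⊥)
    (hfpf : ∀ r ∈ R, r ≠ 1 → ∀ k ∈ K, r * k = k * r → k = 1)
    (hnil : Group.IsNilpotent K) (hfix : Nat.card ↥(fixSub ψ R) ≤ ℓ) :
    ∀ k ∈ K, ∀ k' ∈ K, ∀ w : V, ψ (k * k') w = ψ (k' * k) w := by
  classical
  have hℓ : ℓ.Prime := Fact.out
  set p := Nat.card R with hp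
  have hRK : ∀ r ∈ R, ∀ k ∈ K, r * k * r⁻¹ ∈ K := fun r _ k hk => ‹K.Normal›.conj_mem k hk r
  have hform : ∀ (Z : Subgroup A), Z ≤ K → (∀ r ∈ R, ∀ z ∈ Z, r * z * r⁻¹ ∈ Z) →
      Nat.card ↥(fixSub ψ Z ⊓ fixSub ψ R) ^ p * Nat.card V
        = Nat.card ↥(fixSub ψ R) ^ p * Nat.card ↥(fixSub ψ Z) := by
    intro Z hZK hRZ
    have h1 := pair_formula ℓ hexp hA ψ Z R
      (by rw [eq_bot_iff, ← hKR]; exact inf_le_inf_right R hZK) hRZ
      (fun r hr hr1 z hz => hfpf r hr hr1 z (hZK hz)) ⊤ (fun _ _ _ _ => Subgroup.mem_top _)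
      (fun _ _ _ _ => Subgroup.mem_top _)
    simp only [top_inf_eq, Subgroup.card_top] at h1
    exact h1
  set FR := fixSub ψ R with hFR
  set FK := fixSub ψ K with hFK
  have hK := hform K le_rfl hRK
  have hFRpos : 0 < Nat.card ↥FR := Nat.card_pos
  have hpgV : IsPGroup ℓ V := fun g => ⟨1, by rw [pow_one]; exact hexp g⟩
  have hcardsub : ∀ W : Subgroup V, ∃ n, Nat.card ↥W = ℓ ^ n := fun W =>
    IsPGroup.exists_card_eq (hpgV.to_subgroup W)
  have hallK : (∀ k ∈ K, ∀ w : V, ψ k w = w) →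
      ∀ k ∈ K, ∀ k' ∈ K, ∀ w : V, ψ (k * k') w = ψ (k' * k) w := by
    intro h k hk k' hk' w
    rw [h _ (K.mul_mem hk hk'), h _ (K.mul_mem hk' hk)]
  by_cases hcase : Nat.card ↥(FK ⊓ FR) = Nat.card ↥FR
  · apply hallK
    rw [hcase] at hK
    have h1 : Nat.card V = Nat.card ↥FK := Nat.eq_of_mul_eq_mul_left (pow_pos hFRpos p) hK
    have h2 : FK = ⊤ := (Subgroup.card_eq_iff_eq_top FK).mp h1.symm
    intro k hk w
    have h3 : w ∈ FK := by rw [h2]; exact Subgroup.mem_top w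
    exact h3 k hk
  -- main case
  have hFRℓ : Nat.card ↥FR = ℓ := by
    obtain ⟨n, hn⟩ := hcardsub FR
    have hn1 : n ≤ 1 := by
      by_contra hcon
      push Not at hcon
      have h1 : ℓ ^ 2 ≤ ℓ ^ n := Nat.pow_le_pow_right hℓ.pos hcon
      have h2 : ℓ < ℓ ^ 2 := by nlinarith [hℓ.one_lt]
      omega
    interval_cases n
    · exfalso
      apply hcase
      have h1 : Nat.card ↥(FK ⊓ FR) ≤ Nat.card ↥FR := Subgroup.card_le_of_le inf_le_right
      have h2 : 0 < Nat.card ↥(FK ⊓ FR) := Nat.card_pos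
      rw [pow_zero] at hn
      omega
    · rw [hn, pow_one]
  have hFA : FK ⊓ FR = ⊥ := by
    apply Subgroup.eq_bot_of_card_eq
    have h1 : Nat.card ↥(FK ⊓ FR) ∣ Nat.card ↥FR := Subgroup.card_dvd_of_le inf_le_right
    rw [hFRℓ] at h1 hcase
    rcases (Nat.dvd_prime hℓ).mp h1 with h | h
    · exact h
    · exact absurd h hcase
  have hV : Nat.card V = ℓ ^ p * Nat.card ↥FK := by
    rw [hFA, Subgroup.card_bot, one_pow, one_mul, hFRℓ] at hK
    exact hK
  haveI : Fact (Nat.card ↥FR).Prime := ⟨by rw [hFRℓ]; exact hℓ⟩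
  obtain ⟨v, hvFR, hv1⟩ : ∃ v ∈ FR, v ≠ 1 := by
    have h1 : FR ≠ ⊥ := by
      intro h
      rw [h, Subgroup.card_bot] at hFRℓ
      exact hℓ.one_lt.ne hFRℓ
    obtain ⟨x, hx⟩ := (Subgroup.ne_bot_iff_exists_ne_one).mp h1
    exact ⟨x.1, x.2, fun h => hx (Subtype.ext h)⟩
  have hFRv : ∀ w ∈ FR, w ∈ Subgroup.zpowers v := by
    intro w hw
    have h1 : (⟨w, hw⟩ : ↥FR) ∈ Subgroup.zpowers (⟨v, hvFR⟩ : ↥FR) :=
      mem_zpowers_of_prime_card rfl (fun h => hv1 (congrArg Subtype.val h))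
    obtain ⟨j, hj⟩ := h1
    exact ⟨j, by simpa using congrArg Subtype.val hj⟩
  have hvK : v ∉ FK := by
    intro h
    have h1 : v ∈ FK ⊓ FR := ⟨h, hvFR⟩
    rw [hFA, Subgroup.mem_bot] at h1
    exact hv1 h1
  have hRv : ∀ r ∈ R, ψ r v = v := fun r hr => hvFR r hr
  -- dichotomy
  have hdich : ∀ (Z : Subgroup A), Z ≤ K → (∀ r ∈ R, ∀ z ∈ Z, r * z * r⁻¹ ∈ Z) →
      fixSub ψ Z = FK ∨ fixSub ψ Z = ⊤ := by
    intro Z hZK hRZ
    have h1 := hform Z hZK hRZ
    rw [hV, hFRℓ] at h1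
    have hle : FK ≤ fixSub ψ Z := fun w hw z hz => hw z (hZK hz)
    have h2 : Nat.card ↥(fixSub ψ Z ⊓ FR) ∣ ℓ := by
      rw [← hFRℓ]; exact Subgroup.card_dvd_of_le inf_le_right
    rcases (Nat.dvd_prime hℓ).mp h2 with h | h
    · left
      rw [h, one_pow, one_mul] at h1
      have h3 : Nat.card ↥FK = Nat.card ↥(fixSub ψ Z) :=
        Nat.eq_of_mul_eq_mul_left (pow_pos hℓ.pos p) h1
      exact (Subgroup.eq_of_le_of_card_ge hle h3.symm.le).symm
    · right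
      rw [h] at h1
      have h3 : ℓ ^ p * Nat.card ↥FK = Nat.card ↥(fixSub ψ Z) :=
        Nat.eq_of_mul_eq_mul_left (pow_pos hℓ.pos p) h1
      rw [← hV] at h3
      exact (Subgroup.card_eq_iff_eq_top _).mp h3.symm
  -- the stabiliser of v acts trivially
  set S : Subgroup A := K ⊓ stabOf ψ v with hSdef
  have hS : ∀ s ∈ S, ∀ w : V, ψ s w = w := by
    have hRS : ∀ r ∈ R, ∀ s ∈ S, r * s * r⁻¹ ∈ S := by
      intro r hr s hs
      refine ⟨hRK r hr s hs.1, ?_⟩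
      change ψ (r * s * r⁻¹) v = v
      rw [map_mul, map_mul, MulAut.mul_apply, MulAut.mul_apply,
        hRv r⁻¹ (R.inv_mem hr), (show ψ s v = v from hs.2), hRv r hr]
    rcases hdich S inf_le_left hRS with h | h
    · exfalso
      apply hvK
      rw [← h]
      intro s hs
      exact hs.2
    · intro s hs w
      have h1 : w ∈ fixSub ψ S := by rw [h]; exact Subgroup.mem_top w
      exact h1 s hs
  by_cases htriv : ∀ k ∈ K, ψ k = 1
  · apply hallK
    intro k hk w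
    rw [htriv k hk, MulAut.one_apply]
  push Not at htriv
  obtain ⟨k0, hk0K, hk0⟩ := htriv
  -- the centre of the image
  haveI : Nontrivial ↥(K.map ψ) :=
    ⟨⟨⟨ψ k0, Subgroup.mem_map_of_mem ψ hk0K⟩, 1, fun h => hk0 (congrArg Subtype.val h)⟩⟩
  haveI := hnil
  haveI : Group.IsNilpotent ↥(K.map ψ) :=
    Group.nilpotent_of_surjective (ψ.subgroupMap K) (ψ.subgroupMap_surjective K)
  obtain ⟨ζ, hζ1, hζc⟩ := exists_central (G := ↥(K.map ψ))
  obtain ⟨z0, hz0K, hz0⟩ := ζ.2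
  set Z : Subgroup A :=
    K ⊓ (Subgroup.centralizer ((K.map ψ : Subgroup (MulAut V)) : Set (MulAut V))).comap ψ
    with hZdef
  have hZK : Z ≤ K := inf_le_left
  have hZc : ∀ z ∈ Z, ∀ k ∈ K, ψ k * ψ z = ψ z * ψ k := by
    intro z hz k hk
    exact (Subgroup.mem_centralizer_iff.mp hz.2) (ψ k) (Subgroup.mem_map_of_mem ψ hk)
  have hz0Z : z0 ∈ Z := by
    refine ⟨hz0K, ?_⟩
    change ψ z0 ∈ Subgroup.centralizer ((K.map ψ : Subgroup (MulAut V)) : Set (MulAut V))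
    rw [Subgroup.mem_centralizer_iff]
    intro g hg
    have h1 := hζc ⟨g, hg⟩
    have h2 := congrArg Subtype.val h1
    rw [Subgroup.coe_mul, Subgroup.coe_mul, ← hz0] at h2
    exact h2.symm
  have hz0ne : ψ z0 ≠ 1 := by
    rw [hz0]
    exact fun h => hζ1 (Subtype.ext h)
  have hRZ : ∀ r ∈ R, ∀ z ∈ Z, r * z * r⁻¹ ∈ Z := by
    intro r hr z hz
    refine ⟨hRK r hr z hz.1, ?_⟩
    change ψ (r * z * r⁻¹) ∈ Subgroup.centralizer ((K.map ψ : Subgroup (MulAut V)) : Set (MulAut V))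
    rw [Subgroup.mem_centralizer_iff]
    rintro _ ⟨k, hk, rfl⟩
    have hk' : r⁻¹ * k * r ∈ K := by
      have := hRK r⁻¹ (R.inv_mem hr) k hk
      rwa [inv_inv] at this
    have hbc := hZc z hz _ hk'
    have e1 : ψ k = ψ r * ψ (r⁻¹ * k * r) * (ψ r)⁻¹ := by
      rw [← map_inv, ← map_mul, ← map_mul]
      congr 1
      group
    have e2 : ψ (r * z * r⁻¹) = ψ r * ψ z * (ψ r)⁻¹ := by
      rw [map_mul, map_mul, map_inv]
    rw [e1, e2]
    calc ψ r * ψ (r⁻¹ * k * r) * (ψ r)⁻¹ * (ψ r * ψ z * (ψ r)⁻¹)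
        = ψ r * (ψ (r⁻¹ * k * r) * ψ z) * (ψ r)⁻¹ := by group
      _ = ψ r * (ψ z * ψ (r⁻¹ * k * r)) * (ψ r)⁻¹ := by rw [hbc]
      _ = ψ r * ψ z * (ψ r)⁻¹ * (ψ r * ψ (r⁻¹ * k * r) * (ψ r)⁻¹) := by group
  have hFZ : fixSub ψ Z = FK := by
    rcases hdich Z hZK hRZ with h | h
    · exact h
    · exfalso
      apply hz0ne
      ext w
      have h1 : w ∈ fixSub ψ Z := by rw [h]; exact Subgroup.mem_top w
      rw [MulAut.one_apply]
      exact h1 z0 hz0Z
  -- orbits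
  have hinvW : ∀ (T : Subgroup A), T ≤ K → (∀ r ∈ R, ∀ t ∈ T, r * t * r⁻¹ ∈ T) →
      (∀ a ∈ T, ∀ w ∈ Subgroup.closure {w : V | ∃ t ∈ T, w = ψ t v},
        ψ a w ∈ Subgroup.closure {w : V | ∃ t ∈ T, w = ψ t v}) ∧
      (∀ r ∈ R, ∀ w ∈ Subgroup.closure {w : V | ∃ t ∈ T, w = ψ t v},
        ψ r w ∈ Subgroup.closure {w : V | ∃ t ∈ T, w = ψ t v}) := by
    intro T _ hRT
    constructor
    · intro a ha w hw
      have h1 : Subgroup.closure {w : V | ∃ t ∈ T, w = ψ t v}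
          ≤ (Subgroup.closure {w : V | ∃ t ∈ T, w = ψ t v}).comap (ψ a).toMonoidHom := by
        rw [Subgroup.closure_le]
        rintro _ ⟨t, ht, rfl⟩
        apply Subgroup.subset_closure
        exact ⟨a * t, T.mul_mem ha ht, by simp [map_mul]⟩
      exact h1 hw
    · intro r hr w hw
      have h1 : Subgroup.closure {w : V | ∃ t ∈ T, w = ψ t v}
          ≤ (Subgroup.closure {w : V | ∃ t ∈ T, w = ψ t v}).comap (ψ r).toMonoidHom := by
        rw [Subgroup.closure_le]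
        rintro _ ⟨t, ht, rfl⟩
        apply Subgroup.subset_closure
        refine ⟨r * t * r⁻¹, hRT r hr t ht, ?_⟩
        change ψ r (ψ t v) = ψ (r * t * r⁻¹) v
        rw [map_mul, map_mul, MulAut.mul_apply, MulAut.mul_apply, hRv r⁻¹ (R.inv_mem hr)]
      exact h1 hw
  set VK : Subgroup V := Subgroup.closure {w : V | ∃ t ∈ K, w = ψ t v} with hVK
  set V0 : Subgroup V := Subgroup.closure {w : V | ∃ t ∈ Z, w = ψ t v} with hV0
  have hV0K : V0 ≤ VK := by
    apply Subgroup.closure_mono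
    rintro _ ⟨t, ht, rfl⟩
    exact ⟨t, hZK ht, rfl⟩
  have hvV0 : v ∈ V0 := Subgroup.subset_closure ⟨1, Z.one_mem, by simp⟩
  have hFRV0 : FR ≤ V0 := fun w hw => (Subgroup.zpowers_le.mpr hvV0) (hFRv w hw)
  -- the norm argument
  haveI : Fintype ↥K := Fintype.ofFinite _
  have hVKFK : ∀ w ∈ VK, w ∈ FK → w = 1 := by
    set N : V →* V := ∏ k : ↥K, (ψ (k : A)).toMonoidHom with hN
    have hNapp : ∀ w, N w = ∏ k : ↥K, ψ (k : A) w := by
      intro w
      rw [hN, MonoidHom.finsetProd_apply]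
      rfl
    have hNv : N v = 1 := by
      have h1 : N v ∈ FK ⊓ FR := by
        constructor
        · intro k0 hk0
          rw [hNapp, map_prod]
          apply Fintype.prod_bijective (fun k : ↥K => (⟨k0, hk0⟩ : ↥K) * k)
            (Group.mulLeft_bijective _)
          intro k
          rw [Subgroup.coe_mul, map_mul, MulAut.mul_apply]
        · intro r hr
          rw [hNapp, map_prod]
          have hbij : Function.Bijective
              (fun k : ↥K => (⟨r * (k : A) * r⁻¹, hRK r hr k k.2⟩ : ↥K)) := by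
            apply Finite.injective_iff_bijective.mp
            intro k k' hkk'
            have h2 : r * (k : A) * r⁻¹ = r * (k' : A) * r⁻¹ := congrArg Subtype.val hkk'
            apply Subtype.ext
            exact mul_left_cancel (mul_right_cancel h2)
          apply Fintype.prod_bijective _ hbij
          intro k
          change ψ r (ψ (k : A) v) = ψ (r * (k : A) * r⁻¹) v
          rw [map_mul, map_mul, MulAut.mul_apply, MulAut.mul_apply, hRv r⁻¹ (R.inv_mem hr)]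
      rw [hFA, Subgroup.mem_bot] at h1
      exact h1
    have hNk : ∀ k0 ∈ K, ∀ w, N (ψ k0 w) = N w := by
      intro k0 hk0 w
      rw [hNapp, hNapp]
      apply Fintype.prod_bijective (fun k : ↥K => k * (⟨k0, hk0⟩ : ↥K))
        (Group.mulRight_bijective _)
      intro k
      rw [Subgroup.coe_mul, map_mul, MulAut.mul_apply]
    have hle : VK ≤ N.ker := by
      rw [hVK, Subgroup.closure_le]
      rintro _ ⟨t, ht, rfl⟩
      change N (ψ t v) = 1
      rw [hNk t ht, hNv]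
    intro w hw hwK
    have h1 : N w = 1 := hle hw
    rw [hNapp] at h1
    have h2 : ∏ k : ↥K, ψ (k : A) w = w ^ Fintype.card ↥K := by
      rw [Finset.prod_congr rfl (fun (k : ↥K) _ => hwK (k : A) k.2), Finset.prod_const,
        Finset.card_univ]
    rw [h2] at h1
    have h3 : orderOf w ∣ Fintype.card ↥K := orderOf_dvd_of_pow_eq_one h1
    have h4 : orderOf w ∣ ℓ := orderOf_dvd_of_pow_eq_one (hexp w)
    rcases (Nat.dvd_prime hℓ).mp h4 with h | h
    · exact orderOf_eq_one_iff.mp h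
    · exfalso
      apply hA
      rw [h] at h3
      rw [← Nat.card_eq_fintype_card] at h3
      exact h3.trans (Subgroup.card_subgroup_dvd_card K)
  -- cardinalities of V0 and VK
  have hcardV0 : Nat.card ↥V0 = ℓ ^ p := by
    have h1 := pair_formula ℓ hexp hA ψ Z R
      (by rw [eq_bot_iff, ← hKR]; exact inf_le_inf_right R hZK) hRZ
      (fun r hr hr1 z hz => hfpf r hr hr1 z (hZK hz)) V0 (hinvW Z hZK hRZ).1 (hinvW Z hZK hRZ).2
    have h2 : V0 ⊓ fixSub ψ Z = ⊥ := by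
      rw [Subgroup.eq_bot_iff_forall]
      rintro w ⟨hw0, hwZ⟩
      rw [hFZ] at hwZ
      exact hVKFK w (hV0K hw0) hwZ
    have h3 : V0 ⊓ fixSub ψ R = FR := inf_eq_right.mpr hFRV0
    rw [h2, h3, bot_inf_eq, Subgroup.card_bot, one_pow, one_mul, mul_one, hFRℓ] at h1
    exact h1
  have hcardVK : Nat.card ↥VK = ℓ ^ p := by
    have h1 := pair_formula ℓ hexp hA ψ K R hKR hRK hfpf VK (hinvW K le_rfl hRK).1
      (hinvW K le_rfl hRK).2
    have h2 : VK ⊓ fixSub ψ K = ⊥ := by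
      rw [Subgroup.eq_bot_iff_forall]
      rintro w ⟨hw0, hwK⟩
      exact hVKFK w hw0 hwK
    have h3 : VK ⊓ fixSub ψ R = FR := inf_eq_right.mpr (hFRV0.trans hV0K)
    rw [h2, h3, bot_inf_eq, Subgroup.card_bot, one_pow, one_mul, mul_one, hFRℓ] at h1
    exact h1
  have hV0eq : V0 = VK := Subgroup.eq_of_le_of_card_ge hV0K (by rw [hcardV0, hcardVK])
  -- the commutative algebra generated by Z
  set 𝒵 : Subgroup (V →* V) :=
    Subgroup.closure {φ : V →* V | ∃ z ∈ Z, φ = (ψ z).toMonoidHom} with h𝒵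
  have hi : ∀ φ ∈ 𝒵, ∀ k ∈ K, ∀ w, φ (ψ k w) = ψ k (φ w) := by
    intro φ hφ
    induction hφ using Subgroup.closure_induction with
    | mem φ hφ =>
      obtain ⟨z, hz, rfl⟩ := hφ
      intro k hk w
      have h1 := congrArg (fun g : MulAut V => g w) (hZc z hz k hk)
      simp only [MulAut.mul_apply] at h1
      exact h1.symm
    | one => intro k hk w; simp
    | mul φ₁ φ₂ _ _ ih₁ ih₂ =>
      intro k hk w
      rw [MonoidHom.mul_apply, MonoidHom.mul_apply, ih₁ k hk, ih₂ k hk, map_mul]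
    | inv φ _ ih =>
      intro k hk w
      rw [MonoidHom.inv_apply, MonoidHom.inv_apply, ih k hk, map_inv]
  have hii : ∀ φ ∈ 𝒵, ∀ φ' ∈ 𝒵, ∀ w, φ (φ' w) = φ' (φ w) := by
    intro φ hφ φ' hφ'
    induction hφ using Subgroup.closure_induction with
    | mem φ hφ =>
      obtain ⟨z, hz, rfl⟩ := hφ
      intro w
      exact (hi φ' hφ' z (hZK hz) w).symm
    | one => intro w; simp
    | mul φ₁ φ₂ _ _ ih₁ ih₂ =>
      intro w
      rw [MonoidHom.mul_apply, MonoidHom.mul_apply, ih₁, ih₂, map_mul]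
    | inv φ _ ih =>
      intro w
      rw [MonoidHom.inv_apply, MonoidHom.inv_apply, ih, map_inv]
  have hiii : ∀ k ∈ K, ∃ φ ∈ 𝒵, φ v = ψ k v := by
    intro k hk
    have h1 : ψ k v ∈ VK := Subgroup.subset_closure ⟨k, hk, rfl⟩
    rw [← hV0eq] at h1
    have h2 : V0 = 𝒵.map (MonoidHom.eval v) := by
      rw [h𝒵, MonoidHom.map_closure, hV0]
      congr 1
      ext w
      constructor
      · rintro ⟨z, hz, rfl⟩
        exact ⟨(ψ z).toMonoidHom, ⟨z, hz, rfl⟩, rfl⟩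
      · rintro ⟨φ, ⟨z, hz, rfl⟩, rfl⟩
        exact ⟨z, hz, rfl⟩
    rw [h2] at h1
    obtain ⟨φ, hφ, hφv⟩ := h1
    exact ⟨φ, hφ, hφv⟩
  intro k hk k' hk' w
  obtain ⟨φ, hφ, hφv⟩ := hiii k hk
  obtain ⟨φ', hφ', hφ'v⟩ := hiii k' hk'
  have hv2 : ψ (k * k') v = ψ (k' * k) v := by
    rw [map_mul, map_mul, MulAut.mul_apply, MulAut.mul_apply, ← hφ'v, ← hφv,
      ← hi φ' hφ' k hk, ← hi φ hφ k' hk', ← hφ'v, ← hφv]
    exact (hii φ hφ φ' hφ' v).symm
  have hc : (k' * k)⁻¹ * (k * k') ∈ S := by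
    refine ⟨K.mul_mem (K.inv_mem (K.mul_mem hk' hk)) (K.mul_mem hk hk'), ?_⟩
    change ψ ((k' * k)⁻¹ * (k * k')) v = v
    rw [map_mul, MulAut.mul_apply, hv2, map_inv, MulAut.inv_apply_self]
  have h1 : k * k' = (k' * k) * ((k' * k)⁻¹ * (k * k')) := by group
  rw [h1, map_mul, MulAut.mul_apply, hS _ hc]

end Main

end Cfsg.Agent.Lib.Helper12.WComm
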