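import Mathlib

set_option autoImplicit false

namespace Cfsg.Agent.Lib.Helper12.XsEig

open Finset

variable {K U : Type*} [Field K] [AddCommGroup U] [Module K U]

/-- commutant of a set of endomorphisms, as a submodule. -/
def cen (S : Set (Module.End K U)) : Submodule K (Module.End K U) where
  carrier := {φ | ∀ g ∈ S, g * φ = φ * g}
  zero_mem' := fun g _ => by rw [mul_zero, zero_mul]
  add_mem' := fun {a b} ha hb g hg => by rw [mul_add, add_mul, ha g hg, hb g hg]
  smul_mem' := fun c a ha g hg => by rw [mul_smul_comm, smul_mul_assoc, ha g hg]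

theorem mem_cen (S : Set (Module.End K U)) (φ : Module.End K U) :
    φ ∈ cen S ↔ ∀ g ∈ S, g * φ = φ * g := Iff.rfl

theorem geom_zero (ω : K) (r : ℕ) (h1 : ω ^ r = 1) (hne : ω ≠ 1) :
    ∑ j ∈ range r, ω ^ j = 0 := by
  have h := mul_geom_sum ω r
  rw [h1, sub_self] at h
  rcases mul_eq_zero.mp h with h | h
  · exact absurd (sub_eq_zero.mp h) hne
  · exact h

/-- spectral projection. -/
noncomputable def proj (f : Module.End K U) (r : ℕ) (ω : K) : Module.End K U :=
  (r : K)⁻¹ • ∑ j ∈ range r, (ω⁻¹) ^ j • f ^ j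

theorem mul_proj (f : Module.End K U) (r : ℕ) (hr0 : r ≠ 0) (ω : K) (hf : f ^ r = 1)
    (hω : ω ^ r = 1) : f * proj f r ω = ω • proj f r ω := by
  have hω0 : ω ≠ 0 := by
    rintro rfl
    rw [zero_pow hr0] at hω
    exact zero_ne_one hω
  unfold proj
  rw [mul_smul_comm, smul_comm ω]
  congr 1
  rw [Finset.mul_sum]
  have h1 : ∀ j, f * ((ω⁻¹) ^ j • f ^ j) = ω • ((ω⁻¹) ^ (j + 1) • f ^ (j + 1)) := by
    intro j
    rw [mul_smul_comm, ← pow_succ', smul_smul]
    congr 1
    rw [pow_succ, mul_comm ω, mul_assoc, inv_mul_cancel₀ hω0, mul_one]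
  rw [Finset.sum_congr rfl (fun j _ => h1 j), ← Finset.smul_sum]
  congr 1
  have h2 := Finset.sum_range_succ' (fun j => (ω⁻¹) ^ j • f ^ j) r
  have h3 := Finset.sum_range_succ (fun j => (ω⁻¹) ^ j • f ^ j) r
  rw [h3] at h2
  have h4 : (ω⁻¹) ^ r • f ^ r = (ω⁻¹) ^ 0 • f ^ 0 := by
    rw [inv_pow, hω, inv_one, hf, pow_zero, pow_zero]
  rw [h4] at h2
  exact (add_right_cancel h2).symm

theorem pow_mul_proj (f : Module.End K U) (r : ℕ) (hr0 : r ≠ 0) (ω : K) (hf : f ^ r = 1)
    (hω : ω ^ r = 1) (j : ℕ) : f ^ j * proj f r ω = ω ^ j • proj f r ω := by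
  induction j with
  | zero => rw [pow_zero, pow_zero, one_mul, one_smul]
  | succ j ih =>
    rw [pow_succ, mul_assoc, mul_proj f r hr0 ω hf hω, mul_smul_comm, ih, smul_smul, pow_succ,
      mul_comm]

theorem proj_comm (f : Module.End K U) (r : ℕ) (ω : K) : proj f r ω * f = f * proj f r ω := by
  unfold proj
  rw [smul_mul_assoc, mul_smul_comm, Finset.sum_mul, Finset.mul_sum]
  congr 1
  apply Finset.sum_congr rfl
  intro j _
  rw [smul_mul_assoc, mul_smul_comm, ← pow_succ, ← pow_succ']

theorem proj_mul_proj [DecidableEq K] (f : Module.End K U) (r : ℕ) (hr0 : r ≠ 0) (hrK : (r : K) ≠ 0) (ω ω' : K)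
    (hf : f ^ r = 1) (hω : ω ^ r = 1) (hω' : ω' ^ r = 1) :
    proj f r ω' * proj f r ω = if ω' = ω then proj f r ω else 0 := by
  have hω0 : ω' ≠ 0 := by
    rintro rfl
    rw [zero_pow hr0] at hω'
    exact zero_ne_one hω'
  have h1 : proj f r ω' * proj f r ω
      = ((r : K)⁻¹ * ∑ j ∈ range r, (ω'⁻¹ * ω) ^ j) • proj f r ω := by
    conv_lhs => rw [proj]
    rw [smul_mul_assoc, Finset.sum_mul, mul_smul, Finset.sum_smul]
    congr 1
    apply Finset.sum_congr rfl
    intro j _
    rw [smul_mul_assoc, pow_mul_proj f r hr0 ω hf hω, smul_smul, mul_pow]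
  rw [h1]
  split_ifs with h
  · subst h
    rw [inv_mul_cancel₀ hω0]
    simp only [one_pow, Finset.sum_const, Finset.card_range, nsmul_eq_mul, mul_one]
    rw [inv_mul_cancel₀ hrK, one_smul]
  · rw [geom_zero (ω'⁻¹ * ω) r (by rw [mul_pow, inv_pow, hω', hω, inv_one, one_mul])
      (fun h2 => h (by
        have := congrArg (fun t => ω' * t) h2
        simp only [mul_one] at this
        rw [← mul_assoc, mul_inv_cancel₀ hω0, one_mul] at this
        exact this.symm)), mul_zero, zero_smul]

theorem proj_one_eq_zero (f : Module.End K U) (r : ℕ) (hr0 : r ≠ 0) (hf : f ^ r = 1)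
    (hfix : ∀ u : U, f u = u → u = 0) : proj f r 1 = 0 := by
  apply LinearMap.ext
  intro u
  have h := mul_proj f r hr0 1 hf (one_pow r)
  rw [one_smul] at h
  have h2 : f (proj f r 1 u) = proj f r 1 u := by
    have := congrArg (fun φ : Module.End K U => φ u) h
    exact this
  rw [hfix _ h2]
  rfl

theorem sum_proj (f : Module.End K U) (r : ℕ) (hr : r.Prime) (hrK : (r : K) ≠ 0) (ζ : K)
    (hζ : IsPrimitiveRoot ζ r) :
    ∑ i ∈ range r, proj f r (ζ ^ i) = 1 := by
  unfold proj
  rw [← Finset.smul_sum, Finset.sum_comm]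
  have h1 : ∀ j ∈ range r, ∑ i ∈ range r, ((ζ ^ i)⁻¹) ^ j • f ^ j
      = (if j = 0 then (r : K) else 0) • f ^ j := by
    intro j hj
    rw [← Finset.sum_smul]
    congr 1
    have h2 : ∀ i, ((ζ ^ i)⁻¹) ^ j = ((ζ⁻¹) ^ j) ^ i := by
      intro i
      rw [← inv_pow, ← pow_mul, ← pow_mul, mul_comm]
    rw [Finset.sum_congr rfl (fun i _ => h2 i)]
    split_ifs with hj0
    · subst hj0
      simp
    · apply geom_zero
      · rw [← pow_mul, mul_comm, pow_mul, inv_pow, hζ.pow_eq_one, inv_one, one_pow]
      · intro h3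
        rw [inv_pow, inv_eq_one] at h3
        exact hζ.pow_ne_one_of_pos_of_lt hj0 (Finset.mem_range.mp hj) h3
  rw [Finset.sum_congr rfl h1, Finset.sum_eq_single 0]
  · rw [if_pos rfl, pow_zero, smul_smul, inv_mul_cancel₀ hrK, one_smul]
  · intro j _ hj0
    rw [if_neg hj0, zero_smul]
  · intro h
    exact absurd (Finset.mem_range.mpr hr.pos) h

/-- the key inequality: an endomorphism of prime order `r` without fixed vectors has a
commutant of dimension at least `d ^ 2 / (r - 1)`. -/
theorem commutant_ineq [Module.Finite K U] (f : Module.End K U) (r : ℕ) (hr : r.Prime)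
    (hrK : (r : K) ≠ 0) (hf : f ^ r = 1) (hfix : ∀ u : U, f u = u → u = 0) (ζ : K)
    (hζ : IsPrimitiveRoot ζ r) :
    (Module.finrank K U) ^ 2
      ≤ (r - 1) * Module.finrank K ↥(cen ({f} : Set (Module.End K U))) := by
  classical
  have hr0 : r ≠ 0 := hr.ne_zero
  haveI : NeZero r := ⟨hr0⟩
  set ω : Fin r → K := fun i => ζ ^ (i : ℕ) with hω
  have hωr : ∀ i, ω i ^ r = 1 := fun i => by
    rw [hω]
    simp only
    rw [← pow_mul, mul_comm, pow_mul, hζ.pow_eq_one, one_pow]
  have hωinj : ∀ i k, ω i = ω k → i = k := fun i k h => Fin.ext (hζ.pow_inj i.2 k.2 h)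
  set p : Fin r → Module.End K U := fun i => proj f r (ω i) with hp
  set W : Fin r → Submodule K U := fun i => LinearMap.range (p i) with hW
  have hsum : ∑ i, p i = 1 := by
    have h := sum_proj f r hr hrK ζ hζ
    rw [← Fin.sum_univ_eq_sum_range (fun i => proj f r (ζ ^ i)) r] at h
    exact h
  have horth : ∀ i k, p i * p k = if i = k then p k else 0 := by
    intro i k
    have h := proj_mul_proj f r hr0 hrK (ω k) (ω i) hf (hωr k) (hωr i)
    by_cases hik : i = k
    · rw [if_pos hik]
      rw [if_pos (by rw [hik])] at h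
      exact h
    · rw [if_neg hik]
      rw [if_neg (fun h' => hik (hωinj i k h'))] at h
      exact h
  have hfW : ∀ i (w : U), w ∈ W i → f w = ω i • w := by
    rintro i w ⟨v, rfl⟩
    have := congrArg (fun φ : Module.End K U => φ v) (mul_proj f r hr0 (ω i) hf (hωr i))
    exact this
  have hpW : ∀ i k (w : U), w ∈ W k → p i w = if i = k then w else 0 := by
    rintro i k w ⟨v, rfl⟩
    have h := congrArg (fun φ : Module.End K U => φ v) (horth i k)
    have h' : p i (p k v) = (if i = k then p k else 0) v := h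
    rw [h']
    split_ifs <;> rfl
  have hW0 : W 0 = ⊥ := by
    have h1 : ω 0 = 1 := by
      rw [hω]
      simp
    have h2 : p 0 = 0 := by
      rw [hp]
      simp only
      rw [h1]
      exact proj_one_eq_zero f r hr0 hf hfix
    rw [hW]
    simp only
    rw [h2, LinearMap.range_zero]
  have hd : Module.finrank K U ≤ ∑ i, Module.finrank K (W i) := by
    set S : (∀ i, W i) →ₗ[K] U := ∑ i, (W i).subtype ∘ₗ LinearMap.proj i with hS
    have hsurj : Function.Surjective S := by
      intro u
      refine ⟨fun i => ⟨p i u, LinearMap.mem_range_self _ _⟩, ?_⟩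
      rw [hS, LinearMap.sum_apply]
      simp only [LinearMap.comp_apply, LinearMap.proj_apply, Submodule.subtype_apply]
      rw [← LinearMap.sum_apply, hsum]
      rfl
    have h := LinearMap.finrank_le_finrank_of_surjective hsurj
    rwa [Module.finrank_pi_fintype] at h
  have he : ∑ i, Module.finrank K (W i) ^ 2
      ≤ Module.finrank K ↥(cen ({f} : Set (Module.End K U))) := by
    set Ψ₀ : (∀ i, (W i →ₗ[K] W i)) →ₗ[K] Module.End K U :=
      { toFun := fun ψ => ∑ i, (W i).subtype ∘ₗ ψ i ∘ₗ (p i).rangeRestrict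
        map_add' := fun a b => by
          simp only [Pi.add_apply, LinearMap.add_comp, LinearMap.comp_add,
            Finset.sum_add_distrib]
        map_smul' := fun c a => by
          simp only [Pi.smul_apply, LinearMap.smul_comp, LinearMap.comp_smul,
            Finset.smul_sum, RingHom.id_apply] } with hΨ₀
    have hΨapp : ∀ ψ (u : U), Ψ₀ ψ u = ∑ i, ((ψ i ((p i).rangeRestrict u) : W i) : U) := by
      intro ψ u
      rw [hΨ₀]
      simp only [LinearMap.coe_mk, AddHom.coe_mk, LinearMap.sum_apply, LinearMap.comp_apply,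
        Submodule.subtype_apply]
    have hmem : ∀ ψ, Ψ₀ ψ ∈ cen ({f} : Set (Module.End K U)) := by
      intro ψ g hg
      rw [Set.mem_singleton_iff] at hg
      subst hg
      apply LinearMap.ext
      intro u
      change g (Ψ₀ ψ u) = Ψ₀ ψ (g u)
      rw [hΨapp, hΨapp, map_sum]
      apply Finset.sum_congr rfl
      intro i _
      rw [hfW i _ (ψ i ((p i).rangeRestrict u)).2]
      have h1 : (p i).rangeRestrict (g u) = ω i • (p i).rangeRestrict u := by
        apply Subtype.ext
        change p i (g u) = ω i • p i u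
        have h2 : p i (g u) = g (p i u) := by
          have := congrArg (fun φ : Module.End K U => φ u) (proj_comm g r (ω i))
          exact this
        rw [h2, hfW i _ (LinearMap.mem_range_self _ _)]
      rw [h1, map_smul, Submodule.coe_smul]
    set Ψ := LinearMap.codRestrict (cen ({f} : Set (Module.End K U))) Ψ₀ hmem with hΨ
    have hinj : Function.Injective Ψ := by
      rw [← LinearMap.ker_eq_bot, LinearMap.ker_eq_bot']
      intro ψ h0
      have h1 : Ψ₀ ψ = 0 := congrArg Subtype.val h0
      funext k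
      apply LinearMap.ext
      intro w
      apply Subtype.ext
      have h2 : Ψ₀ ψ (w : U) = 0 := by rw [h1]; rfl
      rw [hΨapp, Finset.sum_eq_single k] at h2
      · have h3 : (p k).rangeRestrict (w : U) = w := by
          apply Subtype.ext
          change p k (w : U) = w
          rw [hpW k k _ w.2, if_pos rfl]
        rw [h3] at h2
        exact h2
      · intro i _ hik
        have h3 : (p i).rangeRestrict (w : U) = 0 := by
          apply Subtype.ext
          change p i (w : U) = 0
          rw [hpW i k _ w.2, if_neg hik]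
        rw [h3, map_zero]
        rfl
      · intro h
        exact absurd (Finset.mem_univ k) h
    have h := LinearMap.finrank_le_finrank_of_injective hinj
    rw [Module.finrank_pi_fintype] at h
    have h4 : ∀ i, Module.finrank K (W i →ₗ[K] W i) = Module.finrank K (W i) ^ 2 := by
      intro i
      rw [Module.finrank_linearMap, sq]
    rw [Finset.sum_congr rfl (fun i _ => h4 i)] at h
    exact h
  have hm0 : Module.finrank K (W 0) = 0 := by
    rw [hW0]
    exact finrank_bot K U
  have h1 : ∑ i, Module.finrank K (W i)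
      = ∑ i ∈ (Finset.univ : Finset (Fin r)).erase 0, Module.finrank K (W i) := by
    rw [← Finset.add_sum_erase Finset.univ _ (Finset.mem_univ (0 : Fin r)), hm0, zero_add]
  have h2 : ∑ i ∈ (Finset.univ : Finset (Fin r)).erase 0, Module.finrank K (W i) ^ 2
      ≤ ∑ i, Module.finrank K (W i) ^ 2 :=
    Finset.sum_le_sum_of_subset (Finset.erase_subset _ _)
  have h3 := sq_sum_le_card_mul_sum_sq (s := (Finset.univ : Finset (Fin r)).erase 0)
    (f := fun i => Module.finrank K (W i))
  rw [Finset.card_erase_of_mem (Finset.mem_univ _), Finset.card_univ, Fintype.card_fin] at h3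
  rw [h1] at hd
  calc (Module.finrank K U) ^ 2
      ≤ (∑ i ∈ (Finset.univ : Finset (Fin r)).erase 0, Module.finrank K (W i)) ^ 2 :=
        Nat.pow_le_pow_left hd 2
    _ ≤ (r - 1) * ∑ i ∈ (Finset.univ : Finset (Fin r)).erase 0, Module.finrank K (W i) ^ 2 := by
        exact_mod_cast h3
    _ ≤ (r - 1) * Module.finrank K ↥(cen ({f} : Set (Module.End K U))) :=
        Nat.mul_le_mul_left _ (h2.trans he)

end Cfsg.Agent.Lib.Helper12.XsEig
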