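import Mathlib
import Cfsg.Agent.Lib.Helper12.XsEig
import Cfsg.Agent.Lib.Helper12.WElem

set_option autoImplicit false
set_option linter.style.haveILetI false

namespace Cfsg.Agent.Lib.Helper12.XsCore

open Cfsg.Agent.Lib.Helper12.XsEig

variable {K U B : Type*} [Field K] [AddCommGroup U] [Module K U] [Group B]

/-- image of a set under a representation. -/
def img (ρ : B →* (Module.End K U)ˣ) (S : Set B) : Set (Module.End K U) :=
  {φ | ∃ b ∈ S, φ = (ρ b : Module.End K U)}

/-- graded independence: coset representatives are independent over the commutant. -/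
theorem indep (ρ : B →* (Module.End K U)ˣ) (P Z : Subgroup B) (lam : B → K)
    (hlam : ∀ z ∈ Z, (ρ z : Module.End K U) = lam z • 1)
    (hcl : ∀ h ∈ P, ∀ g ∈ P, h * g * h⁻¹ * g⁻¹ ∈ Z)
    (hnd : ∀ g ∈ P, g ∉ Z → ∃ h ∈ P, lam (h * g * h⁻¹ * g⁻¹) ≠ 1)
    {ι : Type*} (S : Finset ι) : ∀ (g : ι → B) (φ : ι → Module.End K U),
      (∀ i ∈ S, g i ∈ P) → (∀ i ∈ S, ∀ j ∈ S, i ≠ j → g i * (g j)⁻¹ ∉ Z) →
      (∀ i ∈ S, φ i ∈ cen (img ρ (P : Set B))) →
      ∑ i ∈ S, φ i * (ρ (g i) : Module.End K U) = 0 → ∀ i ∈ S, φ i = 0 := by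
  classical
  induction S using Finset.induction_on with
  | empty =>
    intro g φ _ _ _ _ i hi
    exact absurd hi (Finset.notMem_empty i)
  | insert j S' hj ih =>
    intro g φ hg hpair hφ hsum
    set g' : ι → B := fun i => g i * (g j)⁻¹ with hg'
    have hjmem : j ∈ insert j S' := Finset.mem_insert_self j S'
    have hsub : ∀ i ∈ S', i ∈ insert j S' := fun i hi => Finset.mem_insert_of_mem hi
    have hg'P : ∀ i ∈ S', g' i ∈ P := fun i hi =>
      P.mul_mem (hg i (hsub i hi)) (P.inv_mem (hg j hjmem))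
    have hne : ∀ i ∈ S', i ≠ j := fun i hi h => hj (h ▸ hi)
    have hg'Z : ∀ i ∈ S', g' i ∉ Z := fun i hi => hpair i (hsub i hi) j hjmem (hne i hi)
    have h1 : φ j + ∑ i ∈ S', φ i * (ρ (g' i) : Module.End K U) = 0 := by
      have h := congrArg (fun ψ : Module.End K U =>
        ψ * (((ρ (g j))⁻¹ : (Module.End K U)ˣ) : Module.End K U)) hsum
      simp only [zero_mul] at h
      rw [Finset.sum_mul, Finset.sum_insert hj] at h
      rw [mul_assoc, Units.mul_inv, mul_one] at h
      rw [← h]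
      congr 1
      apply Finset.sum_congr rfl
      intro i _
      rw [mul_assoc, hg']
      simp only
      rw [map_mul, map_inv, Units.val_mul]
    have h2 : ∀ h ∈ P, ∀ i ∈ S', (lam (h * g' i * h⁻¹ * (g' i)⁻¹) - 1) • φ i = 0 := by
      intro h hh
      apply ih g' (fun i => (lam (h * g' i * h⁻¹ * (g' i)⁻¹) - 1) • φ i) hg'P
      · intro i hi k hk hik
        have h3 : g' i * (g' k)⁻¹ = g i * (g k)⁻¹ := by
          rw [hg']
          group
        rw [h3]
        exact hpair i (hsub i hi) k (hsub k hk) hik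
      · intro i hi
        exact (cen (img ρ (P : Set B))).smul_mem _ (hφ i (hsub i hi))
      · have hconj : (ρ h : Module.End K U)
            * (φ j + ∑ i ∈ S', φ i * (ρ (g' i) : Module.End K U))
            * (((ρ h)⁻¹ : (Module.End K U)ˣ) : Module.End K U) = 0 := by
          rw [h1, mul_zero, zero_mul]
        rw [mul_add, add_mul, Finset.mul_sum, Finset.sum_mul] at hconj
        have hcj : (ρ h : Module.End K U) * φ j
            * (((ρ h)⁻¹ : (Module.End K U)ˣ) : Module.End K U) = φ j := by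
          rw [hφ j hjmem _ ⟨h, hh, rfl⟩, mul_assoc, Units.mul_inv, mul_one]
        have hci : ∀ i ∈ S', (ρ h : Module.End K U) * (φ i * (ρ (g' i) : Module.End K U))
            * (((ρ h)⁻¹ : (Module.End K U)ˣ) : Module.End K U)
            = lam (h * g' i * h⁻¹ * (g' i)⁻¹) • (φ i * (ρ (g' i) : Module.End K U)) := by
          intro i hi
          rw [← mul_assoc, hφ i (hsub i hi) _ ⟨h, hh, rfl⟩, mul_assoc, mul_assoc]
          have hc : (ρ h : Module.End K U) * ((ρ (g' i) : Module.End K U)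
              * (((ρ h)⁻¹ : (Module.End K U)ˣ) : Module.End K U))
              = lam (h * g' i * h⁻¹ * (g' i)⁻¹) • (ρ (g' i) : Module.End K U) := by
            have hz := hlam _ (hcl h hh (g' i) (hg'P i hi))
            have h5 : (ρ h : Module.End K U) * ((ρ (g' i) : Module.End K U)
                * (((ρ h)⁻¹ : (Module.End K U)ˣ) : Module.End K U))
                = (ρ (h * g' i * h⁻¹ * (g' i)⁻¹) : Module.End K U)
                  * (ρ (g' i) : Module.End K U) := by
              rw [← Units.val_mul, ← Units.val_mul, ← Units.val_mul, ← map_inv, ← map_mul,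
                ← map_mul, ← map_mul]
              congr 2
              group
            rw [h5, hz, smul_mul_assoc, one_mul]
          rw [hc, mul_smul_comm]
        rw [hcj, Finset.sum_congr rfl hci] at hconj
        have hsubt : (φ j + ∑ i ∈ S', lam (h * g' i * h⁻¹ * (g' i)⁻¹)
            • (φ i * (ρ (g' i) : Module.End K U)))
            - (φ j + ∑ i ∈ S', φ i * (ρ (g' i) : Module.End K U)) = 0 := by
          rw [hconj, h1, sub_zero]
        rw [add_sub_add_left_eq_sub, ← Finset.sum_sub_distrib] at hsubt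
        rw [← hsubt]
        apply Finset.sum_congr rfl
        intro i _
        rw [smul_mul_assoc, sub_smul, one_smul]
    have h3 : ∀ i ∈ S', φ i = 0 := by
      intro i hi
      obtain ⟨h, hh, hne1⟩ := hnd (g' i) (hg'P i hi) (hg'Z i hi)
      have h4 := h2 h hh i hi
      rcases smul_eq_zero.mp h4 with h4 | h4
      · exact absurd (sub_eq_zero.mp h4) hne1
      · exact h4
    intro i hi
    rcases Finset.mem_insert.mp hi with h | hi'
    · rw [Finset.sum_eq_zero (fun k hk => by rw [h3 k hk, zero_mul]), add_zero] at h1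
      rw [h]
      exact h1
    · exact h3 i hi'

/-- the grading inequality `|P : Z| * dim (commutant of P) ≤ d ^ 2`. -/
theorem grade_ineq [Finite B] [Module.Finite K U] (ρ : B →* (Module.End K U)ˣ)
    (P Z : Subgroup B) (hZP : Z ≤ P) (hZc : Z ≤ Subgroup.center B) (lam : B → K)
    (hlam : ∀ z ∈ Z, (ρ z : Module.End K U) = lam z • 1)
    (hcl : ∀ h ∈ P, ∀ g ∈ P, h * g * h⁻¹ * g⁻¹ ∈ Z)
    (hnd : ∀ g ∈ P, g ∉ Z → ∃ h ∈ P, lam (h * g * h⁻¹ * g⁻¹) ≠ 1) :
    Nat.card P * Module.finrank K ↥(cen (img ρ (P : Set B)))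
      ≤ Nat.card Z * (Module.finrank K U) ^ 2 := by
  classical
  set ι := ↥P ⧸ (Z.subgroupOf P) with hι
  haveI : Fintype ι := Fintype.ofFinite ι
  set t : ι → B := fun q => ((Quotient.out q : ↥P) : B) with ht
  have htP : ∀ q, t q ∈ P := fun q => (Quotient.out q : ↥P).2
  have htne : ∀ q q' : ι, q ≠ q' → t q * (t q')⁻¹ ∉ Z := by
    intro q q' hne hz
    apply hne
    have h1 : q = QuotientGroup.mk (Quotient.out q : ↥P) := (QuotientGroup.out_eq' q).symm
    have h2 : q' = QuotientGroup.mk (Quotient.out q' : ↥P) := (QuotientGroup.out_eq' q').symm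
    rw [h1, h2, QuotientGroup.eq, Subgroup.mem_subgroupOf]
    have hc := Subgroup.mem_center_iff.mp (hZc hz)
    have h3 : ((Quotient.out q : ↥P) : B)⁻¹ * ((Quotient.out q' : ↥P) : B)
        = (t q * (t q')⁻¹)⁻¹ := by
      have h4 := hc (t q')
      rw [ht] at h4 ⊢
      simp only at h4 ⊢
      have h5 : ((Quotient.out q : ↥P) : B)⁻¹ * ((Quotient.out q' : ↥P) : B)
          = ((Quotient.out q : ↥P) : B)⁻¹ * (((Quotient.out q' : ↥P) : B)
            * (((Quotient.out q : ↥P) : B) * ((Quotient.out q' : ↥P) : B)⁻¹))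
            * (((Quotient.out q : ↥P) : B) * ((Quotient.out q' : ↥P) : B)⁻¹)⁻¹ := by
        group
      rw [h5, h4]
      group
    rw [Subgroup.coe_mul, Subgroup.coe_inv, h3]
    exact Z.inv_mem hz
  set Φ : (ι → ↥(cen (img ρ (P : Set B)))) →ₗ[K] Module.End K U :=
    { toFun := fun φ => ∑ q, (φ q : Module.End K U) * (ρ (t q) : Module.End K U)
      map_add' := fun a b => by
        simp only [Pi.add_apply, Submodule.coe_add, add_mul, Finset.sum_add_distrib]
      map_smul' := fun c a => by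
        simp only [Pi.smul_apply, Submodule.coe_smul, smul_mul_assoc, Finset.smul_sum,
          RingHom.id_apply] } with hΦ
  have hinj : Function.Injective Φ := by
    rw [← LinearMap.ker_eq_bot, LinearMap.ker_eq_bot']
    intro φ h0
    have h1 : ∑ q ∈ (Finset.univ : Finset ι), (φ q : Module.End K U)
        * (ρ (t q) : Module.End K U) = 0 := h0
    have h2 := indep ρ P Z lam hlam hcl hnd (Finset.univ : Finset ι) t
      (fun q => (φ q : Module.End K U)) (fun q _ => htP q)
      (fun q _ q' _ hne => htne q q' hne) (fun q _ => (φ q).2) h1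
    funext q
    exact Subtype.ext (h2 q (Finset.mem_univ q))
  have h := LinearMap.finrank_le_finrank_of_injective hinj
  rw [Module.finrank_pi_fintype, Finset.sum_const, Finset.card_univ, smul_eq_mul,
    Module.finrank_linearMap, ← sq] at h
  have hcard : Nat.card P = Nat.card ι * Nat.card Z := by
    rw [Subgroup.card_eq_card_quotient_mul_card_subgroup (Z.subgroupOf P),
      Nat.card_congr (Subgroup.subgroupOfEquivOfLe hZP).toEquiv]
  rw [hcard, Nat.card_eq_fintype_card]
  calc Fintype.card ι * Nat.card Z * Module.finrank K ↥(cen (img ρ (P : Set B)))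
      = Nat.card Z * (Fintype.card ι * Module.finrank K ↥(cen (img ρ (P : Set B)))) := by ring
    _ ≤ Nat.card Z * (Module.finrank K U) ^ 2 := Nat.mul_le_mul_left _ h

/-- conjugation by a unit as an additive endomorphism. -/
def cjHom (u : (Module.End K U)ˣ) : Module.End K U →+ Module.End K U where
  toFun φ := (u : Module.End K U) * φ * ((u⁻¹ : (Module.End K U)ˣ) : Module.End K U)
  map_zero' := by rw [mul_zero, zero_mul]
  map_add' a b := by rw [mul_add, add_mul]

theorem cjHom_apply (u : (Module.End K U)ˣ) (φ : Module.End K U) :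
    cjHom u φ = (u : Module.End K U) * φ * ((u⁻¹ : (Module.End K U)ˣ) : Module.End K U) := rfl

theorem cjHom_fix (u : (Module.End K U)ˣ) (φ : Module.End K U) :
    cjHom u φ = φ ↔ (u : Module.End K U) * φ = φ * (u : Module.End K U) := by
  rw [cjHom_apply]
  constructor
  · intro h
    have h2 : (u : Module.End K U) * φ * ((u⁻¹ : (Module.End K U)ˣ) : Module.End K U)
        * (u : Module.End K U) = φ * (u : Module.End K U) := by rw [h]
    rwa [mul_assoc, Units.inv_mul, mul_one] at h2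
  · intro h
    rw [h, mul_assoc, Units.mul_inv, mul_one]

theorem cj_central (a c : (Module.End K U)ˣ) (φ : Module.End K U)
    (hc : (c : Module.End K U) * φ = φ * (c : Module.End K U)) :
    cjHom (a * c) φ = cjHom a φ := by
  rw [cjHom_apply, cjHom_apply, mul_inv_rev, Units.val_mul, Units.val_mul]
  calc (a : Module.End K U) * c * φ * (((c⁻¹ : (Module.End K U)ˣ) : Module.End K U)
        * ((a⁻¹ : (Module.End K U)ˣ) : Module.End K U))
      = a * (c * φ) * ((c⁻¹ : (Module.End K U)ˣ) : Module.End K U)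
        * ((a⁻¹ : (Module.End K U)ˣ) : Module.End K U) := by simp only [mul_assoc]
    _ = a * (φ * c) * ((c⁻¹ : (Module.End K U)ˣ) : Module.End K U)
        * ((a⁻¹ : (Module.End K U)ˣ) : Module.End K U) := by rw [hc]
    _ = a * φ * ((c : Module.End K U) * ((c⁻¹ : (Module.End K U)ˣ) : Module.End K U))
        * ((a⁻¹ : (Module.End K U)ˣ) : Module.End K U) := by simp only [mul_assoc]
    _ = a * φ * ((a⁻¹ : (Module.End K U)ˣ) : Module.End K U) := by rw [Units.mul_inv, mul_one]

/-- the Frobenius fixed point formula on the endomorphism algebra, in dimensions. -/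
theorem frob_dim [Finite B] [Finite K] [Module.Finite K U] (ℓ : ℕ) [Fact ℓ.Prime] [CharP K ℓ]
    (hB : ¬ ℓ ∣ Nat.card B) (ρ : B →* (Module.End K U)ˣ) (P Z : Subgroup B) [P.Normal] (x : B)
    (r : ℕ) (hr : r.Prime) (hx : orderOf x = r) (hsup : P ⊔ Subgroup.zpowers x = ⊤)
    (hZP : Z ≤ P) (hZc : Z ≤ Subgroup.center B)
    (hfree : ∀ g ∈ P, x * g * x⁻¹ * g⁻¹ ∈ Z → g ∈ Z) (hxZ : x ∉ Z)
    (lam : B → K) (hlam : ∀ z ∈ Z, (ρ z : Module.End K U) = lam z • 1) :
    Module.finrank K ↥(cen (img ρ (Set.univ : Set B))) * r + (Module.finrank K U) ^ 2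
      = Module.finrank K ↥(cen ({(ρ x : Module.End K U)} : Set (Module.End K U))) * r
        + Module.finrank K ↥(cen (img ρ (P : Set B))) := by
  classical
  haveI hZn : Z.Normal := ⟨fun z hz g => by
    have h := Subgroup.mem_center_iff.mp (hZc hz) g
    rw [h, mul_assoc, mul_inv_cancel, mul_one]
    exact hz⟩
  haveI : Finite U := Module.finite_of_finite K
  haveI hWfin : Finite (Module.End K U) := Module.finite_of_finite K
  have hℓW : ∀ w : Module.End K U, ℓ • w = 0 := fun w => by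
    rw [← Nat.cast_smul_eq_nsmul K, CharP.cast_eq_zero K ℓ, zero_smul]
  set L₀ : B ⧸ Z → (Module.End K U →+ Module.End K U) := fun a => cjHom (ρ (Quotient.out a))
    with hL₀
  have hL : ∀ b : B, L₀ (QuotientGroup.mk b) = cjHom (ρ b) := by
    intro b
    obtain ⟨z, hz⟩ := QuotientGroup.mk_out_eq_mul Z b
    apply AddMonoidHom.ext
    intro φ
    change cjHom (ρ (Quotient.out (QuotientGroup.mk b : B ⧸ Z))) φ = cjHom (ρ b) φ
    rw [hz, map_mul]
    apply cj_central
    rw [hlam z z.2, smul_mul_assoc, mul_smul_comm, one_mul, mul_one]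
  have hL1 : ∀ w, L₀ 1 w = w := by
    intro w
    have h1 : (1 : B ⧸ Z) = QuotientGroup.mk (1 : B) := rfl
    rw [h1, hL, map_one, cjHom_apply]
    simp
  have hLmul : ∀ a a' w, L₀ (a * a') w = L₀ a (L₀ a' w) := by
    intro a a' w
    obtain ⟨b, rfl⟩ := QuotientGroup.mk_surjective a
    obtain ⟨b', rfl⟩ := QuotientGroup.mk_surjective a'
    rw [← QuotientGroup.mk_mul, hL, hL, hL, map_mul, cjHom_apply, cjHom_apply, cjHom_apply,
      mul_inv_rev, Units.val_mul, Units.val_mul]
    simp only [mul_assoc]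
  set π := QuotientGroup.mk' Z with hπ
  set Ub : Subgroup (B ⧸ Z) := P.map π with hUb
  set Eb : Subgroup (B ⧸ Z) := (Subgroup.zpowers x).map π with hEb
  haveI : Ub.Normal := Subgroup.Normal.map ‹P.Normal› π (QuotientGroup.mk'_surjective Z)
  have hUE : Ub ⊓ Eb = ⊥ := by
    rw [Subgroup.eq_bot_iff_forall]
    rintro a ⟨⟨g, hg, rfl⟩, ⟨y, hy, hgy⟩⟩
    have h1 : y⁻¹ * g ∈ Z := QuotientGroup.eq.mp hgy
    have hyP : y ∈ P := by
      have h2 : y = g * (y⁻¹ * g)⁻¹ := by group
      rw [h2]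
      exact P.mul_mem hg (P.inv_mem (hZP h1))
    have hyZ : y ∈ Z := by
      apply hfree y hyP
      obtain ⟨k, rfl⟩ := Subgroup.mem_zpowers_iff.mp hy
      have h3 : x * x ^ k * x⁻¹ * (x ^ k)⁻¹ = 1 := by
        rw [((Commute.refl x).zpow_right k).eq, mul_inv_cancel_right, mul_inv_cancel]
      rw [h3]
      exact Z.one_mem
    rw [← hgy]
    exact (QuotientGroup.eq_one_iff y).mpr hyZ
  have hsup' : Ub ⊔ Eb = ⊤ := by
    rw [hUb, hEb, ← Subgroup.map_sup, hsup,
      Subgroup.map_top_of_surjective π (QuotientGroup.mk'_surjective Z)]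
  haveI : Fact r.Prime := ⟨hr⟩
  have hfpf' : ∀ e ∈ Eb, e ≠ 1 → ∀ u ∈ Ub, e * u = u * e → u = 1 := by
    rintro _ ⟨y, hy, rfl⟩ he1 _ ⟨g, hg, rfl⟩ hcomm
    have hy1 : y ≠ 1 := by
      rintro rfl
      exact he1 (map_one π)
    have hcard : Nat.card ↥(Subgroup.zpowers x) = r := by rw [Nat.card_zpowers, hx]
    have hy1' : (⟨y, hy⟩ : ↥(Subgroup.zpowers x)) ≠ 1 := fun h => hy1 (congrArg Subtype.val h)
    have hmem := mem_zpowers_of_prime_card (g := (⟨y, hy⟩ : ↥(Subgroup.zpowers x)))
      (g' := (⟨x, Subgroup.mem_zpowers x⟩ : ↥(Subgroup.zpowers x))) hcard hy1'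
    obtain ⟨k, hk⟩ := Subgroup.mem_zpowers_iff.mp hmem
    have hk' : y ^ k = x := by
      have := congrArg Subtype.val hk
      rwa [Subgroup.coe_zpow] at this
    have hc : Commute (π x) (π g) := by
      rw [← hk', map_zpow]
      exact Commute.zpow_left hcomm k
    have h1 : π (x * g * x⁻¹ * g⁻¹) = 1 := by
      rw [map_mul, map_mul, map_mul, map_inv, map_inv, hc.eq, mul_inv_cancel_right,
        mul_inv_cancel]
    have h2 : x * g * x⁻¹ * g⁻¹ ∈ Z := (QuotientGroup.eq_one_iff _).mp h1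
    exact (QuotientGroup.eq_one_iff g).mpr (hfree g hg h2)
  have hQ : ¬ ℓ ∣ Nat.card (B ⧸ Z) := fun h => hB (h.trans (Subgroup.card_quotient_dvd_card Z))
  have key := @WElem.elemLin (B ⧸ Z) (Module.End K U) _ _ _ hWfin ℓ _
    (AddCommGroup.zmodModule hℓW) hQ L₀ hL1 hLmul Ub Eb _ hUE hsup' hfpf'
  have hfixA : Nat.card {w : Module.End K U | ∀ a : B ⧸ Z, L₀ a w = w}
      = Nat.card ↥(cen (img ρ (Set.univ : Set B))) := by
    apply Nat.card_congr
    apply Equiv.subtypeEquivRight
    intro w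
    constructor
    · rintro h g ⟨b, _, rfl⟩
      have h2 := h (QuotientGroup.mk b)
      rw [hL] at h2
      exact (cjHom_fix _ _).mp h2
    · intro h a
      obtain ⟨b, rfl⟩ := QuotientGroup.mk_surjective a
      rw [hL]
      exact (cjHom_fix _ _).mpr (h _ ⟨b, Set.mem_univ b, rfl⟩)
  have hfixU : Nat.card {w : Module.End K U | ∀ a ∈ Ub, L₀ a w = w}
      = Nat.card ↥(cen (img ρ (P : Set B))) := by
    apply Nat.card_congr
    apply Equiv.subtypeEquivRight
    intro w
    constructor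
    · rintro h g ⟨b, hb, rfl⟩
      have h2 := h (π b) ⟨b, hb, rfl⟩
      have h3 : L₀ (π b) = cjHom (ρ b) := hL b
      rw [h3] at h2
      exact (cjHom_fix _ _).mp h2
    · rintro h _ ⟨b, hb, rfl⟩
      have h3 : L₀ (π b) = cjHom (ρ b) := hL b
      rw [h3]
      exact (cjHom_fix _ _).mpr (h _ ⟨b, hb, rfl⟩)
  have hfixE : Nat.card {w : Module.End K U | ∀ a ∈ Eb, L₀ a w = w}
      = Nat.card ↥(cen ({(ρ x : Module.End K U)} : Set (Module.End K U))) := by
    apply Nat.card_congr
    apply Equiv.subtypeEquivRight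
    intro w
    constructor
    · rintro h g hg
      rw [Set.mem_singleton_iff] at hg
      subst hg
      have h2 := h (π x) ⟨x, Subgroup.mem_zpowers x, rfl⟩
      have h3 : L₀ (π x) = cjHom (ρ x) := hL x
      rw [h3] at h2
      exact (cjHom_fix _ _).mp h2
    · rintro h _ ⟨y, hy, rfl⟩
      have h3 : L₀ (π y) = cjHom (ρ y) := hL y
      rw [h3]
      apply (cjHom_fix _ _).mpr
      obtain ⟨k, rfl⟩ := Subgroup.mem_zpowers_iff.mp hy
      rw [map_zpow]
      have hcx : Commute ((ρ x : (Module.End K U)ˣ) : Module.End K U) w :=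
        h _ (Set.mem_singleton _)
      exact (Commute.units_zpow_left hcx k).eq
  have hcardE : Nat.card Eb = r := by
    rw [hEb, MonoidHom.map_zpowers, Nat.card_zpowers]
    apply orderOf_eq_prime
    · rw [← map_pow, ← hx, pow_orderOf_eq_one, map_one]
    · intro h
      exact hxZ ((QuotientGroup.eq_one_iff x).mp h)
  rw [hfixA, hfixU, hfixE, hcardE] at key
  rw [Module.natCard_eq_pow_finrank (K := K) (V := ↥(cen (img ρ (Set.univ : Set B)))),
    Module.natCard_eq_pow_finrank (K := K) (V := ↥(cen (img ρ (P : Set B)))),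
    Module.natCard_eq_pow_finrank (K := K)
      (V := ↥(cen ({(ρ x : Module.End K U)} : Set (Module.End K U)))),
    Module.natCard_eq_pow_finrank (K := K) (V := Module.End K U), Module.finrank_linearMap,
    ← sq, ← pow_mul, ← pow_mul, ← pow_add, ← pow_add] at key
  have hκ : 2 ≤ Nat.card K := Finite.one_lt_card
  exact Nat.pow_right_injective hκ key

/-- **Core inequality**: a class two group `P` with central `Z` acting by scalars, normalized by an
element `x` of prime order `r` that is free on `P / Z` and has no fixed vector. Then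
`|P : Z| ≤ (r - 1) ^ 2`. -/
theorem core [Finite B] [Finite K] [Module.Finite K U] [Nontrivial U] (ℓ : ℕ) [Fact ℓ.Prime]
    [CharP K ℓ] (hB : ¬ ℓ ∣ Nat.card B) (ρ : B →* (Module.End K U)ˣ) (P Z : Subgroup B)
    [P.Normal] (x : B) (r : ℕ) (hr : r.Prime) (hx : orderOf x = r)
    (hsup : P ⊔ Subgroup.zpowers x = ⊤) (hZP : Z ≤ P) (hZc : Z ≤ Subgroup.center B)
    (hcl : ∀ h ∈ P, ∀ g ∈ P, h * g * h⁻¹ * g⁻¹ ∈ Z)
    (hfree : ∀ g ∈ P, x * g * x⁻¹ * g⁻¹ ∈ Z → g ∈ Z)
    (lam : B → K) (hlam : ∀ z ∈ Z, (ρ z : Module.End K U) = lam z • 1)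
    (hnd : ∀ g ∈ P, g ∉ Z → ∃ h ∈ P, lam (h * g * h⁻¹ * g⁻¹) ≠ 1)
    (hfix : ∀ u : U, (ρ x : Module.End K U) u = u → u = 0)
    (ζ : K) (hζ : IsPrimitiveRoot ζ r) :
    Nat.card P ≤ (r - 1) ^ 2 * Nat.card Z := by
  classical
  by_cases hPZ : P ≤ Z
  · have h1 : Nat.card P ≤ Nat.card Z := Subgroup.card_le_of_le hPZ
    have h2 : 1 ≤ (r - 1) ^ 2 := Nat.one_le_pow _ _ (by have := hr.two_le; omega)
    nlinarith
  obtain ⟨g₀, hg₀P, hg₀Z⟩ := SetLike.not_le_iff_exists.mp hPZ
  have hxZ : x ∉ Z := by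
    intro hxZ
    apply hg₀Z
    apply hfree g₀ hg₀P
    have h := Subgroup.mem_center_iff.mp (hZc hxZ) g₀
    rw [← h, mul_inv_cancel_right, mul_inv_cancel]
    exact Z.one_mem
  have hrB : r ∣ Nat.card B := hx ▸ orderOf_dvd_natCard x
  have hrK : (r : K) ≠ 0 := by
    intro h
    rw [CharP.cast_eq_zero_iff K ℓ] at h
    exact hB (h.trans hrB)
  set d := Module.finrank K U with hd
  set eA := Module.finrank K ↥(cen (img ρ (Set.univ : Set B))) with heA
  set eP := Module.finrank K ↥(cen (img ρ (P : Set B))) with heP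
  set eX := Module.finrank K ↥(cen ({(ρ x : Module.End K U)} : Set (Module.End K U))) with heX
  have h1 : eA * r + d ^ 2 = eX * r + eP :=
    frob_dim ℓ hB ρ P Z x r hr hx hsup hZP hZc hfree hxZ lam hlam
  have h2 : Nat.card P * eP ≤ Nat.card Z * d ^ 2 :=
    grade_ineq ρ P Z hZP hZc lam hlam hcl hnd
  have hfr : (ρ x : Module.End K U) ^ r = 1 := by
    rw [← Units.val_pow_eq_pow_val, ← map_pow, ← hx, pow_orderOf_eq_one, map_one, Units.val_one]
  have h3 : d ^ 2 ≤ (r - 1) * eX :=
    commutant_ineq (ρ x : Module.End K U) r hr hrK hfr hfix ζ hζ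
  have h4 : eA ≤ eP := by
    apply Submodule.finrank_mono
    intro φ hφ g hg
    obtain ⟨b, _, rfl⟩ := hg
    exact hφ _ ⟨b, Set.mem_univ b, rfl⟩
  have h5 : 1 ≤ eP := by
    have hne : (⟨1, fun g _ => by rw [mul_one, one_mul]⟩ : ↥(cen (img ρ (P : Set B)))) ≠ 0 := by
      intro h
      have h' : (1 : Module.End K U) = 0 := congrArg Subtype.val h
      exact one_ne_zero h'
    haveI : Nontrivial ↥(cen (img ρ (P : Set B))) := ⟨⟨_, _, hne⟩⟩
    exact Module.finrank_pos
  have hr2 := hr.two_le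
  obtain ⟨r', rfl⟩ : ∃ r', r = r' + 1 := ⟨r - 1, by omega⟩
  simp only [Nat.add_sub_cancel] at h3 ⊢
  -- d^2 ≤ r'^2 * eP
  have h6 : d ^ 2 ≤ r' ^ 2 * eP := by nlinarith
  have h7 : Nat.card P * eP ≤ (r' ^ 2 * Nat.card Z) * eP := by nlinarith
  exact Nat.le_of_mul_le_mul_right h7 h5

end Cfsg.Agent.Lib.Helper12.XsCore
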