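import Mathlib

set_option autoImplicit false
set_option linter.style.haveILetI false

namespace Cfsg.Agent.Lib.Helper12.XsSq

variable {K B : Type*} [Field K] [Group B]

/-- commutator identity in a class two situation. -/
theorem comm_mul (Z : Subgroup B) (hZc : Z ≤ Subgroup.center B) (a b g : B)
    (hb : b * g * b⁻¹ * g⁻¹ ∈ Z) :
    (a * b) * g * (a * b)⁻¹ * g⁻¹ = (a * g * a⁻¹ * g⁻¹) * (b * g * b⁻¹ * g⁻¹) := by
  have hd := Subgroup.mem_center_iff.mp (hZc hb)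
  calc (a * b) * g * (a * b)⁻¹ * g⁻¹
      = a * (b * g * b⁻¹ * g⁻¹) * (g * a⁻¹ * g⁻¹) := by group
    _ = (b * g * b⁻¹ * g⁻¹) * a * (g * a⁻¹ * g⁻¹) := by rw [hd a]
    _ = (b * g * b⁻¹ * g⁻¹) * (a * g * a⁻¹ * g⁻¹) := by group
    _ = (a * g * a⁻¹ * g⁻¹) * (b * g * b⁻¹ * g⁻¹) := (hd _).symm

/-- the homomorphism `y ↦ χ [y, g]` on `P`. -/
def comHom (χ : B → K) (P Z : Subgroup B) (hZc : Z ≤ Subgroup.center B)
    (hcl : ∀ h ∈ P, ∀ g ∈ P, h * g * h⁻¹ * g⁻¹ ∈ Z) (hχ1 : χ 1 = 1)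
    (hχmul : ∀ z ∈ Z, ∀ z' ∈ Z, χ (z * z') = χ z * χ z') (g : B) (hg : g ∈ P) : ↥P →* K where
  toFun y := χ ((y : B) * g * (y : B)⁻¹ * g⁻¹)
  map_one' := by
    have h : ((1 : ↥P) : B) * g * ((1 : ↥P) : B)⁻¹ * g⁻¹ = 1 := by simp
    rw [h, hχ1]
  map_mul' a b := by
    rw [Subgroup.coe_mul, comm_mul Z hZc (a : B) (b : B) g (hcl b b.2 g hg),
      hχmul _ (hcl a a.2 g hg) _ (hcl b b.2 g hg)]

theorem comHom_apply (χ : B → K) (P Z : Subgroup B) (hZc : Z ≤ Subgroup.center B)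
    (hcl : ∀ h ∈ P, ∀ g ∈ P, h * g * h⁻¹ * g⁻¹ ∈ Z) (hχ1 : χ 1 = 1)
    (hχmul : ∀ z ∈ Z, ∀ z' ∈ Z, χ (z * z') = χ z * χ z') (g : B) (hg : g ∈ P) (y : ↥P) :
    comHom χ P Z hZc hcl hχ1 hχmul g hg y = χ ((y : B) * g * (y : B)⁻¹ * g⁻¹) := rfl

/-- the index of the centre-like subgroup `Z` in a class two group with a nondegenerate
commutator pairing of exponent `q` is an even power of `q`. -/
theorem sq_index [Finite B] (χ : B → K) (Z : Subgroup B) (hZc : Z ≤ Subgroup.center B)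
    (hχ1 : χ 1 = 1) (hχmul : ∀ z ∈ Z, ∀ z' ∈ Z, χ (z * z') = χ z * χ z') (q : ℕ)
    (hq : q.Prime) :
    ∀ (k : ℕ) (P : Subgroup B), Nat.card P = k → Z ≤ P →
      (∀ h ∈ P, ∀ g ∈ P, h * g * h⁻¹ * g⁻¹ ∈ Z) →
      (∀ h ∈ P, ∀ g ∈ P, χ (h * g * h⁻¹ * g⁻¹) ^ q = 1) →
      (∀ g ∈ P, g ∉ Z → ∃ h ∈ P, χ (h * g * h⁻¹ * g⁻¹) ≠ 1) →
      ∃ n : ℕ, Nat.card P = q ^ (2 * n) * Nat.card Z := by
  intro k
  induction k using Nat.strong_induction_on with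
  | _ k ih =>
  intro P hk hZP hcl hpow hnd
  by_cases hPZ : P ≤ Z
  · refine ⟨0, ?_⟩
    rw [le_antisymm hPZ hZP]
    simp
  obtain ⟨g, hgP, hgZ⟩ := SetLike.not_le_iff_exists.mp hPZ
  obtain ⟨h, hhP, hω⟩ := hnd g hgP hgZ
  haveI : Fact q.Prime := ⟨hq⟩
  haveI : NeZero q := ⟨hq.ne_zero⟩
  set ω := χ (h * g * h⁻¹ * g⁻¹) with hωdef
  have hωq : ω ^ q = 1 := hpow h hhP g hgP
  have hprim : IsPrimitiveRoot ω q := by
    have h0 := IsPrimitiveRoot.orderOf ω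
    rwa [orderOf_eq_prime hωq hω] at h0
  have hω0 : ω ≠ 0 := by
    intro h0
    rw [h0, zero_pow hq.ne_zero] at hωq
    exact zero_ne_one hωq
  have hprim' : IsPrimitiveRoot ω⁻¹ q := by
    have h0 := IsPrimitiveRoot.orderOf ω⁻¹
    have h1 : ω⁻¹ ^ q = 1 := by rw [inv_pow, hωq, inv_one]
    have h2 : ω⁻¹ ≠ 1 := fun h => hω (inv_eq_one.mp h)
    rwa [orderOf_eq_prime h1 h2] at h0
  have hinvχ : ∀ z ∈ Z, χ z⁻¹ = (χ z)⁻¹ := by
    intro z hz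
    have h0 := hχmul z hz z⁻¹ (Z.inv_mem hz)
    rw [mul_inv_cancel, hχ1] at h0
    exact (inv_eq_of_mul_eq_one_right h0.symm).symm
  set tg := comHom χ P Z hZc hcl hχ1 hχmul g hgP with htg
  set th := comHom χ P Z hZc hcl hχ1 hχmul h hhP with hth
  set g' : ↥P := ⟨g, hgP⟩ with hg'
  set h' : ↥P := ⟨h, hhP⟩ with hh'
  have h1 : tg h' = ω := rfl
  have h2 : tg g' = 1 := by
    change χ (g * g * g⁻¹ * g⁻¹) = 1
    rw [show g * g * g⁻¹ * g⁻¹ = 1 by simp, hχ1]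
  have h3 : th h' = 1 := by
    change χ (h * h * h⁻¹ * h⁻¹) = 1
    rw [show h * h * h⁻¹ * h⁻¹ = 1 by simp, hχ1]
  have h4 : th g' = ω⁻¹ := by
    change χ (g * h * g⁻¹ * h⁻¹) = ω⁻¹
    rw [show g * h * g⁻¹ * h⁻¹ = (h * g * h⁻¹ * g⁻¹)⁻¹ by group, hinvχ _ (hcl h hhP g hgP)]
  set D : Subgroup ↥P := tg.ker ⊓ th.ker with hD
  have hF_tg : ∀ (y : ↥D) (i j : ℕ), tg (h' ^ i * g' ^ j * (y : ↥P)) = ω ^ i := by
    intro y i j
    rw [map_mul, map_mul, map_pow, map_pow, h1, h2, one_pow, mul_one,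
      MonoidHom.mem_ker.mp y.2.1, mul_one]
  have hF_th : ∀ (y : ↥D) (i j : ℕ), th (h' ^ i * g' ^ j * (y : ↥P)) = ω⁻¹ ^ j := by
    intro y i j
    rw [map_mul, map_mul, map_pow, map_pow, h3, h4, one_pow, one_mul,
      MonoidHom.mem_ker.mp y.2.2, mul_one]
  have hbij : Function.Bijective (fun t : (↥D × Fin q) × Fin q =>
      h' ^ (t.1.2 : ℕ) * g' ^ (t.2 : ℕ) * (t.1.1 : ↥P)) := by
    constructor
    · rintro ⟨⟨y, i⟩, j⟩ ⟨⟨y', i'⟩, j'⟩ heq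
      simp only at heq
      have e1 := congrArg tg heq
      rw [hF_tg, hF_tg] at e1
      have e2 := congrArg th heq
      rw [hF_th, hF_th] at e2
      have hi : i = i' := Fin.ext (hprim.pow_inj i.2 i'.2 e1)
      have hj : j = j' := Fin.ext (hprim'.pow_inj j.2 j'.2 e2)
      subst hi
      subst hj
      have hy : (y : ↥P) = y' := mul_left_cancel heq
      rw [Subtype.ext hy]
    · intro y
      have hy1 : tg y ^ q = 1 := hpow y y.2 g hgP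
      have hy2 : th y ^ q = 1 := hpow y y.2 h hhP
      obtain ⟨i, hi, hωi⟩ := hprim.eq_pow_of_pow_eq_one hy1
      obtain ⟨j, hj, hωj⟩ := hprim'.eq_pow_of_pow_eq_one hy2
      set y₀ : ↥P := (g' ^ j)⁻¹ * (h' ^ i)⁻¹ * y with hy₀
      have hyy : h' ^ i * g' ^ j * y₀ = y := by
        rw [hy₀]
        group
      have hy₀D : y₀ ∈ D := by
        have ea : tg y₀ = 1 := by
          have e := congrArg tg hyy
          rw [map_mul, map_mul, map_pow, map_pow, h1, h2, one_pow, mul_one, ← hωi] at e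
          exact (mul_eq_left₀ (pow_ne_zero i hω0)).mp e
        have eb : th y₀ = 1 := by
          have e := congrArg th hyy
          rw [map_mul, map_mul, map_pow, map_pow, h3, h4, one_pow, one_mul, ← hωj] at e
          exact (mul_eq_left₀ (pow_ne_zero j (inv_ne_zero hω0))).mp e
        exact ⟨MonoidHom.mem_ker.mpr ea, MonoidHom.mem_ker.mpr eb⟩
      exact ⟨((⟨y₀, hy₀D⟩, ⟨i, hi⟩), ⟨j, hj⟩), hyy⟩
  have hcardP : Nat.card P = Nat.card D * q * q := by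
    rw [← Nat.card_congr (Equiv.ofBijective _ hbij), Nat.card_prod, Nat.card_prod,
      Nat.card_eq_fintype_card (α := Fin q), Fintype.card_fin]
  set P' : Subgroup B := D.map P.subtype with hP'
  have hcardP' : Nat.card P' = Nat.card D :=
    Subgroup.card_map_of_injective (Subgroup.subtype_injective P)
  have hP'P : P' ≤ P := Subgroup.map_subtype_le _
  have hmemP' : ∀ y : B, y ∈ P' ↔ ∃ hy : y ∈ P, tg ⟨y, hy⟩ = 1 ∧ th ⟨y, hy⟩ = 1 := by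
    intro y
    constructor
    · rintro ⟨y', hy', rfl⟩
      exact ⟨y'.2, MonoidHom.mem_ker.mp hy'.1, MonoidHom.mem_ker.mp hy'.2⟩
    · rintro ⟨hy, e1, e2⟩
      exact ⟨⟨y, hy⟩, ⟨MonoidHom.mem_ker.mpr e1, MonoidHom.mem_ker.mpr e2⟩, rfl⟩
  have hZP' : Z ≤ P' := by
    intro z hz
    rw [hmemP']
    have hc := Subgroup.mem_center_iff.mp (hZc hz)
    refine ⟨hZP hz, ?_, ?_⟩
    · change χ (z * g * z⁻¹ * g⁻¹) = 1
      rw [← hc g, mul_inv_cancel_right, mul_inv_cancel, hχ1]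
    · change χ (z * h * z⁻¹ * h⁻¹) = 1
      rw [← hc h, mul_inv_cancel_right, mul_inv_cancel, hχ1]
  have hlt : Nat.card P' < k := by
    rw [hcardP', ← hk, hcardP]
    have hDpos : 0 < Nat.card D := Nat.card_pos
    have hq2 := hq.two_le
    have h5 : Nat.card D * 2 * 2 ≤ Nat.card D * q * q :=
      Nat.mul_le_mul (Nat.mul_le_mul le_rfl hq2) hq2
    omega
  have hnd' : ∀ y ∈ P', y ∉ Z → ∃ h₁ ∈ P', χ (h₁ * y * h₁⁻¹ * y⁻¹) ≠ 1 := by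
    intro y hyP' hyZ
    obtain ⟨hyP, hy1, hy2⟩ := (hmemP' y).mp hyP'
    obtain ⟨h₀, hh₀P, hne⟩ := hnd y hyP hyZ
    obtain ⟨⟨⟨y₀, i⟩, j⟩, hF⟩ := hbij.2 ⟨h₀, hh₀P⟩
    simp only at hF
    set ty := comHom χ P Z hZc hcl hχ1 hχmul y hyP with hty
    have e1 : ty h' = 1 := by
      change χ (h * y * h⁻¹ * y⁻¹) = 1
      rw [show h * y * h⁻¹ * y⁻¹ = (y * h * y⁻¹ * h⁻¹)⁻¹ by group, hinvχ _ (hcl y hyP h hhP)]
      have e : χ (y * h * y⁻¹ * h⁻¹) = 1 := hy2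
      rw [e, inv_one]
    have e2 : ty g' = 1 := by
      change χ (g * y * g⁻¹ * y⁻¹) = 1
      rw [show g * y * g⁻¹ * y⁻¹ = (y * g * y⁻¹ * g⁻¹)⁻¹ by group, hinvχ _ (hcl y hyP g hgP)]
      have e : χ (y * g * y⁻¹ * g⁻¹) = 1 := hy1
      rw [e, inv_one]
    have e3 : ty ⟨h₀, hh₀P⟩ = ty (y₀ : ↥P) := by
      rw [← hF, map_mul, map_mul, map_pow, map_pow, e1, e2, one_pow, one_pow, one_mul, one_mul]
    refine ⟨((y₀ : ↥P) : B), ⟨(y₀ : ↥P), y₀.2, rfl⟩, ?_⟩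
    intro hcon
    apply hne
    have e4 : ty ⟨h₀, hh₀P⟩ = χ (h₀ * y * h₀⁻¹ * y⁻¹) := rfl
    rw [← e4, e3]
    exact hcon
  obtain ⟨n, hn⟩ := ih (Nat.card P') hlt P' rfl hZP'
    (fun a ha b hb => hcl a (hP'P ha) b (hP'P hb))
    (fun a ha b hb => hpow a (hP'P ha) b (hP'P hb)) hnd'
  refine ⟨n + 1, ?_⟩
  rw [hcardP, ← hcardP', hn]
  ring

end Cfsg.Agent.Lib.Helper12.XsSq
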