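import Mathlib
import Cfsg.Agent.Lib.Helper12.XsCore
import Cfsg.Agent.Lib.Helper12.XsSq

set_option autoImplicit false
set_option linter.style.haveILetI false

namespace Cfsg.Agent.Lib.Helper12.XsSel

open Cfsg.Agent.Lib.Helper12.XsEig Cfsg.Agent.Lib.Helper12.XsCore

open scoped IsMulCommutative

variable {K U B : Type*} [Field K] [AddCommGroup U] [Module K U] [Group B]

/-- restriction of a representation to an invariant submodule. -/
def restr (ρ : B →* (Module.End K U)ˣ) (S : Submodule K U)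
    (hS : ∀ b, ∀ u ∈ S, (ρ b : Module.End K U) u ∈ S) : B →* (Module.End K S)ˣ :=
  MonoidHom.toHomUnits
    { toFun := fun b => (ρ b : Module.End K U).restrict (hS b)
      map_one' := by
        apply LinearMap.ext
        intro u
        apply Subtype.ext
        simp [LinearMap.restrict_apply]
      map_mul' := fun a b => by
        apply LinearMap.ext
        intro u
        apply Subtype.ext
        simp [LinearMap.restrict_apply, map_mul] }

theorem restr_apply (ρ : B →* (Module.End K U)ˣ) (S : Submodule K U)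
    (hS : ∀ b, ∀ u ∈ S, (ρ b : Module.End K U) u ∈ S) (b : B) (u : S) :
    (((restr ρ S hS b : (Module.End K S)ˣ) : Module.End K S) u : U)
      = (ρ b : Module.End K U) (u : U) := rfl

/-- **Core inequality, selection form**: the centre need not act by scalars; a field with enough
roots of unity is assumed. -/
theorem core_K [Finite B] [Finite K] [Module.Finite K U] (ℓ : ℕ) [Fact ℓ.Prime] [CharP K ℓ]
    (hB : ¬ ℓ ∣ Nat.card B) (ρ : B →* (Module.End K U)ˣ) (P Z : Subgroup B) [P.Normal] (x : B)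
    (r : ℕ) (hr : r.Prime) (hx : orderOf x = r) (hsup : P ⊔ Subgroup.zpowers x = ⊤)
    (hZP : Z ≤ P) (hZc : Z ≤ Subgroup.center B)
    (hcl : ∀ h ∈ P, ∀ g ∈ P, h * g * h⁻¹ * g⁻¹ ∈ Z)
    (hfree : ∀ g ∈ P, x * g * x⁻¹ * g⁻¹ ∈ Z → g ∈ Z)
    (c : B) (hcZ : c ∈ Z) (hc : (ρ c : Module.End K U) ≠ 1)
    (hsel : ∀ N : Subgroup B, N ≤ Z → c ∉ N →
      ∀ g ∈ P, g ∉ Z → ∃ h ∈ P, h * g * h⁻¹ * g⁻¹ ∉ N)
    (hfix : ∀ u : U, (ρ x : Module.End K U) u = u → u = 0)
    (ξ : K) (hξ : IsPrimitiveRoot ξ (Nat.card B))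
    (q : ℕ) (hq : q.Prime) (hcomq : ∀ h ∈ P, ∀ g ∈ P, (h * g * h⁻¹ * g⁻¹) ^ q = 1) :
    ∃ n : ℕ, Nat.card P = q ^ (2 * n) * Nat.card Z ∧ q ^ (2 * n) ≤ (r - 1) ^ 2 := by
  classical
  set C := Subgroup.center B with hC
  haveI hCc : IsMulCommutative ↥C := (inferInstance : IsMulCommutative ↥(Subgroup.center B))
  haveI : Fintype ↥C := Fintype.ofFinite _
  haveI : Fintype (↥C →* Kˣ) := Fintype.ofFinite _
  haveI : NeZero (Nat.card B) := ⟨Nat.card_pos.ne'⟩
  haveI hroots : HasEnoughRootsOfUnity K (Nat.card B) :=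
    ⟨⟨ξ, hξ⟩, rootsOfUnity.isCyclic K (Nat.card B)⟩
  have hexpdvd : Monoid.exponent ↥C ∣ Nat.card B :=
    (Group.exponent_dvd_nat_card).trans (Subgroup.card_subgroup_dvd_card C)
  haveI : HasEnoughRootsOfUnity K (Monoid.exponent ↥C) := HasEnoughRootsOfUnity.of_dvd K hexpdvd
  have hcardC : (Nat.card ↥C : K) ≠ 0 := by
    intro h
    rw [CharP.cast_eq_zero_iff K ℓ] at h
    exact hB (h.trans (Subgroup.card_subgroup_dvd_card C))
  set e : (↥C →* Kˣ) → Module.End K U := fun lam =>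
    ((Nat.card ↥C : K))⁻¹ • ∑ z : ↥C, ((lam z⁻¹ : Kˣ) : K) • (ρ (z : B) : Module.End K U) with he
  have hF1 : ∀ (lam : ↥C →* Kˣ) (z' : ↥C),
      (ρ (z' : B) : Module.End K U) * e lam = ((lam z' : Kˣ) : K) • e lam := by
    intro lam z'
    rw [he]
    simp only
    rw [mul_smul_comm, smul_comm ((lam z' : Kˣ) : K)]
    congr 1
    rw [Finset.mul_sum, Finset.smul_sum]
    rw [← Equiv.sum_comp (Equiv.mulLeft z')
      (fun w => ((lam z' : Kˣ) : K) • ((lam w⁻¹ : Kˣ) : K) • (ρ (w : B) : Module.End K U))]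
    apply Finset.sum_congr rfl
    intro z _
    rw [Equiv.coe_mulLeft, mul_smul_comm, smul_smul, ← Units.val_mul, ← map_mul,
      Subgroup.coe_mul, map_mul, Units.val_mul]
    congr 3
    rw [mul_inv_rev, mul_comm z⁻¹, ← Units.val_mul, ← map_mul, mul_inv_cancel_left]
  have hcs : ∀ w : ↥C, ∑ lam : ↥C →* Kˣ, ((lam w : Kˣ) : K)
      = if w = 1 then (Nat.card ↥C : K) else 0 := by
    intro w
    split_ifs with hw
    · subst hw
      simp only [map_one, Units.val_one, Finset.sum_const, Finset.card_univ, nsmul_eq_mul, mul_one]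
      rw [← Nat.card_eq_fintype_card, CommGroup.card_monoidHom_of_hasEnoughRootsOfUnity ↥C K]
    · obtain ⟨lam₀, hlam₀⟩ := CommGroup.exists_apply_ne_one_of_hasEnoughRootsOfUnity ↥C K hw
      have h1 := Equiv.sum_comp (Equiv.mulLeft lam₀) (fun lam : ↥C →* Kˣ => ((lam w : Kˣ) : K))
      simp only [Equiv.coe_mulLeft, MonoidHom.mul_apply, Units.val_mul] at h1
      rw [← Finset.mul_sum] at h1
      have h2 : (((lam₀ w : Kˣ) : K) - 1) * ∑ lam : ↥C →* Kˣ, ((lam w : Kˣ) : K) = 0 := by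
        rw [sub_mul, one_mul, h1, sub_self]
      rcases mul_eq_zero.mp h2 with h3 | h3
      · exact absurd (Units.ext (sub_eq_zero.mp h3)) hlam₀
      · exact h3
  have hF2 : ∑ lam : ↥C →* Kˣ, e lam = 1 := by
    rw [he]
    simp only
    rw [← Finset.smul_sum, Finset.sum_comm]
    have h1 : ∀ z : ↥C, ∑ lam : ↥C →* Kˣ, ((lam z⁻¹ : Kˣ) : K) • (ρ (z : B) : Module.End K U)
        = (if z = 1 then (Nat.card ↥C : K) else 0) • (ρ (z : B) : Module.End K U) := by
      intro z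
      rw [← Finset.sum_smul, hcs z⁻¹]
      congr 1
      simp only [inv_eq_one]
    rw [Finset.sum_congr rfl (fun z _ => h1 z), Finset.sum_eq_single (1 : ↥C)]
    · rw [if_pos rfl, Subgroup.coe_one, map_one, Units.val_one, smul_smul,
        inv_mul_cancel₀ hcardC, one_smul]
    · intro z _ hz
      rw [if_neg hz, zero_smul]
    · intro h
      exact absurd (Finset.mem_univ _) h
  have hF3 : ∀ (lam : ↥C →* Kˣ) (b : B),
      (ρ b : Module.End K U) * e lam = e lam * (ρ b : Module.End K U) := by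
    intro lam b
    rw [he]
    simp only
    rw [mul_smul_comm, smul_mul_assoc, Finset.mul_sum, Finset.sum_mul]
    congr 1
    apply Finset.sum_congr rfl
    intro z _
    rw [mul_smul_comm, smul_mul_assoc, ← Units.val_mul, ← Units.val_mul, ← map_mul, ← map_mul,
      Subgroup.mem_center_iff.mp z.2 b]
  set c' : ↥C := ⟨c, hZc hcZ⟩ with hc'
  obtain ⟨lam, hlamc, hlame⟩ : ∃ lam : ↥C →* Kˣ, lam c' ≠ 1 ∧ e lam ≠ 0 := by
    by_contra hcon
    push Not at hcon
    apply hc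
    have h1 : (ρ c : Module.End K U) = (ρ c : Module.End K U) * ∑ lam : ↥C →* Kˣ, e lam := by
      rw [hF2, mul_one]
    rw [h1, Finset.mul_sum, ← hF2]
    apply Finset.sum_congr rfl
    intro lam _
    have h2 := hF1 lam c'
    have h3 : ((c' : ↥C) : B) = c := rfl
    rw [h3] at h2
    rw [h2]
    by_cases h4 : lam c' = 1
    · rw [h4, Units.val_one, one_smul]
    · rw [hcon lam h4, smul_zero]
  set S : Submodule K U := LinearMap.range (e lam) with hSdef
  have hS : ∀ b, ∀ u ∈ S, (ρ b : Module.End K U) u ∈ S := by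
    rintro b u ⟨v, rfl⟩
    refine ⟨(ρ b : Module.End K U) v, ?_⟩
    have h := congrArg (fun φ : Module.End K U => φ v) (hF3 lam b)
    exact h.symm
  set ρ' := restr ρ S hS with hρ'
  haveI : Nontrivial ↥S := by
    have h1 : ∃ v, e lam v ≠ 0 := by
      by_contra h
      push Not at h
      exact hlame (LinearMap.ext h)
    obtain ⟨v, hv⟩ := h1
    exact ⟨⟨⟨e lam v, LinearMap.mem_range_self _ _⟩, 0, fun h => hv (congrArg Subtype.val h)⟩⟩
  set lam' : B → K := fun b => if h : b ∈ C then ((lam ⟨b, h⟩ : Kˣ) : K) else 0 with hlam'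
  have hlam'Z : ∀ z ∈ Z, (ρ' z : Module.End K S) = lam' z • 1 := by
    intro z hz
    apply LinearMap.ext
    rintro ⟨u, v, rfl⟩
    apply Subtype.ext
    rw [restr_apply]
    have h1 := congrArg (fun φ : Module.End K U => φ v) (hF1 lam ⟨z, hZc hz⟩)
    have h2 : (ρ z : Module.End K U) (e lam v) = ((lam ⟨z, hZc hz⟩ : Kˣ) : K) • e lam v := h1
    change (ρ z : Module.End K U) (e lam v) = _
    rw [h2, hlam']
    simp only
    rw [dif_pos (hZc hz)]
    rfl
  have hnd : ∀ g ∈ P, g ∉ Z → ∃ h ∈ P, lam' (h * g * h⁻¹ * g⁻¹) ≠ 1 := by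
    intro g hg hgZ
    have hcN : c ∉ Z ⊓ (lam.ker.map C.subtype) := by
      rintro ⟨_, y, hy, hyc⟩
      apply hlamc
      have h1 : y = c' := Subtype.ext hyc
      rw [← h1]
      exact hy
    obtain ⟨h, hh, hN⟩ := hsel _ inf_le_left hcN g hg hgZ
    refine ⟨h, hh, ?_⟩
    have hZm := hcl h hh g hg
    intro h1
    apply hN
    refine ⟨hZm, ⟨⟨h * g * h⁻¹ * g⁻¹, hZc hZm⟩, ?_, rfl⟩⟩
    rw [hlam'] at h1
    simp only at h1
    rw [dif_pos (hZc hZm)] at h1
    exact Units.ext h1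
  have hfix' : ∀ u : ↥S, (ρ' x : Module.End K S) u = u → u = 0 := by
    intro u hu
    apply Subtype.ext
    apply hfix
    have h1 := congrArg Subtype.val hu
    rw [restr_apply] at h1
    exact h1
  have hrB : r ∣ Nat.card B := hx ▸ orderOf_dvd_natCard x
  obtain ⟨m, hm⟩ := hrB
  have hζ : IsPrimitiveRoot (ξ ^ m) r :=
    IsPrimitiveRoot.pow Nat.card_pos hξ (by rw [hm, mul_comm])
  have hmain := core ℓ hB ρ' P Z x r hr hx hsup hZP hZc hcl hfree lam' hlam'Z hnd hfix'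
    (ξ ^ m) hζ
  have hχ1 : lam' 1 = 1 := by
    rw [hlam']
    simp only
    rw [dif_pos (Subgroup.one_mem C)]
    have h1 : (⟨1, Subgroup.one_mem C⟩ : ↥C) = 1 := rfl
    rw [h1, map_one, Units.val_one]
  have hχmul : ∀ z ∈ Z, ∀ z' ∈ Z, lam' (z * z') = lam' z * lam' z' := by
    intro z hz z' hz'
    rw [hlam']
    simp only
    rw [dif_pos (hZc hz), dif_pos (hZc hz'), dif_pos (C.mul_mem (hZc hz) (hZc hz')),
      ← Units.val_mul, ← map_mul]
    rfl
  have hpow : ∀ h ∈ P, ∀ g ∈ P, lam' (h * g * h⁻¹ * g⁻¹) ^ q = 1 := by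
    intro h hh g hg
    have hz := hcl h hh g hg
    rw [hlam']
    simp only
    rw [dif_pos (hZc hz), ← Units.val_pow_eq_pow_val, ← map_pow]
    have h1 : (⟨h * g * h⁻¹ * g⁻¹, hZc hz⟩ : ↥C) ^ q = 1 :=
      Subtype.ext (by rw [Subgroup.coe_pow]; exact hcomq h hh g hg)
    rw [h1, map_one, Units.val_one]
  obtain ⟨n, hn⟩ := Cfsg.Agent.Lib.Helper12.XsSq.sq_index lam' Z hZc hχ1 hχmul q hq
    (Nat.card P) P rfl hZP hcl hpow hnd
  refine ⟨n, hn, ?_⟩
  rw [hn] at hmain
  exact Nat.le_of_mul_le_mul_right hmain Nat.card_pos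

end Cfsg.Agent.Lib.Helper12.XsSel
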