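import Mathlib
import Cfsg.Agent.Lib.Helper12.XsSel

set_option autoImplicit false
set_option linter.style.haveILetI false

namespace Cfsg.Agent.Lib.Helper12.XsAbs

open Cfsg.Agent.Lib.Helper12.XsSel

open Matrix

/-- matrix form of a linear action on a finite `ZMod p`-module. -/
theorem mat_lin {A W : Type*} [Group A] [AddCommGroup W] [Finite W] (p : ℕ) [Fact p.Prime]
    [Module (ZMod p) W] (L₀ : A → (W →+ W)) (hL1 : ∀ w, L₀ 1 w = w)
    (hLmul : ∀ a a' w, L₀ (a * a') w = L₀ a (L₀ a' w)) :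
    ∃ (n : ℕ) (ρ : A →* (Matrix (Fin n) (Fin n) (ZMod p))ˣ) (φ : W ≃ (Fin n → ZMod p)),
      φ 0 = 0 ∧ ∀ a w, ((ρ a : (Matrix (Fin n) (Fin n) (ZMod p))ˣ) :
        Matrix (Fin n) (Fin n) (ZMod p)) *ᵥ φ w = φ (L₀ a w) := by
  classical
  haveI : NeZero p := ⟨(Fact.out : p.Prime).ne_zero⟩
  obtain ⟨n, ⟨b⟩⟩ : ∃ n : ℕ, Nonempty (Module.Basis (Fin n) (ZMod p) W) :=
    ⟨_, ⟨Module.finBasis (ZMod p) W⟩⟩
  set L : A → (W →ₗ[ZMod p] W) := fun a => AddMonoidHom.toZModLinearMap p (L₀ a) with hL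
  have hLapp : ∀ a (w : W), L a w = L₀ a w := fun a w => rfl
  have hL1' : L 1 = LinearMap.id := by
    apply LinearMap.ext
    intro x
    rw [hLapp, hL1]
    rfl
  have hLmul' : ∀ a a', L (a * a') = (L a).comp (L a') := by
    intro a a'
    apply LinearMap.ext
    intro x
    rw [LinearMap.comp_apply, hLapp, hLapp, hLapp, hLmul]
  set ρ₀ : A →* Matrix (Fin n) (Fin n) (ZMod p) :=
    { toFun := fun a => LinearMap.toMatrix b b (L a)
      map_one' := by rw [hL1']; exact LinearMap.toMatrix_id b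
      map_mul' := fun a a' => by rw [hLmul']; exact LinearMap.toMatrix_comp b b b _ _ } with hρ₀
  set ρ : A →* (Matrix (Fin n) (Fin n) (ZMod p))ˣ := ρ₀.toHomUnits with hρ
  have hρapp : ∀ a, ((ρ a : (Matrix (Fin n) (Fin n) (ZMod p))ˣ) : Matrix (Fin n) (Fin n) (ZMod p))
      = LinearMap.toMatrix b b (L a) := fun a => rfl
  refine ⟨n, ρ, b.equivFun.toEquiv, ?_, ?_⟩
  · exact map_zero b.equivFun
  · intro a w
    have hφapp : ∀ w : W, b.equivFun.toEquiv w = ⇑(b.repr w) := fun w => rfl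
    rw [hρapp, hφapp, hφapp, LinearMap.toMatrix_mulVec_repr, hLapp]

/-- a finite field of characteristic `ℓ` with a primitive `N`-th root of unity. -/
theorem exists_field (ℓ : ℕ) [Fact ℓ.Prime] (N : ℕ) (hN : 0 < N) (hcop : ¬ ℓ ∣ N) :
    ∃ m : ℕ, m ≠ 0 ∧ ∃ ξ : GaloisField ℓ m, IsPrimitiveRoot ξ N := by
  have hℓ : ℓ.Prime := Fact.out
  set m := Nat.totient N with hmdef
  have hm : m ≠ 0 := (Nat.totient_pos.mpr hN).ne'
  have hcop' : Nat.Coprime ℓ N := (Nat.Prime.coprime_iff_not_dvd hℓ).mpr hcop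
  have hmod : ℓ ^ m ≡ 1 [MOD N] := Nat.ModEq.pow_totient hcop'
  have hdvd : N ∣ ℓ ^ m - 1 := (Nat.modEq_iff_dvd' (Nat.one_le_pow _ _ hℓ.pos)).mp hmod.symm
  have hcardK : Nat.card (GaloisField ℓ m) = ℓ ^ m := GaloisField.card ℓ m hm
  have hcardU : Nat.card (GaloisField ℓ m)ˣ = ℓ ^ m - 1 := by rw [Nat.card_units, hcardK]
  obtain ⟨g, hg⟩ := IsCyclic.exists_generator (α := (GaloisField ℓ m)ˣ)
  have hord : orderOf g = ℓ ^ m - 1 := by
    rw [orderOf_eq_card_of_forall_mem_zpowers hg, hcardU]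
  obtain ⟨k, hk⟩ := hdvd
  have hk0 : k ≠ 0 := by
    rintro rfl
    have h1 : 1 < ℓ ^ m := Nat.one_lt_pow hm hℓ.one_lt
    omega
  have hordu : orderOf (g ^ k) = N := by
    rw [orderOf_pow_of_dvd hk0 (by rw [hord, hk]; exact Dvd.intro_left _ rfl), hord, hk,
      Nat.mul_div_cancel _ (Nat.pos_of_ne_zero hk0)]
  refine ⟨m, hm, ((g ^ k : (GaloisField ℓ m)ˣ) : GaloisField ℓ m), ?_⟩
  have h := IsPrimitiveRoot.orderOf ((g ^ k : (GaloisField ℓ m)ˣ) : GaloisField ℓ m)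
  rwa [orderOf_units, hordu] at h

/-- **Core inequality, abstract form**: an elementary abelian `ℓ`-group `V` acted on by `B`. -/
theorem core_abs {B V : Type*} [Group B] [Finite B] [CommGroup V] [Finite V] (ℓ : ℕ)
    [Fact ℓ.Prime] (hexp : ∀ v : V, v ^ ℓ = 1) (hB : ¬ ℓ ∣ Nat.card B) (ψ : B →* MulAut V)
    (P Z : Subgroup B) [P.Normal] (x : B) (r : ℕ) (hr : r.Prime) (hx : orderOf x = r)
    (hsup : P ⊔ Subgroup.zpowers x = ⊤) (hZP : Z ≤ P) (hZc : Z ≤ Subgroup.center B)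
    (hcl : ∀ h ∈ P, ∀ g ∈ P, h * g * h⁻¹ * g⁻¹ ∈ Z)
    (hfree : ∀ g ∈ P, x * g * x⁻¹ * g⁻¹ ∈ Z → g ∈ Z)
    (c : B) (hcZ : c ∈ Z) (hc : ψ c ≠ 1)
    (hsel : ∀ N : Subgroup B, N ≤ Z → c ∉ N →
      ∀ g ∈ P, g ∉ Z → ∃ h ∈ P, h * g * h⁻¹ * g⁻¹ ∉ N)
    (hfix : ∀ v : V, ψ x v = v → v = 1)
    (q : ℕ) (hq : q.Prime) (hcomq : ∀ h ∈ P, ∀ g ∈ P, (h * g * h⁻¹ * g⁻¹) ^ q = 1)
    (hrZ : ¬ r ∣ Nat.card Z) :
    ∃ n : ℕ, Nat.card P = q ^ (2 * n) * Nat.card Z ∧ (n = 0 ∨ r = q ^ n + 1) := by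
  classical
  have hℓ : ℓ.Prime := Fact.out
  have hpx : ∀ w : Additive V, ℓ • w = 0 := fun w => by
    change ℓ • Additive.ofMul (Additive.toMul w) = 0
    rw [← ofMul_pow, hexp]
    rfl
  have hfinV : Finite (Additive V) := ‹Finite V›
  obtain ⟨n, ρ₀, φ, hφ0, hφ⟩ := @mat_lin B (Additive V) _ _ hfinV ℓ _
    (AddCommGroup.zmodModule hpx)
    (fun a => MonoidHom.toAdditive (ψ a).toMonoidHom)
    (fun w => by
      change ψ 1 (Additive.toMul w) = Additive.toMul w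
      rw [map_one, MulAut.one_apply])
    (fun a a' w => by
      change ψ (a * a') (Additive.toMul w) = ψ a (ψ a' (Additive.toMul w))
      rw [map_mul, MulAut.mul_apply])
  have hφ' : ∀ (a : B) (v : V), ((ρ₀ a : (Matrix (Fin n) (Fin n) (ZMod ℓ))ˣ) :
      Matrix (Fin n) (Fin n) (ZMod ℓ)) *ᵥ φ (Additive.ofMul v) = φ (Additive.ofMul (ψ a v)) :=
    fun a v => hφ a (Additive.ofMul v)
  obtain ⟨m, hm, ξ, hξ⟩ := exists_field ℓ (Nat.card B) Nat.card_pos hB
  set f : ZMod ℓ →+* (GaloisField ℓ m) := algebraMap (ZMod ℓ) (GaloisField ℓ m) with hf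
  have hfinj : Function.Injective f := f.injective
  set ρK : B →* (Module.End (GaloisField ℓ m) (Fin n → (GaloisField ℓ m)))ˣ :=
    (Units.map ((Matrix.toLinAlgEquiv' : Matrix (Fin n) (Fin n) (GaloisField ℓ m) ≃ₐ[(GaloisField ℓ m)] _) :
      Matrix (Fin n) (Fin n) (GaloisField ℓ m) →* Module.End (GaloisField ℓ m) (Fin n → (GaloisField ℓ m)))).comp
    ((Units.map (f.mapMatrix : Matrix (Fin n) (Fin n) (ZMod ℓ) →+* Matrix (Fin n) (Fin n) (GaloisField ℓ m))
      : (Matrix (Fin n) (Fin n) (ZMod ℓ))ˣ →* (Matrix (Fin n) (Fin n) (GaloisField ℓ m))ˣ).comp ρ₀) with hρK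
  have hρKapp : ∀ (b : B) (u : Fin n → (GaloisField ℓ m)), (ρK b : Module.End (GaloisField ℓ m) (Fin n → (GaloisField ℓ m))) u
      = ((ρ₀ b : (Matrix (Fin n) (Fin n) (ZMod ℓ))ˣ) : Matrix (Fin n) (Fin n) (ZMod ℓ)).map f
        *ᵥ u := by
    intro b u
    rfl
  have hcK : (ρK c : Module.End (GaloisField ℓ m) (Fin n → (GaloisField ℓ m))) ≠ 1 := by
    intro h
    apply hc
    apply MulEquiv.ext
    intro v
    rw [MulAut.one_apply]
    have h1 : ((ρ₀ c : (Matrix (Fin n) (Fin n) (ZMod ℓ))ˣ) : Matrix (Fin n) (Fin n) (ZMod ℓ))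
        *ᵥ φ (Additive.ofMul v) = φ (Additive.ofMul v) := by
      funext i
      apply hfinj
      rw [RingHom.map_mulVec, ← hρKapp, h]
      rfl
    rw [hφ'] at h1
    exact Additive.ofMul.injective (φ.injective h1)
  have hrB : r ∣ Nat.card B := hx ▸ orderOf_dvd_natCard x
  have hrK : (r : (GaloisField ℓ m)) ≠ 0 := by
    intro h
    rw [CharP.cast_eq_zero_iff (GaloisField ℓ m) ℓ] at h
    exact hB (h.trans hrB)
  have hfixK : ∀ u : Fin n → (GaloisField ℓ m), (ρK x : Module.End (GaloisField ℓ m) (Fin n → (GaloisField ℓ m))) u = u → u = 0 := by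
    set X := ((ρ₀ x : (Matrix (Fin n) (Fin n) (ZMod ℓ))ˣ) : Matrix (Fin n) (Fin n) (ZMod ℓ))
      with hX
    have hXr : X ^ r = 1 := by
      rw [hX, ← Units.val_pow_eq_pow_val, ← map_pow, ← hx, pow_orderOf_eq_one, map_one,
        Units.val_one]
    have hNX : ∑ j ∈ Finset.range r, X ^ j = 0 := by
      have h1 : X * ∑ j ∈ Finset.range r, X ^ j = ∑ j ∈ Finset.range r, X ^ j := by
        have h2 := mul_geom_sum X r
        rw [hXr, sub_self, sub_mul, one_mul, sub_eq_zero] at h2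
        exact h2
      have h3 : ∀ w : Fin n → ZMod ℓ, (∑ j ∈ Finset.range r, X ^ j) *ᵥ w = 0 := by
        intro w
        have h4 : X *ᵥ ((∑ j ∈ Finset.range r, X ^ j) *ᵥ w)
            = (∑ j ∈ Finset.range r, X ^ j) *ᵥ w := by
          rw [Matrix.mulVec_mulVec, h1]
        obtain ⟨v, hv⟩ := (Additive.ofMul.trans φ).surjective ((∑ j ∈ Finset.range r, X ^ j) *ᵥ w)
        have hv' : φ (Additive.ofMul v) = (∑ j ∈ Finset.range r, X ^ j) *ᵥ w := hv
        rw [← hv', hX, hφ'] at h4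
        have h5 := hfix v (Additive.ofMul.injective (φ.injective h4))
        rw [← hv', h5]
        exact hφ0
      ext i j
      have h6 := congrFun (h3 (Pi.single j 1)) i
      rw [Matrix.mulVec_single_one] at h6
      exact h6
    intro u hu
    have hXK : (X.map f) *ᵥ u = u := by
      rw [← hρKapp]
      exact hu
    have hpow : ∀ j : ℕ, (X.map f) ^ j *ᵥ u = u := by
      intro j
      induction j with
      | zero => rw [pow_zero, Matrix.one_mulVec]
      | succ j ih => rw [pow_succ, ← Matrix.mulVec_mulVec, hXK, ih]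
    have hsumK : (∑ j ∈ Finset.range r, (X.map f) ^ j) = 0 := by
      have h7 := congrArg (f.mapMatrix : Matrix (Fin n) (Fin n) (ZMod ℓ) →+*
        Matrix (Fin n) (Fin n) (GaloisField ℓ m)) hNX
      rw [map_sum, map_zero] at h7
      rw [← h7]
      apply Finset.sum_congr rfl
      intro j _
      rw [map_pow]
      rfl
    have h8 : (∑ j ∈ Finset.range r, (X.map f) ^ j) *ᵥ u = (r : (GaloisField ℓ m)) • u := by
      rw [Matrix.sum_mulVec, Finset.sum_congr rfl (fun j _ => hpow j), Finset.sum_const,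
        Finset.card_range, Nat.cast_smul_eq_nsmul]
    rw [hsumK, Matrix.zero_mulVec] at h8
    rcases smul_eq_zero.mp h8.symm with h9 | h9
    · exact absurd h9 hrK
    · exact h9
  obtain ⟨n, hn, hle⟩ := core_K ℓ hB ρK P Z x r hr hx hsup hZP hZc hcl hfree c hcZ hcK hsel
    hfixK ξ hξ q hq hcomq
  refine ⟨n, hn, ?_⟩
  by_cases hn0 : n = 0
  · exact Or.inl hn0
  right
  haveI : Fact r.Prime := ⟨hr⟩
  have hmod : Nat.card P ≡ Nat.card Z [MOD r] := by
    letI act : MulAction ↥(Subgroup.zpowers x) ↥P :=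
      { smul := fun a y => ⟨(a : B) * y * (a : B)⁻¹, ‹P.Normal›.conj_mem y y.2 a⟩
        one_smul := fun y => Subtype.ext (by
          change ((1 : ↥(Subgroup.zpowers x)) : B) * y * ((1 : ↥(Subgroup.zpowers x)) : B)⁻¹ = y
          simp)
        mul_smul := fun a b y => Subtype.ext (by
          change ((a * b : ↥(Subgroup.zpowers x)) : B) * y * ((a * b : ↥(Subgroup.zpowers x)) : B)⁻¹
            = (a : B) * ((b : B) * y * (b : B)⁻¹) * (a : B)⁻¹
          rw [Subgroup.coe_mul]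
          group) }
    have hsm : ∀ (a : ↥(Subgroup.zpowers x)) (y : ↥P), ((a • y : ↥P) : B)
        = (a : B) * y * (a : B)⁻¹ := fun a y => rfl
    have hpg : IsPGroup r ↥(Subgroup.zpowers x) :=
      IsPGroup.of_card (n := 1) (by rw [Nat.card_zpowers, hx, pow_one])
    have h1 := hpg.card_modEq_card_fixedPoints ↥P
    have h2 : Nat.card ↥(MulAction.fixedPoints ↥(Subgroup.zpowers x) ↥P) = Nat.card Z := by
      apply Nat.card_congr
      refine
        { toFun := fun y => ⟨((y : ↥P) : B), ?_⟩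
          invFun := fun z => ⟨⟨(z : B), hZP z.2⟩, ?_⟩
          left_inv := fun y => rfl
          right_inv := fun z => rfl }
      · apply hfree _ (y : ↥P).2
        have h3 := y.2 ⟨x, Subgroup.mem_zpowers x⟩
        have h4 := congrArg Subtype.val h3
        rw [hsm] at h4
        change x * ((y : ↥P) : B) * x⁻¹ = ((y : ↥P) : B) at h4
        rw [h4, mul_inv_cancel]
        exact Z.one_mem
      · intro a
        apply Subtype.ext
        rw [hsm]
        change (a : B) * (z : B) * (a : B)⁻¹ = (z : B)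
        rw [Subgroup.mem_center_iff.mp (hZc z.2) (a : B), mul_inv_cancel_right]
    rw [h2] at h1
    exact h1
  have hZpos : 0 < Nat.card Z := Nat.card_pos
  have hqn1 : 1 ≤ q ^ (2 * n) := Nat.one_le_pow _ _ hq.pos
  have hdvd1 : r ∣ (q ^ (2 * n) - 1) * Nat.card Z := by
    have h3 : Nat.card Z ≤ Nat.card P := by rw [hn]; nlinarith
    have h4 := (Nat.modEq_iff_dvd' h3).mp hmod.symm
    have h5 : Nat.card P - Nat.card Z = (q ^ (2 * n) - 1) * Nat.card Z := by
      rw [hn, Nat.sub_mul, one_mul]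
    rwa [h5] at h4
  have hdvd2 : r ∣ q ^ (2 * n) - 1 :=
    (Nat.Coprime.dvd_mul_right ((Nat.Prime.coprime_iff_not_dvd hr).mpr hrZ)).mp hdvd1
  have hqn : 2 ≤ q ^ n := by
    calc 2 ≤ q := hq.two_le
      _ = q ^ 1 := (pow_one q).symm
      _ ≤ q ^ n := Nat.pow_le_pow_right hq.pos (Nat.pos_of_ne_zero hn0)
  have hfac : q ^ (2 * n) - 1 = (q ^ n - 1) * (q ^ n + 1) := by
    have h6 : q ^ (2 * n) = q ^ n * q ^ n := by rw [two_mul, pow_add]
    rw [h6]
    obtain ⟨t, ht⟩ : ∃ t, q ^ n = t + 2 := ⟨q ^ n - 2, by omega⟩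
    rw [ht]
    have h7 : (t + 2) * (t + 2) - 1 = (t + 1) * (t + 2 + 1) := by
      have : (t + 2) * (t + 2) = (t + 1) * (t + 2 + 1) + 1 := by ring
      omega
    rw [h7]
    congr 1
  have hle' : q ^ n ≤ r - 1 := by
    have h8 : (q ^ n) ^ 2 ≤ (r - 1) ^ 2 := by
      rw [← pow_mul, mul_comm]
      exact hle
    exact (Nat.pow_le_pow_iff_left (by norm_num)).mp h8
  have hr2 := hr.two_le
  rw [hfac] at hdvd2
  rcases (Nat.Prime.dvd_mul hr).mp hdvd2 with h9 | h9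
  · have h10 := Nat.le_of_dvd (by omega) h9
    omega
  · have h10 := Nat.le_of_dvd (by omega) h9
    omega

end Cfsg.Agent.Lib.Helper12.XsAbs
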