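import Mathlib
import Cfsg.Agent.Lib.Helper12.XsAbs

set_option autoImplicit false
set_option linter.style.haveILetI false

namespace Cfsg.Agent.Lib.Helper12.XsSub

open Cfsg.Agent.Lib.Helper12.XsAbs

theorem mem_normalizer_of_conj {A : Type*} [Group A] [Finite A] (P : Subgroup A) (x : A)
    (h : ∀ g ∈ P, x * g * x⁻¹ ∈ P) : x ∈ Subgroup.normalizer (P : Set A) := by
  rw [Subgroup.mem_normalizer_iff]
  intro g
  refine ⟨h g, fun hg => ?_⟩
  set f : ↥P → ↥P := fun y => ⟨x * y * x⁻¹, h y y.2⟩ with hf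
  have hinj : Function.Injective f := by
    intro a b hab
    have h1 : x * (a : A) * x⁻¹ = x * (b : A) * x⁻¹ := congrArg Subtype.val hab
    apply Subtype.ext
    have h2 := mul_right_cancel h1
    exact mul_left_cancel h2
  obtain ⟨y, hy⟩ := (Finite.injective_iff_surjective.mp hinj) ⟨x * g * x⁻¹, hg⟩
  have h1 : x * (y : A) * x⁻¹ = x * g * x⁻¹ := congrArg Subtype.val hy
  have h2 : (y : A) = g := mul_left_cancel (mul_right_cancel h1)
  rw [← h2]
  exact y.2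

theorem inv_conj_mem {A : Type*} [Group A] [Finite A] (P : Subgroup A) (x : A)
    (h : ∀ g ∈ P, x * g * x⁻¹ ∈ P) : ∀ g ∈ P, x⁻¹ * g * x ∈ P := by
  intro g hg
  have h1 := mem_normalizer_of_conj P x h
  rw [Subgroup.mem_normalizer_iff] at h1
  rw [h1 (x⁻¹ * g * x)]
  have h2 : x * (x⁻¹ * g * x) * x⁻¹ = g := by group
  rw [h2]
  exact hg

/-- **Core inequality, subgroup form**. -/
theorem core_sub {A V : Type*} [Group A] [Finite A] [CommGroup V] [Finite V] (ℓ : ℕ)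
    [Fact ℓ.Prime] (hexp : ∀ v : V, v ^ ℓ = 1) (hA : ¬ ℓ ∣ Nat.card A) (ψ : A →* MulAut V)
    (P Z : Subgroup A) (x : A) (r : ℕ) (hr : r.Prime) (hx : orderOf x = r)
    (hxP : ∀ g ∈ P, x * g * x⁻¹ ∈ P) (hZP : Z ≤ P)
    (hZcP : ∀ z ∈ Z, ∀ g ∈ P, z * g = g * z) (hZx : ∀ z ∈ Z, x * z = z * x)
    (hcl : ∀ h ∈ P, ∀ g ∈ P, h * g * h⁻¹ * g⁻¹ ∈ Z)
    (hfree : ∀ g ∈ P, x * g * x⁻¹ * g⁻¹ ∈ Z → g ∈ Z)
    (c : A) (hcZ : c ∈ Z) (hc : ψ c ≠ 1)
    (hsel : ∀ N : Subgroup A, N ≤ Z → c ∉ N →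
      ∀ g ∈ P, g ∉ Z → ∃ h ∈ P, h * g * h⁻¹ * g⁻¹ ∉ N)
    (hfix : ∀ v : V, ψ x v = v → v = 1)
    (q : ℕ) (hq : q.Prime) (hcomq : ∀ h ∈ P, ∀ g ∈ P, (h * g * h⁻¹ * g⁻¹) ^ q = 1)
    (hrZ : ¬ r ∣ Nat.card Z) :
    ∃ n : ℕ, Nat.card P = q ^ (2 * n) * Nat.card Z ∧ (n = 0 ∨ r = q ^ n + 1) := by
  classical
  set B : Subgroup A := P ⊔ Subgroup.zpowers x with hB
  have hPB : P ≤ B := le_sup_left
  have hxB : x ∈ B := (le_sup_right : Subgroup.zpowers x ≤ B) (Subgroup.mem_zpowers x)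
  have hBn : B ≤ Subgroup.normalizer (P : Set A) :=
    sup_le Subgroup.le_normalizer (Subgroup.zpowers_le.mpr (mem_normalizer_of_conj P x hxP))
  haveI hPn : (P.subgroupOf B).Normal := Subgroup.normal_subgroupOf_of_le_normalizer hBn
  set xB : ↥B := ⟨x, hxB⟩ with hxBdef
  have hxo : orderOf xB = r := by
    rw [← hx, ← Subgroup.orderOf_coe xB]
  have hsup : P.subgroupOf B ⊔ Subgroup.zpowers xB = ⊤ := by
    have hz : Subgroup.zpowers xB = (Subgroup.zpowers x).subgroupOf B := by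
      ext y
      rw [Subgroup.mem_subgroupOf, Subgroup.mem_zpowers_iff, Subgroup.mem_zpowers_iff]
      constructor
      · rintro ⟨k, rfl⟩
        exact ⟨k, by rw [Subgroup.coe_zpow]⟩
      · rintro ⟨k, hk⟩
        exact ⟨k, Subtype.ext (by rw [Subgroup.coe_zpow]; exact hk)⟩
    rw [hz, ← Subgroup.subgroupOf_sup hPB le_sup_right, Subgroup.subgroupOf_self]
  have hZc : Z.subgroupOf B ≤ Subgroup.center ↥B := by
    intro z hz
    rw [Subgroup.mem_center_iff]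
    intro g
    apply Subtype.ext
    rw [Subgroup.coe_mul, Subgroup.coe_mul]
    have hcen : B ≤ Subgroup.centralizer ({(z : A)} : Set A) := by
      apply sup_le
      · intro g hg
        rw [Subgroup.mem_centralizer_iff]
        intro h hh
        rw [Set.mem_singleton_iff] at hh
        rw [hh]
        exact hZcP z hz g hg
      · apply Subgroup.zpowers_le.mpr
        rw [Subgroup.mem_centralizer_iff]
        intro h hh
        rw [Set.mem_singleton_iff] at hh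
        rw [hh]
        exact (hZx z hz).symm
    exact ((Subgroup.mem_centralizer_iff.mp (hcen g.2)) (z : A) (Set.mem_singleton _)).symm
  have hB' : ¬ ℓ ∣ Nat.card ↥B := fun h => hA (h.trans (Subgroup.card_subgroup_dvd_card B))
  set c' : ↥B := ⟨c, hPB (hZP hcZ)⟩ with hc'
  have hsel' : ∀ N : Subgroup ↥B, N ≤ Z.subgroupOf B → c' ∉ N →
      ∀ g ∈ P.subgroupOf B, g ∉ Z.subgroupOf B →
        ∃ h ∈ P.subgroupOf B, h * g * h⁻¹ * g⁻¹ ∉ N := by
    intro N hN hcN g hg hgZ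
    obtain ⟨h, hh, hne⟩ := hsel (N.map B.subtype)
      (by
        rintro _ ⟨y, hy, rfl⟩
        exact hN hy)
      (by
        rintro ⟨y, hy, hyc⟩
        have h1 : y = c' := Subtype.ext hyc
        exact hcN (h1 ▸ hy)) (g : A) hg hgZ
    exact ⟨⟨h, hPB hh⟩, hh, fun hmem => hne ⟨_, hmem, rfl⟩⟩
  have hrZ' : ¬ r ∣ Nat.card ↥(Z.subgroupOf B) := by
    rw [Nat.card_congr (Subgroup.subgroupOfEquivOfLe (hZP.trans hPB)).toEquiv]
    exact hrZ
  obtain ⟨n, hn, hn2⟩ := core_abs ℓ hexp hB' (ψ.comp B.subtype) (P.subgroupOf B)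
    (Z.subgroupOf B) xB r hr hxo hsup (fun z hz => hZP hz) hZc
    (fun h hh g hg => hcl h hh g hg) (fun g hg hgz => hfree g hg hgz) c' hcZ hc hsel'
    hfix q hq
    (fun h hh g hg => Subtype.ext (by
      rw [Subgroup.coe_pow]
      exact hcomq h hh g hg)) hrZ'
  refine ⟨n, ?_, hn2⟩
  rw [Nat.card_congr (Subgroup.subgroupOfEquivOfLe hPB).toEquiv,
    Nat.card_congr (Subgroup.subgroupOfEquivOfLe (hZP.trans hPB)).toEquiv] at hn
  exact hn

end Cfsg.Agent.Lib.Helper12.XsSub
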