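import Mathlib
import Cfsg.Agent.Lib.Helper12.XsSub
import Cfsg.Agent.S1545

set_option autoImplicit false
set_option linter.style.haveILetI false

namespace Cfsg.Agent.Lib.Helper12.XsGlue

theorem conj_pow {A : Type*} [Group A] (x g z : A) (hz : x * g * x⁻¹ = z * g)
    (hzx : x * z = z * x) (k : ℕ) : x ^ k * g * (x ^ k)⁻¹ = z ^ k * g := by
  induction k with
  | zero => simp
  | succ k ih =>
    have h1 : x ^ (k + 1) * g * (x ^ (k + 1))⁻¹ = x * (x ^ k * g * (x ^ k)⁻¹) * x⁻¹ := by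
      rw [pow_succ']; group
    rw [h1, ih]
    have h2 : x * (z ^ k * g) * x⁻¹ = (x * z ^ k * x⁻¹) * (x * g * x⁻¹) := by group
    have h3 : x * z ^ k * x⁻¹ = z ^ k := by
      have hc : Commute x (z ^ k) := (show Commute x z from hzx).pow_right k
      rw [hc.eq, mul_inv_cancel_right]
    rw [h2, h3, hz, ← mul_assoc, ← pow_succ]

theorem commute_of_coprime {A : Type*} [Group A] (x g : A) (r q : ℕ) (hx : x ^ r = 1)
    (hcop : Nat.Coprime r q)
    (hzx : x * (x * g * x⁻¹ * g⁻¹) = (x * g * x⁻¹ * g⁻¹) * x)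
    (hzq : (x * g * x⁻¹ * g⁻¹) ^ q = 1) : x * g = g * x := by
  set z := x * g * x⁻¹ * g⁻¹ with hz
  have h1 : x * g * x⁻¹ = z * g := by rw [hz]; group
  have h2 := conj_pow x g z h1 hzx r
  rw [hx] at h2
  have h3 : z ^ r = 1 := by
    have h3' : z ^ r * g = 1 * g := by
      rw [one_mul, ← h2]; simp
    exact mul_right_cancel h3'
  have h4 : z ^ (r.gcd q) = 1 := pow_gcd_eq_one.mpr ⟨h3, hzq⟩
  rw [Nat.Coprime.gcd_eq_one hcop, pow_one] at h4
  have h5 : x * g * x⁻¹ = g := by rw [h1, h4, one_mul]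
  calc x * g = (x * g * x⁻¹) * x := by group
    _ = g * x := by rw [h5]

theorem mem_centralizer_of_prime {G : Type*} [Group G] (X : Subgroup G) {r : ℕ} (hr : r.Prime)
    (hX : Nat.card X = r) (x₀ : G) (hx₀ : x₀ ∈ X) (h1 : x₀ ≠ 1) (g : G) (hg : x₀ * g = g * x₀) :
    g ∈ Subgroup.centralizer (X : Set G) := by
  rw [Subgroup.mem_centralizer_iff]
  intro h hh
  haveI : Fact r.Prime := ⟨hr⟩
  have h2 : (⟨h, hh⟩ : ↥X) ∈ Subgroup.zpowers (⟨x₀, hx₀⟩ : ↥X) :=
    mem_zpowers_of_prime_card hX (fun h0 => h1 (congrArg Subtype.val h0))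
  obtain ⟨k, hk⟩ := Subgroup.mem_zpowers_iff.mp h2
  have h3 : h = x₀ ^ k := by
    have := congrArg Subtype.val hk
    simpa using this.symm
  rw [h3]
  exact ((show Commute x₀ g from hg).zpow_left k).eq

theorem exists_gen {G : Type*} [Group G] [Finite G] (X : Subgroup G) {r : ℕ} (hr : r.Prime)
    (hX : Nat.card X = r) : ∃ x₀ ∈ X, x₀ ≠ 1 ∧ orderOf x₀ = r := by
  have hnt : Nontrivial ↥X := by
    rw [← Finite.one_lt_card_iff_nontrivial, hX]; exact hr.one_lt
  obtain ⟨y, hy⟩ := exists_ne (1 : ↥X)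
  refine ⟨y.1, y.2, fun h => hy (Subtype.ext h), ?_⟩
  have h1 : orderOf y ∣ r := hX ▸ orderOf_dvd_natCard y
  rw [← Subgroup.orderOf_coe] at h1
  rcases (Nat.dvd_prime hr).mp h1 with h | h
  · exact absurd (Subtype.ext (orderOf_eq_one_iff.mp h)) hy
  · exact h

theorem card_sup_mul_card_inf {H : Type*} [Group H] [Finite H] {U V : Subgroup H}
    (h : V ≤ Subgroup.normalizer (U : Set H)) :
    Nat.card (U ⊔ V : Subgroup H) * Nat.card (U ⊓ V : Subgroup H) = Nat.card U * Nat.card V := by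
  have i1 := Subgroup.normal_subgroupOf_of_le_normalizer h
  have i2 := Subgroup.normal_subgroupOf_sup_of_le_normalizer h
  have e : U.relIndex (V ⊔ U) = U.relIndex V :=
    Nat.card_congr (QuotientGroup.quotientInfEquivProdNormalizerQuotient V U h).toEquiv.symm
  have h1 : Nat.card U * U.relIndex (V ⊔ U) = Nat.card (V ⊔ U : Subgroup H) := by
    have := Subgroup.relIndex_mul_relIndex (⊥ : Subgroup H) U (V ⊔ U) bot_le le_sup_right
    rwa [Subgroup.relIndex_bot_left, Subgroup.relIndex_bot_left] at this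
  have h2 : Nat.card (U ⊓ V : Subgroup H) * U.relIndex V = Nat.card V := by
    rw [← Subgroup.inf_relIndex_right]
    have := Subgroup.relIndex_mul_relIndex (⊥ : Subgroup H) (U ⊓ V) V bot_le inf_le_right
    rwa [Subgroup.relIndex_bot_left, Subgroup.relIndex_bot_left] at this
  rw [sup_comm, ← h1, e, ← h2]; ring

theorem not_dvd_card_sup {G : Type*} [Group G] [Finite G] (X Q : Subgroup G)
    (hXQ : X ≤ Subgroup.normalizer (Q : Set G)) (p : ℕ) (hp : p.Prime)
    (h1 : ¬ p ∣ Nat.card X) (h2 : ¬ p ∣ Nat.card Q) : ¬ p ∣ Nat.card ↥(X ⊔ Q) := by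
  have h := card_sup_mul_card_inf hXQ
  intro h3
  rw [sup_comm] at h3
  have h4 : p ∣ Nat.card Q * Nat.card X := h ▸ Dvd.dvd.mul_right h3 _
  rcases (Nat.Prime.dvd_mul hp).mp h4 with h5 | h5
  · exact h2 h5
  · exact h1 h5

end Cfsg.Agent.Lib.Helper12.XsGlue
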