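import Mathlib
import Cfsg.Agent.Lib.Helper12.XsGlue
import Cfsg.Agent.Lib.Helper12.WComm
import Cfsg.Agent.Lib.Helper1.Coprime

set_option autoImplicit false
set_option linter.style.haveILetI false

namespace Cfsg.Agent.Lib.Helper12.XsHH

open Cfsg.Agent.Lib.Helper12.XsGlue Cfsg.Agent.Lib.Helper12.XsSub Cfsg.Agent.Lib.Helper12
open scoped commutatorElement

theorem comm_pow {A : Type*} [Group A] (Q Z : Subgroup A)
    (hcl : ∀ h ∈ Q, ∀ g ∈ Q, h * g * h⁻¹ * g⁻¹ ∈ Z)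
    (hZc : ∀ z ∈ Z, ∀ g ∈ Q, z * g = g * z) (h g : A) (hh : h ∈ Q) (hg : g ∈ Q) (k : ℕ) :
    h * g ^ k * h⁻¹ * (g ^ k)⁻¹ = (h * g * h⁻¹ * g⁻¹) ^ k := by
  induction k with
  | zero => simp
  | succ k ih =>
    have h1 : h * g ^ (k + 1) * h⁻¹ * (g ^ (k + 1))⁻¹
        = (h * g ^ k * h⁻¹) * ((h * g * h⁻¹ * g⁻¹) * (g ^ k)⁻¹) := by
      rw [pow_succ]; group
    have hw := hZc _ (hcl h hh g hg) (g ^ k)⁻¹ (Q.inv_mem (Q.pow_mem hg k))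
    rw [h1, hw, ← mul_assoc, ih, ← pow_succ]

/-- elements of `Q` all of whose commutators with `Q` lie in `M`. -/
def tsub {A : Type*} [Group A] (Q Z M : Subgroup A) (hMZ : M ≤ Z)
    (hZc : ∀ z ∈ Z, ∀ g ∈ Q, z * g = g * z) : Subgroup A where
  carrier := {g | g ∈ Q ∧ ∀ h ∈ Q, h * g * h⁻¹ * g⁻¹ ∈ M}
  one_mem' := ⟨Q.one_mem, fun h _ => by simp [M.one_mem]⟩
  mul_mem' := by
    rintro a b ⟨ha, ha'⟩ ⟨hb, hb'⟩
    refine ⟨Q.mul_mem ha hb, fun h hh => ?_⟩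
    have h1 : h * (a * b) * h⁻¹ * (a * b)⁻¹
        = (h * a * h⁻¹ * a⁻¹) * (a * (h * b * h⁻¹ * b⁻¹) * a⁻¹) := by group
    have h2 : a * (h * b * h⁻¹ * b⁻¹) * a⁻¹ = h * b * h⁻¹ * b⁻¹ := by
      rw [← hZc _ (hMZ (hb' h hh)) a ha, mul_inv_cancel_right]
    rw [h1, h2]
    exact M.mul_mem (ha' h hh) (hb' h hh)
  inv_mem' := by
    rintro a ⟨ha, ha'⟩
    refine ⟨Q.inv_mem ha, fun h hh => ?_⟩
    have h1 : h * a⁻¹ * h⁻¹ * a⁻¹⁻¹ = a⁻¹ * ((h * a * h⁻¹ * a⁻¹)⁻¹ * a) := by group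
    have h2 : a⁻¹ * ((h * a * h⁻¹ * a⁻¹)⁻¹ * a) = (h * a * h⁻¹ * a⁻¹)⁻¹ := by
      rw [hZc _ (Z.inv_mem (hMZ (ha' h hh))) a ha, inv_mul_cancel_left]
    rw [h1, h2]
    exact M.inv_mem (ha' h hh)

theorem tsub_conj {A : Type*} [Group A] (Q Z M : Subgroup A) (hMZ : M ≤ Z)
    (hZc : ∀ z ∈ Z, ∀ g ∈ Q, z * g = g * z) (x : A) (hxQ' : ∀ g ∈ Q, x⁻¹ * g * x ∈ Q)
    (hxQ : ∀ g ∈ Q, x * g * x⁻¹ ∈ Q) (hZx : ∀ z ∈ Z, x * z = z * x) :
    ∀ g ∈ tsub Q Z M hMZ hZc, x * g * x⁻¹ ∈ tsub Q Z M hMZ hZc := by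
  rintro g ⟨hg, hg'⟩
  refine ⟨hxQ g hg, fun h hh => ?_⟩
  have hw := hg' (x⁻¹ * h * x) (hxQ' h hh)
  have h1 : h * (x * g * x⁻¹) * h⁻¹ * (x * g * x⁻¹)⁻¹
      = x * ((x⁻¹ * h * x) * g * (x⁻¹ * h * x)⁻¹ * g⁻¹) * x⁻¹ := by group
  rw [h1, hZx _ (hMZ hw), mul_inv_cancel_right]
  exact hw

/-- abelian case: an `x`-invariant abelian subgroup of order prime to `r` is centralized. -/
theorem abel {A V : Type*} [Group A] [Finite A] [CommGroup V] [Finite V] (ℓ : ℕ) [Fact ℓ.Prime]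
    (hexp : ∀ v : V, v ^ ℓ = 1) (hA : ¬ ℓ ∣ Nat.card A) (ψ : A →* MulAut V)
    (hinj : Function.Injective ψ) (x : A) (r : ℕ) (hr : r.Prime) (hx : orderOf x = r)
    (hfix : ∀ v : V, ψ x v = v → v = 1) (Q : Subgroup A)
    (hcop : ∀ g ∈ Q, ∃ m : ℕ, Nat.Coprime r m ∧ g ^ m = 1)
    (hxQ : ∀ g ∈ Q, x * g * x⁻¹ ∈ Q) (hab : ∀ a ∈ Q, ∀ b ∈ Q, a * b = b * a) :
    ∀ g ∈ Q, x * g = g * x := by
  classical
  set D : Subgroup A :=
    { carrier := {d | ∃ g ∈ Q, d = x * g * x⁻¹ * g⁻¹}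
      one_mem' := ⟨1, Q.one_mem, by simp⟩
      mul_mem' := by
        rintro _ _ ⟨g, hg, rfl⟩ ⟨g', hg', rfl⟩
        refine ⟨g * g', Q.mul_mem hg hg', ?_⟩
        have h1 := hab g⁻¹ (Q.inv_mem hg) (x * g' * x⁻¹) (hxQ g' hg')
        have h2 := hab g⁻¹ (Q.inv_mem hg) g'⁻¹ (Q.inv_mem hg')
        calc x * g * x⁻¹ * g⁻¹ * (x * g' * x⁻¹ * g'⁻¹)
            = x * g * x⁻¹ * (g⁻¹ * (x * g' * x⁻¹)) * g'⁻¹ := by group
          _ = x * g * x⁻¹ * ((x * g' * x⁻¹) * g⁻¹) * g'⁻¹ := by rw [h1]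
          _ = x * (g * g') * x⁻¹ * (g⁻¹ * g'⁻¹) := by group
          _ = x * (g * g') * x⁻¹ * (g'⁻¹ * g⁻¹) := by rw [h2]
          _ = x * (g * g') * x⁻¹ * (g * g')⁻¹ := by group
      inv_mem' := by
        rintro _ ⟨g, hg, rfl⟩
        refine ⟨g⁻¹, Q.inv_mem hg, ?_⟩
        have h1 := hab g hg (x * g⁻¹ * x⁻¹) (hxQ _ (Q.inv_mem hg))
        calc (x * g * x⁻¹ * g⁻¹)⁻¹ = g * (x * g⁻¹ * x⁻¹) := by group
          _ = (x * g⁻¹ * x⁻¹) * g := h1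
          _ = x * g⁻¹ * x⁻¹ * g⁻¹⁻¹ := by group } with hD
  have hDQ : D ≤ Q := by
    rintro _ ⟨g, hg, rfl⟩
    exact Q.mul_mem (hxQ g hg) (Q.inv_mem hg)
  have hxr : x ^ r = 1 := by rw [← hx]; exact pow_orderOf_eq_one x
  have hDfree : ∀ d ∈ D, x * d = d * x → d = 1 := by
    rintro _ ⟨g, hg, rfl⟩ hc
    obtain ⟨m, hm1, hm2⟩ := hcop _ (hDQ ⟨g, hg, rfl⟩)
    have h1 := commute_of_coprime x g r m hxr hm1 hc hm2
    rw [h1]; group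
  set R : Subgroup A := Subgroup.zpowers x with hR
  have hRcard : Nat.card R = r := by rw [hR, Nat.card_zpowers, hx]
  have hxD : ∀ d ∈ D, x * d * x⁻¹ ∈ D := by
    rintro _ ⟨g, hg, rfl⟩
    exact ⟨x * g * x⁻¹, hxQ g hg, by group⟩
  have hRD : R ≤ Subgroup.normalizer (D : Set A) :=
    Subgroup.zpowers_le.mpr (mem_normalizer_of_conj D x hxD)
  have hRDc : ∀ r' ∈ R, ∀ z ∈ D, r' * z * r'⁻¹ ∈ D :=
    fun r' hr' z hz => (Subgroup.mem_normalizer_iff.mp (hRD hr') z).mp hz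
  have hgen : ∀ r' ∈ R, r' ≠ 1 → ∀ z : A, r' * z = z * r' → x * z = z * x := by
    intro r' hr' hr1 z hz
    haveI : Fact r.Prime := ⟨hr⟩
    have h2 : (⟨x, Subgroup.mem_zpowers x⟩ : ↥R) ∈ Subgroup.zpowers (⟨r', hr'⟩ : ↥R) :=
      mem_zpowers_of_prime_card hRcard (fun h0 => hr1 (congrArg Subtype.val h0))
    obtain ⟨k, hk⟩ := Subgroup.mem_zpowers_iff.mp h2
    have h3 : x = r' ^ k := by
      have := congrArg Subtype.val hk
      simpa using this.symm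
    rw [h3]
    exact ((show Commute r' z from hz).zpow_left k).eq
  have hfpf : ∀ r' ∈ R, r' ≠ 1 → ∀ z ∈ D, r' * z = z * r' → z = 1 :=
    fun r' hr' hr1 z hz hc => hDfree z hz (hgen r' hr' hr1 z hc)
  have hDR : D ⊓ R = ⊥ := by
    rw [eq_bot_iff]
    rintro z ⟨hzD, hzR⟩
    obtain ⟨k, rfl⟩ := Subgroup.mem_zpowers_iff.mp hzR
    exact Subgroup.mem_bot.mpr (hDfree _ hzD ((Commute.refl x).zpow_right k).eq)
  have hpf := WComm.pair_formula ℓ hexp hA ψ D R hDR hRDc hfpf ⊤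
    (fun _ _ _ _ => Subgroup.mem_top _) (fun _ _ _ _ => Subgroup.mem_top _)
  have hfR : WComm.fixSub ψ (R : Set A) = ⊥ := by
    rw [eq_bot_iff]
    intro v hv
    exact Subgroup.mem_bot.mpr (hfix v (hv x (Subgroup.mem_zpowers x)))
  have e1 : Nat.card ↥((⊤ : Subgroup V) ⊓ WComm.fixSub ψ (D : Set A) ⊓ WComm.fixSub ψ (R : Set A))
      = 1 := by
    rw [hfR, inf_bot_eq, Subgroup.card_bot]
  have e2 : Nat.card ↥((⊤ : Subgroup V) ⊓ WComm.fixSub ψ (R : Set A)) = 1 := by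
    rw [hfR, inf_bot_eq, Subgroup.card_bot]
  rw [e1, e2, one_pow, one_mul, one_mul, top_inf_eq, Subgroup.card_top] at hpf
  have hfD : WComm.fixSub ψ (D : Set A) = ⊤ := Subgroup.eq_top_of_card_eq _ hpf.symm
  intro g hg
  have hd : x * g * x⁻¹ * g⁻¹ ∈ D := ⟨g, hg, rfl⟩
  have h1 : ψ (x * g * x⁻¹ * g⁻¹) = 1 := by
    ext v
    have hv : v ∈ WComm.fixSub ψ (D : Set A) := hfD ▸ Subgroup.mem_top v
    exact hv _ hd
  have h2 : x * g * x⁻¹ * g⁻¹ = 1 := hinj (by rw [h1, map_one])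
  calc x * g = (x * g * x⁻¹ * g⁻¹) * (g * x) := by group
    _ = g * x := by rw [h2, one_mul]

theorem hh_min {A V : Type*} [Group A] [Finite A] [CommGroup V] [Finite V] (ℓ : ℕ) [Fact ℓ.Prime]
    (hexp : ∀ v : V, v ^ ℓ = 1) (hA : ¬ ℓ ∣ Nat.card A) (ψ : A →* MulAut V)
    (hinj : Function.Injective ψ) (x : A) (r : ℕ) (hr : r.Prime) (hx : orderOf x = r)
    (hfix : ∀ v : V, ψ x v = v → v = 1) (q : ℕ) (hq : q.Prime) (hqr : q ≠ r)
    (Q : Subgroup A) (hQ : IsPGroup q Q) (hxQ : ∀ g ∈ Q, x * g * x⁻¹ ∈ Q)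
    (hnc : ∃ g ∈ Q, x * g ≠ g * x)
    (hmin : ∀ H : Subgroup A, H ≤ Q → H ≠ Q → (∀ g ∈ H, x * g * x⁻¹ ∈ H) →
      ∀ g ∈ H, x * g = g * x) :
    q = 2 ∧ (∃ n : ℕ, r = 2 ^ n + 1) ∧ ∃ a ∈ Q, ∃ b ∈ Q, a * b ≠ b * a := by
  classical
  haveI : Fact q.Prime := ⟨hq⟩
  have hrq : Nat.Coprime r q := (Nat.coprime_primes hr hq).mpr (Ne.symm hqr)
  have hxr : x ^ r = 1 := by rw [← hx]; exact pow_orderOf_eq_one x
  have hQpow : ∀ g ∈ Q, ∃ m : ℕ, g ^ (q ^ m) = 1 := by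
    intro g hg
    obtain ⟨m, hm⟩ := hQ ⟨g, hg⟩
    exact ⟨m, by simpa using congrArg Subtype.val hm⟩
  have hcopQ : ∀ g ∈ Q, ∃ m : ℕ, Nat.Coprime r m ∧ g ^ m = 1 := by
    intro g hg
    obtain ⟨m, hm⟩ := hQpow g hg
    exact ⟨q ^ m, Nat.Coprime.pow_right m hrq, hm⟩
  by_cases hab : ∀ a ∈ Q, ∀ b ∈ Q, a * b = b * a
  · exfalso
    obtain ⟨g, hg, hne⟩ := hnc
    exact hne (abel ℓ hexp hA ψ hinj x r hr hx hfix Q hcopQ hxQ hab g hg)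
  push Not at hab
  obtain ⟨a, ha, b, hb, hab⟩ := hab
  refine (fun h => ⟨h.1, h.2, a, ha, b, hb, hab⟩ :
    q = 2 ∧ (∃ n : ℕ, r = 2 ^ n + 1) → _) ?_
  set R : Subgroup A := Subgroup.zpowers x with hR
  have hRcard : Nat.card R = r := by rw [hR, Nat.card_zpowers, hx]
  have hRQ : R ≤ Subgroup.normalizer (Q : Set A) :=
    Subgroup.zpowers_le.mpr (mem_normalizer_of_conj Q x hxQ)
  have hxQ' := inv_conj_mem Q x hxQ
  obtain ⟨kQ, hkQ⟩ := IsPGroup.iff_card.mp hQ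
  have hcop : (Nat.card R).Coprime (Nat.card Q) := by
    rw [hRcard, hkQ]; exact Nat.Coprime.pow_right _ hrq
  have hRsolv : Group.IsSolvable ↥R := Group.isSolvable_of_comm (fun a b => by
    obtain ⟨i, hi⟩ := Subgroup.mem_zpowers_iff.mp a.2
    obtain ⟨j, hj⟩ := Subgroup.mem_zpowers_iff.mp b.2
    apply Subtype.ext
    rw [Subgroup.coe_mul, Subgroup.coe_mul, ← hi, ← hj]
    exact zpow_mul_comm x i j)
  set Z : Subgroup A := Q ⊓ Subgroup.centralizer (R : Set A) with hZ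
  have hZQ : Z ≤ Q := inf_le_left
  have hmemZ : ∀ g : A, g ∈ Z ↔ g ∈ Q ∧ x * g = g * x := by
    intro g
    constructor
    · rintro ⟨h1, h2⟩
      exact ⟨h1, Subgroup.mem_centralizer_iff.mp h2 x (Subgroup.mem_zpowers x)⟩
    · rintro ⟨h1, h2⟩
      refine ⟨h1, Subgroup.mem_centralizer_iff.mpr ?_⟩
      intro y hy
      obtain ⟨k, rfl⟩ := Subgroup.mem_zpowers_iff.mp hy
      exact ((show Commute x g from h2).zpow_left k).eq
  have hZx : ∀ z ∈ Z, x * z = z * x := fun z hz => ((hmemZ z).mp hz).2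
  have hirr : ∀ H : Subgroup A, H ≤ Q → H ≠ Q → (∀ g ∈ H, x * g * x⁻¹ ∈ H) → H ≤ Z :=
    fun H hHQ hne hxH g hg => (hmemZ g).mpr ⟨hHQ hg, hmin H hHQ hne hxH g hg⟩
  have hZne : Z ≠ Q := by
    intro h
    obtain ⟨g, hg, hne⟩ := hnc
    exact hne (hZx g (h ▸ hg))
  have hQnt : Nontrivial ↥Q := by
    obtain ⟨g, hg, hne⟩ := hnc
    refine ⟨⟨⟨g, hg⟩, 1, fun h => hne ?_⟩⟩
    have h1 : g = 1 := congrArg Subtype.val h
    rw [h1]; simp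
  have hDQ : ⁅Q, Q⁆ ≤ Q :=
    Cfsg.Agent.Lib.Helper1.commutator_le_of_le_normalizer Subgroup.le_normalizer
  have hDne : ⁅Q, Q⁆ ≠ Q := by
    intro h
    haveI : Group.IsNilpotent ↥Q := hQ.isNilpotent
    have h1 : commutator ↥Q < ⊤ := Group.IsSolvable.commutator_lt_top_of_nontrivial ↥Q
    have h2 : (commutator ↥Q).map Q.subtype = (⊤ : Subgroup ↥Q).map Q.subtype := by
      rw [Subgroup.map_subtype_commutator, h, ← MonoidHom.range_eq_map, Subgroup.range_subtype]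
    exact h1.ne (Subgroup.map_injective Q.subtype_injective h2)
  have hDx : ∀ g ∈ ⁅Q, Q⁆, x * g * x⁻¹ ∈ ⁅Q, Q⁆ := by
    have h1 : ⁅Q, Q⁆ ≤ (⁅Q, Q⁆).comap (MulAut.conj x).toMonoidHom := by
      rw [Subgroup.commutator_le]
      intro a ha b hb
      rw [Subgroup.mem_comap]
      have h2 : (MulAut.conj x).toMonoidHom ⁅a, b⁆ = ⁅x * a * x⁻¹, x * b * x⁻¹⁆ := by
        simp only [commutatorElement_def, MulEquiv.coe_toMonoidHom, MulAut.conj_apply]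
        group
      rw [h2]
      exact Subgroup.commutator_mem_commutator (hxQ a ha) (hxQ b hb)
    intro g hg
    exact h1 hg
  have hDZ : ⁅Q, Q⁆ ≤ Z := hirr _ hDQ hDne hDx
  have hcl : ∀ h ∈ Q, ∀ g ∈ Q, h * g * h⁻¹ * g⁻¹ ∈ Z := by
    intro h hh g hg
    have h1 := Subgroup.commutator_mem_commutator hh hg
    rw [commutatorElement_def] at h1
    exact hDZ h1
  have hQR : ⁅Q, R⁆ = Q := by
    by_contra hne
    have h1 := Cfsg.Agent.Lib.Helper1.commutator_le_of_le_normalizer hRQ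
    have h2 := Cfsg.Agent.Lib.Helper1.commutator_normalizer hRQ
    have h3 : ∀ g ∈ ⁅Q, R⁆, x * g * x⁻¹ ∈ ⁅Q, R⁆ := by
      intro g hg
      exact (Subgroup.mem_normalizer_iff.mp
        (h2 ((le_sup_right : R ≤ Q ⊔ R) (Subgroup.mem_zpowers x))) g).mp hg
    have h4 := hirr _ h1 hne h3
    have h5 := Cfsg.Agent.Lib.Helper1.coprime_commutator_sup R Q hRQ hcop (Or.inl hRsolv)
    have h6 : ⁅Q, R⁆ ⊔ Z ≤ Z := sup_le h4 le_rfl
    exact hZne (le_antisymm hZQ (h5.ge.trans h6))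
  have hZc : ∀ z ∈ Z, ∀ g ∈ Q, z * g = g * z := by
    have h1 : ⁅R, Z⁆ = ⊥ := by
      rw [Subgroup.commutator_eq_bot_iff_le_centralizer, Subgroup.le_centralizer_iff]
      exact inf_le_right
    have h2 : ⁅⁅R, Z⁆, Q⁆ = ⊥ := by rw [h1, Subgroup.commutator_bot_left]
    have h3 : ⁅⁅Z, Q⁆, R⁆ = ⊥ := by
      rw [Subgroup.commutator_eq_bot_iff_le_centralizer]
      exact ((Subgroup.commutator_mono hZQ le_rfl).trans hDZ).trans inf_le_right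
    have h4 := Subgroup.commutator_commutator_eq_bot_of_rotate h2 h3
    rw [hQR, Subgroup.commutator_eq_bot_iff_le_centralizer] at h4
    intro z hz g hg
    exact Subgroup.mem_centralizer_iff.mp (h4 hg) z hz
  have hfree : ∀ g ∈ Q, x * g * x⁻¹ * g⁻¹ ∈ Z → g ∈ Z := by
    intro g hg hz
    obtain ⟨m, hm1, hm2⟩ := hcopQ _ (hZQ hz)
    exact (hmemZ g).mpr ⟨hg, commute_of_coprime x g r m hxr hm1 (hZx _ hz) hm2⟩
  set M : Subgroup A :=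
    { carrier := {z | z ∈ Z ∧ z ^ q = 1}
      one_mem' := ⟨Z.one_mem, one_pow q⟩
      mul_mem' := by
        rintro a b ⟨ha, ha'⟩ ⟨hb, hb'⟩
        refine ⟨Z.mul_mem ha hb, ?_⟩
        have hc : Commute a b := hZc a ha b (hZQ hb)
        rw [hc.mul_pow, ha', hb', one_mul]
      inv_mem' := by
        rintro a ⟨ha, ha'⟩
        exact ⟨Z.inv_mem ha, by rw [inv_pow, ha', inv_one]⟩ } with hM
  have hMZ : M ≤ Z := fun z hz => hz.1
  have hcomq : ∀ h ∈ Q, ∀ g ∈ Q, (h * g * h⁻¹ * g⁻¹) ^ q = 1 := by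
    set T := tsub Q Z M hMZ hZc with hT
    have hTQ : T ≤ Q := fun g hg => hg.1
    have hTx : ∀ g ∈ T, x * g * x⁻¹ ∈ T := tsub_conj Q Z M hMZ hZc x hxQ' hxQ hZx
    have hTeq : T = Q := by
      by_contra hne
      have hTZ := hirr T hTQ hne hTx
      obtain ⟨g₀, hg₀, hne₀⟩ := hnc
      have hg₀Z : g₀ ∉ Z := fun h => hne₀ (hZx g₀ h)
      have hex : ∃ m : ℕ, g₀ ^ (q ^ m) ∈ Z := by
        obtain ⟨m, hm⟩ := hQpow g₀ hg₀
        exact ⟨m, hm ▸ Z.one_mem⟩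
      have hm₀spec : g₀ ^ (q ^ (Nat.find hex)) ∈ Z := Nat.find_spec hex
      have hm₀pos : Nat.find hex ≠ 0 := by
        intro h0
        rw [h0, pow_zero, pow_one] at hm₀spec
        exact hg₀Z hm₀spec
      obtain ⟨m₁, hm₁⟩ := Nat.exists_eq_succ_of_ne_zero hm₀pos
      have hg₁Z : g₀ ^ (q ^ m₁) ∉ Z := Nat.find_min hex (by omega)
      have hg₁Q : g₀ ^ (q ^ m₁) ∈ Q := Q.pow_mem hg₀ _
      have hg₁q : (g₀ ^ (q ^ m₁)) ^ q ∈ Z := by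
        have h1 : q ^ m₁ * q = q ^ (Nat.find hex) := by rw [hm₁, pow_succ]
        rw [← pow_mul, h1]
        exact hm₀spec
      apply hg₁Z
      apply hTZ
      refine ⟨hg₁Q, fun h hh => ⟨hcl h hh _ hg₁Q, ?_⟩⟩
      rw [← comm_pow Q Z hcl hZc h _ hh hg₁Q q]
      have h2 := hZc _ hg₁q h hh
      rw [← h2, mul_inv_cancel_right, mul_inv_cancel]
    intro h hh g hg
    have hgT : g ∈ T := by rw [hTeq]; exact hg
    exact (hgT.2 h hh).2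
  set c : A := a * b * a⁻¹ * b⁻¹ with hc
  have hcZ : c ∈ Z := hcl a ha b hb
  have hc1 : c ≠ 1 := by
    intro h
    apply hab
    calc a * b = (a * b * a⁻¹ * b⁻¹) * (b * a) := by group
      _ = b * a := by rw [← hc, h, one_mul]
  have hψc : ψ c ≠ 1 := fun h => hc1 (hinj (by rw [h, map_one]))
  have hsel : ∀ N : Subgroup A, N ≤ Z → c ∉ N → ∀ g ∈ Q, g ∉ Z →
      ∃ h ∈ Q, h * g * h⁻¹ * g⁻¹ ∉ N := by
    intro N hNZ hcN g hg hgZ
    by_contra hcon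
    push Not at hcon
    have hTQ : tsub Q Z N hNZ hZc ≤ Q := fun g hg => hg.1
    have hTx : ∀ g ∈ tsub Q Z N hNZ hZc, x * g * x⁻¹ ∈ tsub Q Z N hNZ hZc :=
      tsub_conj Q Z N hNZ hZc x hxQ' hxQ hZx
    have hTne : tsub Q Z N hNZ hZc ≠ Q := by
      intro h
      have hbT : b ∈ tsub Q Z N hNZ hZc := by rw [h]; exact hb
      exact hcN (hbT.2 a ha)
    exact hgZ (hirr _ hTQ hTne hTx ⟨hg, hcon⟩)
  have hrZ : ¬ r ∣ Nat.card Z := by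
    obtain ⟨k, hk⟩ := IsPGroup.iff_card.mp (hQ.to_le hZQ)
    rw [hk]
    intro h
    exact hqr ((Nat.prime_dvd_prime_iff_eq hr hq).mp (hr.dvd_of_dvd_pow h)).symm
  obtain ⟨n, hn1, hn2⟩ := core_sub ℓ hexp hA ψ Q Z x r hr hx hxQ hZQ hZc hZx hcl hfree c hcZ hψc
    hsel hfix q hq hcomq hrZ
  have hn0 : n ≠ 0 := by
    rintro rfl
    rw [Nat.mul_zero, pow_zero, one_mul] at hn1
    exact hZne (Subgroup.eq_of_le_of_card_ge hZQ hn1.le)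
  rcases hn2 with h | h
  · exact absurd h hn0
  have hq2 : q = 2 := by
    by_contra hq2
    have hodd : Odd q := hq.odd_of_ne_two hq2
    have h1 : Even r := by rw [h]; exact (hodd.pow).add_one
    have h2 : r = 2 := (Nat.Prime.even_iff hr).mp h1
    have h4 : 1 < q ^ n := Nat.one_lt_pow hn0 hq.one_lt
    omega
  subst hq2
  exact ⟨rfl, n, h⟩

/-- **Hall–Higman type theorem (Shult)**: if `x` of prime order `r` acts without fixed points on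
the faithful module `V` and does not centralize the `x`-invariant `q`-subgroup `Q` (`q ≠ r`),
then `q = 2`, `r` is a Fermat prime and `Q` is nonabelian. -/
theorem hh {A V : Type*} [Group A] [Finite A] [CommGroup V] [Finite V] (ℓ : ℕ) [Fact ℓ.Prime]
    (hexp : ∀ v : V, v ^ ℓ = 1) (hA : ¬ ℓ ∣ Nat.card A) (ψ : A →* MulAut V)
    (hinj : Function.Injective ψ) (x : A) (r : ℕ) (hr : r.Prime) (hx : orderOf x = r)
    (hfix : ∀ v : V, ψ x v = v → v = 1) (q : ℕ) (hq : q.Prime) (hqr : q ≠ r) :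
    ∀ (n : ℕ) (Q : Subgroup A), Nat.card Q = n → IsPGroup q Q → (∀ g ∈ Q, x * g * x⁻¹ ∈ Q) →
      (∃ g ∈ Q, x * g ≠ g * x) →
      q = 2 ∧ (∃ n : ℕ, r = 2 ^ n + 1) ∧ ∃ a ∈ Q, ∃ b ∈ Q, a * b ≠ b * a := by
  intro n
  induction n using Nat.strong_induction_on with
  | _ n ih =>
    intro Q hcard hQ hxQ hnc
    by_cases hmin : ∃ H : Subgroup A, H ≤ Q ∧ H ≠ Q ∧ (∀ g ∈ H, x * g * x⁻¹ ∈ H) ∧
        ∃ g ∈ H, x * g ≠ g * x
    · obtain ⟨H, hHQ, hHne, hxH, hncH⟩ := hmin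
      have hlt : Nat.card H < n := by
        rw [← hcard]
        exact lt_of_le_of_ne (Subgroup.card_le_of_le hHQ)
          (fun h => hHne (Subgroup.eq_of_le_of_card_ge hHQ h.ge))
      obtain ⟨h1, h2, a, ha, b, hb, hab⟩ := ih _ hlt H rfl (hQ.to_le hHQ) hxH hncH
      exact ⟨h1, h2, a, hHQ ha, b, hHQ hb, hab⟩
    · push Not at hmin
      exact hh_min ℓ hexp hA ψ hinj x r hr hx hfix q hq hqr Q hQ hxQ hnc hmin

end Cfsg.Agent.Lib.Helper12.XsHH
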