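import Mathlib
import Cfsg.Agent.Lib.Helper12.XsHH
import Cfsg.Agent.Lib.Helper1.CoprimeSylow

set_option autoImplicit false
set_option linter.style.haveILetI false

namespace Cfsg.Agent.Lib.Helper12.XsOdd

open Cfsg.Agent.Lib.Helper12.XsGlue Cfsg.Agent.Lib.Helper12.XsSub Cfsg.Agent.Lib.Helper12

/-- odd order: a fixed-point-free element of prime order `r` on a faithful module centralizes
every invariant subgroup of order prime to `r`. -/
theorem cent_odd {A V : Type*} [Group A] [Finite A] [CommGroup V] [Finite V] (ℓ : ℕ)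
    [Fact ℓ.Prime] (hexp : ∀ v : V, v ^ ℓ = 1) (hA : ¬ ℓ ∣ Nat.card A)
    (hodd : Odd (Nat.card A)) (ψ : A →* MulAut V) (hinj : Function.Injective ψ) (x : A) (r : ℕ)
    (hr : r.Prime) (hx : orderOf x = r) (hfix : ∀ v : V, ψ x v = v → v = 1) (K : Subgroup A)
    (hxK : ∀ g ∈ K, x * g * x⁻¹ ∈ K) (hrK : ¬ r ∣ Nat.card K) : ∀ g ∈ K, x * g = g * x := by
  classical
  set R : Subgroup A := Subgroup.zpowers x with hR
  have hRcard : Nat.card R = r := by rw [hR, Nat.card_zpowers, hx]
  have hRK : R ≤ Subgroup.normalizer (K : Set A) :=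
    Subgroup.zpowers_le.mpr (mem_normalizer_of_conj K x hxK)
  have hcop : (Nat.card R).Coprime (Nat.card K) := by
    rw [hRcard]; exact (Nat.Prime.coprime_iff_not_dvd hr).mpr hrK
  have hRsolv : Group.IsSolvable ↥R := Group.isSolvable_of_comm (fun a b => by
    obtain ⟨i, hi⟩ := Subgroup.mem_zpowers_iff.mp a.2
    obtain ⟨j, hj⟩ := Subgroup.mem_zpowers_iff.mp b.2
    apply Subtype.ext
    rw [Subgroup.coe_mul, Subgroup.coe_mul, ← hi, ← hj]
    exact zpow_mul_comm x i j)
  set C : Subgroup ↥K := (Subgroup.centralizer ({x} : Set A)).subgroupOf K with hC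
  have hCtop : C = ⊤ := by
    rw [← Subgroup.index_eq_one, Nat.eq_one_iff_not_exists_prime_dvd]
    intro q hq hdvd
    haveI : Fact q.Prime := ⟨hq⟩
    obtain ⟨P, hP⟩ := Cfsg.Agent.Lib.Helper1.exists_invariant_sylow R K hRK hcop (Or.inl hRsolv) q
    have hPC : (P : Subgroup ↥K) ≤ C := by
      intro g hg
      rw [hC, Subgroup.mem_subgroupOf, Subgroup.mem_centralizer_iff]
      intro y hy
      rw [Set.mem_singleton_iff] at hy
      subst hy
      set Qs : Subgroup A := (P : Subgroup ↥K).map K.subtype with hQs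
      have hgQ : (g : A) ∈ Qs := Subgroup.mem_map_of_mem _ hg
      have hxQs : ∀ g ∈ Qs, y * g * y⁻¹ ∈ Qs :=
        fun g hg => (Subgroup.mem_normalizer_iff.mp (hP (Subgroup.mem_zpowers y)) g).mp hg
      have hQsp : IsPGroup q Qs := P.isPGroup'.map K.subtype
      obtain ⟨k, hk⟩ := IsPGroup.iff_card.mp hQsp
      by_cases hqr : q = r
      · have h1 : Nat.card Qs ∣ Nat.card K := by
          rw [hQs, Subgroup.card_map_of_injective K.subtype_injective]
          exact Subgroup.card_subgroup_dvd_card _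
        have hk0 : k = 0 := by
          by_contra hk0
          apply hrK
          rw [← hqr]
          exact (dvd_pow_self q hk0).trans (hk ▸ h1)
        rw [hk0, pow_zero] at hk
        have hbot : Qs = ⊥ := Subgroup.eq_bot_of_card_eq _ hk
        have hg1 : (g : A) = 1 := by rw [hbot] at hgQ; exact Subgroup.mem_bot.mp hgQ
        rw [hg1]; simp
      · by_contra hne
        obtain ⟨h2, -, a, ha, b, hb, hab⟩ := XsHH.hh ℓ hexp hA ψ hinj y r hr hx hfix q hq hqr _ Qs
          rfl hQsp hxQs ⟨_, hgQ, hne⟩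
        have h3 : Qs ≠ ⊥ := by
          intro h
          rw [h] at ha hb
          rw [Subgroup.mem_bot.mp ha, Subgroup.mem_bot.mp hb] at hab
          exact hab rfl
        have hk0 : k ≠ 0 := by
          rintro rfl
          rw [pow_zero] at hk
          exact h3 (Subgroup.eq_bot_of_card_eq _ hk)
        have h4 : 2 ∣ Nat.card A := by
          rw [← h2]
          exact ((dvd_pow_self q hk0).trans (hk ▸ dvd_refl _)).trans
            (Subgroup.card_subgroup_dvd_card Qs)
        exact (Nat.not_even_iff_odd.mpr hodd) (even_iff_two_dvd.mpr h4)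
    exact P.not_dvd_index (hdvd.trans (Subgroup.index_dvd_of_le hPC))
  intro g hg
  have h1 : (⟨g, hg⟩ : ↥K) ∈ C := hCtop ▸ Subgroup.mem_top _
  rw [hC, Subgroup.mem_subgroupOf, Subgroup.mem_centralizer_iff] at h1
  exact h1 x rfl

end Cfsg.Agent.Lib.Helper12.XsOdd
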